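import Mathlib
import Cfsg.Agent.SchurClassical.Lifts

/-!
Lifts of `p`-subgroups in a central extension whose kernel has no elements of order `p`.
-/

set_option autoImplicit false

namespace CfsgLib.SchurOrth

open Subgroup
open CfsgLib.SchurClassical (pElts conj_mem_pElts mem_pElts_of_mem)

variable {E G L : Type*} [Group E] [Group G] [Group L] {p : ℕ}

/-- A central extension with kernel of order prime to `p`. -/
structure PCentral (p : ℕ) (θ : E →* G) : Prop where
  surj : Function.Surjective θ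
  ker_le : θ.ker ≤ center E
  prime_to : ∀ a ∈ θ.ker, ∀ k : ℕ, a ^ p ^ k = 1 → a = 1

/-- The subgroup generated by the `p`-elements over `P`. -/
def pLift (p : ℕ) (θ : E →* G) (P : Subgroup G) : Subgroup E :=
  closure {e | e ∈ pElts p E ∧ θ e ∈ P}

namespace PCentral

variable {θ : E →* G} (hθ : PCentral p θ)
include hθ

/-- A `p`-element is determined by its image. -/
theorem eq_of_pElts {e e' : E} (he : e ∈ pElts p E) (he' : e' ∈ pElts p E) (h : θ e = θ e') :
    e = e' := by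
  obtain ⟨j, hj⟩ := he
  obtain ⟨k, hk⟩ := he'
  have hz : e * e'⁻¹ ∈ θ.ker := by rw [MonoidHom.mem_ker, map_mul, map_inv, h, mul_inv_cancel]
  have hcom : Commute (e * e'⁻¹) e' := (mem_center_iff.1 (hθ.ker_le hz) e').symm
  have h1 : e ^ p ^ (j + k) = 1 := by rw [pow_add, pow_mul, hj, one_pow]
  have h2 : e' ^ p ^ (j + k) = 1 := by rw [pow_add, mul_comm, pow_mul, hk, one_pow]
  have h3 : (e * e'⁻¹) ^ p ^ (j + k) = 1 := by
    have h4 := hcom.mul_pow (p ^ (j + k))
    rw [inv_mul_cancel_right, h1, h2, mul_one] at h4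
    exact h4.symm
  exact mul_inv_eq_one.1 (hθ.prime_to _ hz _ h3)

variable [Finite E]

/-- Every `p`-element lifts to a `p`-element. -/
theorem exists_pElt [Fact p.Prime] {g : G} (hg : g ∈ pElts p G) : ∃ e ∈ pElts p E, θ e = g := by
  obtain ⟨k, hk⟩ := hg
  obtain ⟨x, rfl⟩ := hθ.surj g
  have hn : 0 < orderOf x := orderOf_pos x
  obtain ⟨a, b, hb, hab⟩ := Nat.exists_eq_pow_mul_and_not_dvd hn.ne' p (Nat.Prime.ne_one Fact.out)
  have hco : b.Coprime (orderOf (θ x)) :=
    (((Nat.Prime.coprime_iff_not_dvd Fact.out).2 hb).symm.pow_right k).coprime_dvd_right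
      (orderOf_dvd_of_pow_eq_one hk)
  obtain ⟨u, hu⟩ := exists_pow_eq_self_of_coprime hco
  refine ⟨x ^ (b * u), ⟨a, ?_⟩, by rw [map_pow, pow_mul, hu]⟩
  rw [← pow_mul, show b * u * p ^ a = orderOf x * u by rw [hab]; ring, pow_mul, pow_orderOf_eq_one,
    one_pow]

theorem mem_pLift [Fact p.Prime] {P : Subgroup G} (hP : IsPGroup p P) {e : E} :
    e ∈ pLift p θ P ↔ e ∈ pElts p E ∧ θ e ∈ P := by
  refine ⟨fun h => ?_, fun h => subset_closure h⟩
  obtain ⟨R⟩ : Nonempty (Sylow p ↥(P.comap θ)) := inferInstance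
  let ψ : ↥(P.comap θ) →* ↥P := θ.subgroupComap P
  have hψ : Function.Surjective ψ := fun g => by
    obtain ⟨x, hx⟩ := hθ.surj g
    exact ⟨⟨x, by rw [mem_comap, hx]; exact g.2⟩, Subtype.ext hx⟩
  haveI : Finite G := Finite.of_surjective θ hθ.surj
  have hmap : (R : Subgroup ↥(P.comap θ)).map ψ = ⊤ := by
    rw [← index_eq_one]
    by_contra hne
    obtain ⟨n, hn⟩ := hP.index ((R : Subgroup ↥(P.comap θ)).map ψ)
    have hd := index_map_dvd (R : Subgroup ↥(P.comap θ)) hψ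
    rw [hn] at hd hne
    cases n with
    | zero => exact hne (pow_zero p)
    | succ n => exact R.not_dvd_index ((dvd_pow_self p n.succ_ne_zero).trans hd)
  let S : Subgroup E := (R : Subgroup ↥(P.comap θ)).map (P.comap θ).subtype
  have hS : pLift p θ P ≤ S := by
    refine (closure_le _).2 ?_
    rintro t ⟨ht, hθt⟩
    obtain ⟨s, hs, hst⟩ : (⟨θ t, hθt⟩ : ↥P) ∈ (R : Subgroup ↥(P.comap θ)).map ψ := hmap ▸ mem_top _
    refine ⟨s, hs, hθ.eq_of_pElts ?_ ht (congrArg Subtype.val hst)⟩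
    exact mem_pElts_of_mem (R.isPGroup'.map _) ⟨s, hs, rfl⟩
  obtain ⟨s, hs, rfl⟩ := hS h
  exact ⟨mem_pElts_of_mem (R.isPGroup'.map _) ⟨s, hs, rfl⟩, s.2⟩

theorem map_pLift [Fact p.Prime] {P : Subgroup G} (hP : IsPGroup p P) : (pLift p θ P).map θ = P := by
  refine le_antisymm ?_ fun g hg => ?_
  · rintro _ ⟨e, he, rfl⟩
    exact ((hθ.mem_pLift hP).1 he).2
  · obtain ⟨e, he, rfl⟩ := hθ.exists_pElt (mem_pElts_of_mem hP hg)
    exact ⟨e, subset_closure ⟨he, hg⟩, rfl⟩

theorem eq_one_of_pLift [Fact p.Prime] {P : Subgroup G} (hP : IsPGroup p P) {e : E}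
    (he : e ∈ pLift p θ P) (h : θ e = 1) : e = 1 :=
  hθ.eq_of_pElts ((hθ.mem_pLift hP).1 he).1 ⟨0, one_pow _⟩ (h.trans (map_one θ).symm)

omit [Finite E] in
/-- Homomorphisms with the same image agree on a group generated by `p`-elements. -/
theorem hom_ext {f f' : L →* E} (h : ∀ x, θ (f x) = θ (f' x)) {S : Set L} (hS : S ⊆ pElts p L)
    (hgen : closure S = ⊤) : f = f' := by
  refine MonoidHom.eq_of_eqOn_dense hgen fun x hx => hθ.eq_of_pElts ?_ ?_ (h x)
  all_goals
    obtain ⟨k, hk⟩ := hS hx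
    exact ⟨k, by rw [← map_pow, hk, map_one]⟩

end PCentral

end CfsgLib.SchurOrth
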