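import Mathlib
import Cfsg.Agent.SchurOrth.PLift

/-!
Root groups of a group with rank one subgroups over the simple roots: the data used to bound central
extensions with kernel of order prime to the characteristic.
-/

set_option autoImplicit false

namespace CfsgLib.SchurOrth

universe u

/-- A rank one subgroup with its two unipotent subgroups. -/
structure RankOne (G : Type u) [Group G] (p : ℕ) where
  L : Type u
  [grp : Group L]
  [fin : Finite L]
  φ : L →* G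
  U : Subgroup L
  V : Subgroup L
  D : Subgroup L
  W : Set L
  U_p : IsPGroup p U
  V_p : IsPGroup p V
  gen : U ⊔ V = ⊤
  lower : ∀ y ∈ V, y ≠ 1 → ∃ a ∈ U, ∃ n ∈ W, ∃ b ∈ U, y = a * n * b
  mid : ∀ n ∈ W, ∃ a ∈ U, ∃ b ∈ V, ∃ c ∈ U, n = a * b * c
  W_ne : W.Nonempty
  W_inv : ∀ n ∈ W, n⁻¹ ∈ W
  W_mul : ∀ n ∈ W, ∀ n' ∈ W, n * n' ∈ D
  D_comm : ∀ a ∈ D, ∀ b ∈ D, a * b = b * a
  D_coprime : ∀ d ∈ D, ∀ k : ℕ, d ^ p ^ k = 1 → d = 1
  split : ∀ {E : Type u} [Group E] [Finite E] (θ : E →* L), PCentral p θ →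
    ∃ s : L →* E, ∀ x, θ (s x) = x

attribute [instance] RankOne.grp RankOne.fin

/-- `g` permutes the root groups by `π`. -/
def Carries {G : Type u} [Group G] {Φ : Type} (X : Φ → Subgroup G) (g : G) (π : Equiv.Perm Φ) : Prop :=
  ∀ r, (X r).map (MulAut.conj g).toMonoidHom = X (π r)

/-- Root groups with simple roots and rank one subgroups over them. -/
structure Frame (G : Type u) [Group G] (p : ℕ) where
  Φ : Type
  X : Φ → Subgroup G
  X_p : ∀ r, IsPGroup p (X r)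
  X_inj : ∀ r s, X r = X s → r = s
  X_ne : ∀ r, X r ≠ ⊥
  pos : Set Φ
  neg : Φ → Φ
  neg_neg : ∀ r, neg (neg r) = r
  pos_neg : ∀ r, r ∈ pos ↔ neg r ∉ pos
  ι : Type
  [fintype : Fintype ι]
  simple : ι → Φ
  simple_pos : ∀ i, simple i ∈ pos
  R : ι → RankOne G p
  w : ι → Equiv.Perm Φ
  w_simple : ∀ i, w i (simple i) = neg (simple i)
  w_neg : ∀ i r, w i (neg r) = neg (w i r)
  w_pos : ∀ i r, r ∈ pos → r ≠ simple i → w i r ∈ pos
  map_U : ∀ i, (R i).U.map (R i).φ = X (simple i)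
  map_V : ∀ i, (R i).V.map (R i).φ = X (neg (simple i))
  carries_W : ∀ i, ∀ n ∈ (R i).W, Carries X ((R i).φ n) (w i)
  carries_D : ∀ i, ∀ d ∈ (R i).D, Carries X ((R i).φ d) 1
  adj : ∀ i j, ∀ d ∈ (R i).D, ∃ c : (R j).L →* (R j).L, (∀ x ∈ (R j).D, c x = x) ∧
    (∀ n ∈ (R j).W, c n ∈ (R j).W) ∧
    ∀ l, (R i).φ d * (R j).φ l * ((R i).φ d)⁻¹ = (R j).φ (c l)
  U_p : IsPGroup p ↥(⨆ r ∈ pos, X r : Subgroup G)
  norm_simple : ∀ i, ∀ r ∈ pos, r ≠ simple i → ∀ a ∈ X (simple i), ∀ x ∈ X r,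
    a * x * a⁻¹ ∈ (⨆ s ∈ pos \ {simple i}, X s : Subgroup G)
  U_inf_V : (⨆ r ∈ pos, X r : Subgroup G) ⊓ (⨆ r ∈ posᶜ, X r) = ⊥
  mono : ∀ m ∈ Subgroup.closure (⋃ i, (R i).φ '' ((R i).W ∪ (R i).D)),
    ∀ u ∈ (⨆ r ∈ pos, X r : Subgroup G), ∀ v ∈ (⨆ r ∈ posᶜ, X r : Subgroup G), m = u * v → m = 1
  gen : ⨆ i, (R i).φ.range = ⊤

attribute [instance] Frame.fintype

variable {G : Type u} [Group G] {Φ : Type} {X : Φ → Subgroup G}

theorem Carries.mul {g h : G} {π ρ : Equiv.Perm Φ} (hg : Carries X g π) (hh : Carries X h ρ) :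
    Carries X (g * h) (π * ρ) := fun r => by
  rw [Equiv.Perm.mul_apply, ← hg, ← hh, Subgroup.map_map]
  congr 1
  ext x
  simp [MulAut.conj_apply, mul_assoc]

theorem Carries.one : Carries X 1 1 := fun r => by
  rw [Equiv.Perm.one_apply]
  ext x
  simp

theorem Carries.inv {g : G} {π : Equiv.Perm Φ} (hg : Carries X g π) : Carries X g⁻¹ π⁻¹ := fun r => by
  conv_lhs => rw [show r = π (π⁻¹ r) by simp, ← hg]
  rw [Subgroup.map_map]
  ext x
  simp [MulAut.conj_apply, mul_assoc]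

theorem Carries.mem {g x : G} {π : Equiv.Perm Φ} (hg : Carries X g π) {r : Φ} (hx : x ∈ X r) :
    g * x * g⁻¹ ∈ X (π r) := by
  rw [← hg r]
  exact ⟨x, hx, rfl⟩

theorem Carries.unique (hX : ∀ r s, X r = X s → r = s) {g : G} {π ρ : Equiv.Perm Φ}
    (h1 : Carries X g π) (h2 : Carries X g ρ) : π = ρ :=
  Equiv.ext fun r => hX _ _ ((h1 r).symm.trans (h2 r))

namespace Frame

variable {p : ℕ} (F : Frame G p)

/-- The subgroup of positive roots. -/
abbrev posSub : Subgroup G := ⨆ r ∈ F.pos, F.X r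

/-- The subgroup of the other roots. -/
abbrev negSub : Subgroup G := ⨆ r ∈ F.posᶜ, F.X r

theorem le_posSub {r : F.Φ} (h : r ∈ F.pos) : F.X r ≤ F.posSub :=
  le_biSup F.X h

theorem le_negSub {r : F.Φ} (h : r ∉ F.pos) : F.X r ≤ F.negSub :=
  le_biSup F.X (show r ∈ F.posᶜ from h)

theorem neg_simple_notMem (i : F.ι) : F.neg (F.simple i) ∉ F.pos :=
  (F.pos_neg _).1 (F.simple_pos i)

theorem wP_neg (L : List F.ι) (r : F.Φ) :
    (L.map F.w).prod (F.neg r) = F.neg ((L.map F.w).prod r) := by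
  induction L with
  | nil => simp
  | cons i L ih => simp [Equiv.Perm.mul_apply, ih, F.w_neg]

/-- The last step at which a positive root becomes non-positive. -/
theorem exists_split : ∀ (L : List F.ι) {r : F.Φ}, r ∈ F.pos → (L.map F.w).prod r ∉ F.pos →
    ∃ A j B, L = A ++ j :: B ∧ (B.map F.w).prod r = F.simple j := by
  intro L
  induction L with
  | nil => intro r hr h; exact absurd (by simpa using hr) h
  | cons i L ih =>
    intro r hr h
    by_cases hL : (L.map F.w).prod r ∈ F.pos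
    · refine ⟨[], i, L, rfl, ?_⟩
      by_contra hne
      exact h (by simpa [Equiv.Perm.mul_apply] using F.w_pos i _ hL hne)
    · obtain ⟨A, j, B, rfl, e⟩ := ih hr hL
      exact ⟨i :: A, j, B, rfl, e⟩

end Frame

end CfsgLib.SchurOrth
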