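import Mathlib
import Cfsg.Agent.OrthGeo.Simple

/-!
Hyperbolic frames of a quadratic form: coordinates, the flag, unitriangular and monomial isometries.
-/

set_option autoImplicit false
set_option linter.unusedSectionVars false

namespace CfsgLib.SchurOrth

open Cfsg.Geo CfsgLib.OrthGeo Matrix
open scoped MatrixGroups

variable {ι : Type} [Fintype ι] [DecidableEq ι] {F : Type*} [Field F] {Q : (ι → F) → F}

/-- The position of a frame vector in the flag. -/
def deg {m : ℕ} : Fin m ⊕ Fin m → ℕ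
  | .inl i => i
  | .inr i => 2 * m - i

theorem deg_swap {m : ℕ} (a : Fin m ⊕ Fin m) : deg a.swap = 2 * m - deg a := by
  rcases a with i | i <;> simp [deg]
  omega

theorem deg_le {m : ℕ} (a : Fin m ⊕ Fin m) : deg a ≤ 2 * m := by
  rcases a with i | i <;> simp [deg]
  omega

theorem deg_ne {m : ℕ} (a : Fin m ⊕ Fin m) : deg a ≠ m := by
  rcases a with i | i <;> simp [deg] <;> omega

theorem deg_injective {m : ℕ} : Function.Injective (deg (m := m)) := by
  rintro (i | i) (j | j) h <;> simp [deg] at h ⊢ <;> omega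

theorem swap_ne {m : ℕ} (a : Fin m ⊕ Fin m) : a.swap ≠ a := by
  rcases a with i | i <;> simp

/-- A maximal hyperbolic frame. -/
structure Polar (hQ : IsNondegenerateQuadraticForm Q) (m : ℕ) where
  b : Fin m ⊕ Fin m → ι → F
  q_b : ∀ a, Q (b a) = 0
  b_b : ∀ a c, bform hQ (b a) (b c) = if c = a.swap then 1 else 0
  aniso : ∀ w, (∀ a, bform hQ (b a) w = 0) → Q w = 0 → w = 0

namespace Polar

variable {hQ : IsNondegenerateQuadraticForm Q} {m : ℕ} (P : Polar hQ m)

/-- The frame with the two halves exchanged. -/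
def flip : Polar hQ m where
  b a := P.b a.swap
  q_b a := P.q_b _
  b_b a c := by
    rw [P.b_b]
    by_cases h : c = a.swap
    · rw [if_pos h, if_pos (by rw [h])]
    · rw [if_neg h, if_neg fun h' => h (by rw [← Sum.swap_swap c, h', Sum.swap_swap])]
  aniso w h := P.aniso w fun a => by simpa using h a.swap

/-- The coordinate at a frame vector. -/
noncomputable def coord (a : Fin m ⊕ Fin m) : (ι → F) →ₗ[F] F := bform hQ (P.b a.swap)

theorem coord_apply (a : Fin m ⊕ Fin m) (x : ι → F) : P.coord a x = bform hQ (P.b a.swap) x := rfl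

theorem coord_b (a c : Fin m ⊕ Fin m) : P.coord a (P.b c) = if a = c then 1 else 0 := by
  rw [coord_apply, P.b_b, Sum.swap_swap]
  exact if_congr ⟨Eq.symm, Eq.symm⟩ rfl rfl

theorem bform_eq_coord (a : Fin m ⊕ Fin m) (x : ι → F) : bform hQ (P.b a) x = P.coord a.swap x := by
  rw [coord_apply, Sum.swap_swap]

/-- The anisotropic part. -/
noncomputable def W : Submodule F (ι → F) := ⨅ a, LinearMap.ker (P.coord a)

theorem mem_W {w : ι → F} : w ∈ P.W ↔ ∀ a, P.coord a w = 0 := by simp [W]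

theorem coord_W {w : ι → F} (h : w ∈ P.W) (a : Fin m ⊕ Fin m) : P.coord a w = 0 := P.mem_W.1 h a

theorem bform_b_W {w : ι → F} (h : w ∈ P.W) (a : Fin m ⊕ Fin m) : bform hQ (P.b a) w = 0 := by
  rw [P.bform_eq_coord, P.coord_W h]

theorem eq_zero_of_W {w : ι → F} (h : w ∈ P.W) (h0 : Q w = 0) : w = 0 :=
  P.aniso w (P.bform_b_W h) h0

/-- The projection on the anisotropic part. -/
noncomputable def projW : (ι → F) →ₗ[F] (ι → F) :=
  LinearMap.id - ∑ a, (P.coord a).smulRight (P.b a)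

theorem projW_apply (x : ι → F) : P.projW x = x - ∑ a, P.coord a x • P.b a := by simp [projW]

theorem projW_mem (x : ι → F) : P.projW x ∈ P.W :=
  P.mem_W.2 fun a => by simp [projW_apply, map_sub, map_sum, P.coord_b, -Fintype.sum_sum_type]

theorem decomp (x : ι → F) : x = ∑ a, P.coord a x • P.b a + P.projW x := by
  rw [projW_apply, add_sub_cancel]

theorem projW_of_mem {w : ι → F} (h : w ∈ P.W) : P.projW w = w := by
  simp [projW_apply, P.coord_W h]

theorem projW_b (a : Fin m ⊕ Fin m) : P.projW (P.b a) = 0 := by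
  simp [projW_apply, P.coord_b]

theorem b_ne_zero (a : Fin m ⊕ Fin m) : P.b a ≠ 0 := fun h => by
  simpa [h] using P.coord_b a a

theorem eq_zero_of_coord {x : ι → F} (h : ∀ a, P.coord a x = 0) (hw : P.projW x = 0) : x = 0 := by
  rw [P.decomp x, hw]; simp [h]

/-- Matrices agreeing on the frame and on the anisotropic part are equal. -/
theorem gl_eq {g h : GL ι F}
    (hb : ∀ a, (g : Matrix ι ι F) *ᵥ P.b a = (h : Matrix ι ι F) *ᵥ P.b a)
    (hw : ∀ w ∈ P.W, (g : Matrix ι ι F) *ᵥ w = (h : Matrix ι ι F) *ᵥ w) : g = h := by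
  refine OrthGeo.gl_ext fun x => ?_
  rw [P.decomp x]
  simp only [mulVec_add, mulVec_sum, mulVec_smul, hb, hw _ (P.projW_mem x)]

/-- The flag. -/
noncomputable def lev (k : ℕ) : Submodule F (ι → F) where
  carrier := {x | (∀ a, k ≤ deg a → P.coord a x = 0) ∧ (k ≤ m → P.projW x = 0)}
  add_mem' := fun {x y} hx hy => ⟨fun a ha => by simp [hx.1 a ha, hy.1 a ha],
    fun h => by simp [hx.2 h, hy.2 h]⟩
  zero_mem' := ⟨fun a _ => map_zero _, fun _ => map_zero _⟩
  smul_mem' := fun c x hx => ⟨fun a ha => by simp [hx.1 a ha], fun h => by simp [hx.2 h]⟩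

theorem lev_mono {k l : ℕ} (h : k ≤ l) : P.lev k ≤ P.lev l := fun _ hx =>
  ⟨fun a ha => hx.1 a (h.trans ha), fun hl => hx.2 (h.trans hl)⟩

theorem lev_zero : P.lev 0 = ⊥ := eq_bot_iff.2 fun _ hx =>
  (Submodule.mem_bot F).2 (P.eq_zero_of_coord (fun a => hx.1 a (Nat.zero_le _)) (hx.2 (Nat.zero_le _)))

theorem lev_top : P.lev (2 * m + 1) = ⊤ :=
  eq_top_iff.2 fun x _ => ⟨fun a ha => absurd ha (by have := deg_le a; omega), fun h => absurd h (by omega)⟩

theorem b_mem_lev {a : Fin m ⊕ Fin m} {k : ℕ} (h : deg a < k) : P.b a ∈ P.lev k :=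
  ⟨fun c hc => by rw [P.coord_b, if_neg]; rintro rfl; omega, fun _ => P.projW_b a⟩

theorem W_mem_lev {w : ι → F} (hw : w ∈ P.W) {k : ℕ} (h : m < k) : w ∈ P.lev k :=
  ⟨fun a _ => P.coord_W hw a, fun h' => by omega⟩

/-- The condition of being unitriangular with respect to the flag. -/
def IsUp (g : GL ι F) : Prop :=
  ∀ k x, x ∈ P.lev (k + 1) → (g : Matrix ι ι F) *ᵥ x - x ∈ P.lev k

theorem isUp_of {g : GL ι F} (hb : ∀ a, (g : Matrix ι ι F) *ᵥ P.b a - P.b a ∈ P.lev (deg a))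
    (hw : ∀ w ∈ P.W, (g : Matrix ι ι F) *ᵥ w - w ∈ P.lev m) : P.IsUp g := by
  intro k x hx
  rw [P.decomp x, mulVec_add, mulVec_sum,
    show ∀ a b c d : ι → F, a + b - (c + d) = (a - c) + (b - d) from fun a b c d => by abel,
    ← Finset.sum_sub_distrib]
  refine Submodule.add_mem _ (Submodule.sum_mem _ fun a _ => ?_) ?_
  · rw [mulVec_smul, ← smul_sub]
    by_cases h : k + 1 ≤ deg a
    · rw [hx.1 a h, zero_smul]; exact Submodule.zero_mem _
    · exact Submodule.smul_mem _ _ (P.lev_mono (by omega) (hb a))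
  · by_cases h : k + 1 ≤ m
    · rw [hx.2 h, mulVec_zero, sub_zero]; exact Submodule.zero_mem _
    · exact P.lev_mono (by omega) (hw _ (P.projW_mem x))

variable [Finite F]

/-- The unitriangular isometries. -/
noncomputable def up : Subgroup (GL ι F) :=
  { carrier := {g | g ∈ Cfsg.isometryGroup F Q ∧ P.IsUp g}
    one_mem' := ⟨one_mem _, fun k x _ => by simp⟩
    mul_mem' := by
      rintro g h ⟨hg, hg'⟩ ⟨hh, hh'⟩
      refine ⟨mul_mem hg hh, fun k x hx => ?_⟩
      have e : ((g * h : GL ι F) : Matrix ι ι F) *ᵥ x - x =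
          ((g : Matrix ι ι F) *ᵥ ((h : Matrix ι ι F) *ᵥ x - x)) + ((g : Matrix ι ι F) *ᵥ x - x) := by
        rw [Units.val_mul, ← mulVec_mulVec, mulVec_sub]; abel
      rw [e]
      refine Submodule.add_mem _ ?_ (hg' k x hx)
      have hy := hh' k x hx
      generalize (h : Matrix ι ι F) *ᵥ x - x = y at hy
      have h1 := hg' k y (P.lev_mono (Nat.le_succ k) hy)
      have h2 := Submodule.add_mem _ h1 hy
      rwa [sub_add_cancel] at h2
    inv_mem' := by
      rintro g ⟨hg, hg'⟩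
      refine ⟨inv_mem hg, ?_⟩
      haveI : Finite (GL ι F) := inferInstance
      have : g⁻¹ ∈ Submonoid.powers g := by
        rw [(isOfFinOrder_of_finite g).mem_powers_iff_mem_zpowers]
        exact inv_mem (Subgroup.mem_zpowers g)
      obtain ⟨n, hn⟩ := this
      rw [← hn]
      clear hn
      induction n with
      | zero => intro k x _; simp
      | succ n ih =>
        intro k x hx
        have e : ((g ^ (n + 1) : GL ι F) : Matrix ι ι F) *ᵥ x - x =
            (((g ^ n : GL ι F) : Matrix ι ι F) *ᵥ ((g : Matrix ι ι F) *ᵥ x - x)) +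
            (((g ^ n : GL ι F) : Matrix ι ι F) *ᵥ x - x) := by
          rw [pow_succ, Units.val_mul, ← mulVec_mulVec, mulVec_sub]; abel
        dsimp only
        rw [e]
        refine Submodule.add_mem _ ?_ (ih k x hx)
        have hy := hg' k x hx
        generalize (g : Matrix ι ι F) *ᵥ x - x = y at hy
        have h1 := ih k y (P.lev_mono (Nat.le_succ k) hy)
        have h2 := Submodule.add_mem _ h1 hy
        rwa [sub_add_cancel] at h2 }

theorem mem_up {g : GL ι F} : g ∈ P.up ↔ g ∈ Cfsg.isometryGroup F Q ∧ P.IsUp g := Iff.rfl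

theorem mem_up_of {g : GL ι F} (hi : g ∈ Cfsg.isometryGroup F Q)
    (hb : ∀ a, (g : Matrix ι ι F) *ᵥ P.b a - P.b a ∈ P.lev (deg a))
    (hw : ∀ w ∈ P.W, (g : Matrix ι ι F) *ᵥ w - w ∈ P.lev m) : g ∈ P.up :=
  ⟨hi, P.isUp_of hb hw⟩

theorem up_isPGroup {p : ℕ} [CharP F p] [Fact p.Prime] : IsPGroup p P.up := by
  rintro ⟨g, hgi, hg⟩
  set N : Matrix ι ι F := (g : Matrix ι ι F) - 1 with hNdef
  have step : ∀ k x, x ∈ P.lev k → (N ^ k) *ᵥ x = 0 := by
    intro k
    induction k with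
    | zero => intro x hx; simpa [P.lev_zero] using hx
    | succ k ih =>
      intro x hx
      rw [pow_succ, ← mulVec_mulVec, ih]
      rw [hNdef, sub_mulVec, one_mulVec]
      exact hg k x hx
  have hN : N ^ (2 * m + 1) = 0 := Matrix.ext_of_mulVec_single fun j => by
    rw [zero_mulVec]; exact step _ _ (P.lev_top ▸ Submodule.mem_top)
  obtain ⟨k, hk⟩ : ∃ k, 2 * m + 1 ≤ p ^ k :=
    ⟨2 * m + 1, ((2 * m + 1).lt_two_pow_self.le).trans
      (Nat.pow_le_pow_left (Fact.out : p.Prime).two_le _)⟩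
  refine ⟨k, Subtype.ext (Units.ext ?_)⟩
  simp only [SubmonoidClass.coe_pow, Units.val_pow_eq_pow_val, OneMemClass.coe_one, Units.val_one]
  rcases isEmpty_or_nonempty ι with hι | hι
  · exact Subsingleton.elim _ _
  haveI : ExpChar (Matrix ι ι F) p := by
    haveI : CharP (Matrix ι ι F) p := Matrix.charP p
    exact ExpChar.prime Fact.out
  rw [show (g : Matrix ι ι F) = N + 1 from (sub_add_cancel _ _).symm,
    add_pow_expChar_pow_of_commute p k (Commute.one_right N), one_pow, pow_eq_zero_of_le hk hN, zero_add]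

/-- Monomial with respect to the frame, acting by `π`. -/
def IsMono (g : GL ι F) (π : Equiv.Perm (Fin m ⊕ Fin m)) : Prop :=
  g ∈ Cfsg.isometryGroup F Q ∧
    (∀ a, ∃ c : F, (g : Matrix ι ι F) *ᵥ P.b a = c • P.b (π a)) ∧
    ∀ w ∈ P.W, (g : Matrix ι ι F) *ᵥ w ∈ P.W

theorem IsMono.ne_zero {P : Polar hQ m} {g : GL ι F} {π : Equiv.Perm (Fin m ⊕ Fin m)}
    (_hg : P.IsMono g π) {a : Fin m ⊕ Fin m} {c : F}
    (h : (g : Matrix ι ι F) *ᵥ P.b a = c • P.b (π a)) : c ≠ 0 := by
  rintro rfl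
  rw [zero_smul] at h
  refine P.b_ne_zero a ?_
  rw [← OrthGeo.inv_mulVec_cancel g (P.b a), h, mulVec_zero]

theorem IsMono.one : P.IsMono 1 1 := ⟨one_mem _, fun a => ⟨1, by simp⟩, fun w hw => by simpa⟩

theorem IsMono.mul {P : Polar hQ m} {g h : GL ι F} {π ρ : Equiv.Perm (Fin m ⊕ Fin m)}
    (hg : P.IsMono g π) (hh : P.IsMono h ρ) : P.IsMono (g * h) (π * ρ) := by
  refine ⟨mul_mem hg.1 hh.1, fun a => ?_, fun w hw => ?_⟩
  · obtain ⟨c, hc⟩ := hh.2.1 a
    obtain ⟨d, hd⟩ := hg.2.1 (ρ a)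
    exact ⟨c * d, by rw [Units.val_mul, ← mulVec_mulVec, hc, mulVec_smul, hd, smul_smul,
      Equiv.Perm.mul_apply]⟩
  · rw [Units.val_mul, ← mulVec_mulVec]; exact hg.2.2 _ (hh.2.2 _ hw)

theorem IsMono.inv {P : Polar hQ m} {g : GL ι F} {π : Equiv.Perm (Fin m ⊕ Fin m)} (hg : P.IsMono g π) :
    P.IsMono g⁻¹ π⁻¹ := by
  refine ⟨inv_mem hg.1, fun a => ?_, fun w hw => ?_⟩
  · obtain ⟨c, hc⟩ := hg.2.1 (π⁻¹ a)
    have hc0 := hg.ne_zero hc
    refine ⟨c⁻¹, ?_⟩
    have h := congrArg (((g⁻¹ : GL ι F) : Matrix ι ι F) *ᵥ ·) hc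
    simp only [OrthGeo.inv_mulVec_cancel, mulVec_smul, Equiv.Perm.coe_inv, Equiv.apply_symm_apply] at h
    rw [Equiv.Perm.coe_inv, h, smul_smul, inv_mul_cancel₀ hc0, one_smul]
  · let f : P.W →ₗ[F] P.W := (Matrix.toLin' (g : Matrix ι ι F)).restrict fun x hx => by
      rw [Matrix.toLin'_apply]; exact hg.2.2 x hx
    have hinj : Function.Injective f := fun x y h => Subtype.ext (by
      have h' := congrArg (fun z : P.W => ((g⁻¹ : GL ι F) : Matrix ι ι F) *ᵥ (z : ι → F)) h
      simpa [f, LinearMap.restrict_apply, OrthGeo.inv_mulVec_cancel] using h')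
    obtain ⟨⟨y, hy⟩, e⟩ := (LinearMap.injective_iff_surjective.1 hinj) ⟨w, hw⟩
    have e' : (g : Matrix ι ι F) *ᵥ y = w := by simpa [f, LinearMap.restrict_apply] using congrArg Subtype.val e
    rw [← e', OrthGeo.inv_mulVec_cancel]; exact hy

theorem IsMono.swap {P : Polar hQ m} {g : GL ι F} {π : Equiv.Perm (Fin m ⊕ Fin m)} (hg : P.IsMono g π)
    (a : Fin m ⊕ Fin m) : π a.swap = (π a).swap := by
  obtain ⟨c, hc⟩ := hg.2.1 a
  obtain ⟨d, hd⟩ := hg.2.1 a.swap
  have h := isometry_b hQ hg.1 (P.b a) (P.b a.swap)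
  rw [hc, hd, P.b_b a a.swap, if_pos rfl] at h
  by_contra hne
  simp only [map_smul, LinearMap.smul_apply, P.b_b, if_neg hne, smul_eq_mul, mul_zero] at h
  exact zero_ne_one h

/-- A monomial matrix is `1` if it factors as unitriangular times opposite unitriangular. -/
theorem mono_eq_one {n u v : GL ι F} {π : Equiv.Perm (Fin m ⊕ Fin m)} (hn : P.IsMono n π)
    (hu : u ∈ P.up) (hv : v ∈ P.flip.up) (e : n = u * v) : n = 1 := by
  have hui := (inv_mem hu : u⁻¹ ∈ P.up).2
  have hv' : v = u⁻¹ * n := by rw [e, inv_mul_cancel_left]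
  have hcoord : ∀ a x, P.flip.coord a x = P.coord a.swap x := fun a x => by
    simp [coord_apply, flip]
  have hproj : ∀ x, P.flip.projW x = P.projW x := fun x => by
    rw [projW_apply, projW_apply]
    congr 1
    refine Fintype.sum_equiv (Equiv.sumComm _ _) _ _ fun a => ?_
    rw [hcoord]
    rfl
  -- the columns of `v`
  have key : ∀ a, ∀ c : F, (n : Matrix ι ι F) *ᵥ P.b a = c • P.b (π a) → deg a ≤ deg (π a) := by
    intro a c hc
    by_contra hlt
    have h1 := hui (deg (π a)) (P.b (π a)) (P.b_mem_lev (Nat.lt_succ_self _))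
    have h2 := hv.2 (deg a.swap) (P.flip.b a.swap) (P.flip.b_mem_lev (Nat.lt_succ_self _))
    have hvb : (v : Matrix ι ι F) *ᵥ P.b a = c • (((u⁻¹ : GL ι F) : Matrix ι ι F) *ᵥ P.b (π a)) := by
      rw [hv', Units.val_mul, ← mulVec_mulVec, hc, mulVec_smul]
    have e1 := h1.1 (π a) le_rfl
    have e2 := h2.1 (π a).swap (by rw [deg_swap, deg_swap]; omega)
    rw [map_sub, P.coord_b, if_pos rfl, sub_eq_zero] at e1
    rw [hcoord, Sum.swap_swap, show P.flip.b a.swap = P.b a by simp [flip], map_sub, hvb, map_smul, e1, P.coord_b,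
      if_neg (fun h => hlt (by rw [h])), sub_zero, smul_eq_mul, mul_one] at e2
    exact hn.ne_zero hc e2
  have hπ : π = 1 := by
    have h1 : ∑ a, deg (π a) = ∑ a, deg (m := m) a := Equiv.sum_comp π deg
    refine Equiv.ext fun a => deg_injective ?_
    rw [Equiv.Perm.one_apply]
    obtain ⟨c, hc⟩ := hn.2.1 a
    refine le_antisymm ?_ (key a c hc)
    by_contra hlt
    have : ∑ a, deg (m := m) a < ∑ a, deg (π a) := Finset.sum_lt_sum
      (fun x _ => by obtain ⟨c, hc⟩ := hn.2.1 x; exact key x c hc) ⟨a, Finset.mem_univ _, by omega⟩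
    omega
  subst hπ
  refine P.gl_eq (fun a => ?_) fun w hw => ?_
  · obtain ⟨c, hc⟩ := hn.2.1 a
    rw [Equiv.Perm.one_apply] at hc
    have h1 := hui (deg a) (P.b a) (P.b_mem_lev (Nat.lt_succ_self _))
    have h2 := hv.2 (deg a.swap) (P.flip.b a.swap) (P.flip.b_mem_lev (Nat.lt_succ_self _))
    have hvb : (v : Matrix ι ι F) *ᵥ P.b a = c • (((u⁻¹ : GL ι F) : Matrix ι ι F) *ᵥ P.b a) := by
      rw [hv', Units.val_mul, ← mulVec_mulVec, hc, mulVec_smul]
    have hfb : P.flip.b a.swap = P.b a := by simp [flip]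
    rw [hfb] at h2
    have ea := h2.1 a.swap le_rfl
    have eb := h1.1 a le_rfl
    rw [map_sub, P.coord_b, if_pos rfl, sub_eq_zero] at eb
    rw [hcoord, Sum.swap_swap, map_sub, hvb, map_smul, eb, P.coord_b, if_pos rfl, smul_eq_mul, mul_one,
      sub_eq_zero] at ea
    subst ea
    rw [hc, Units.val_one, one_mulVec, one_smul]
  · have h1 := hui m w (P.W_mem_lev hw (Nat.lt_succ_self _))
    have hwf : w ∈ P.flip.W := P.flip.mem_W.2 fun a => by rw [hcoord, P.coord_W hw]
    have h2 := hv.2 m w (P.flip.W_mem_lev hwf (Nat.lt_succ_self _))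
    have hnw := hn.2.2 w hw
    have h1' := hui m _ (P.W_mem_lev hnw (Nat.lt_succ_self _))
    have hvw : (v : Matrix ι ι F) *ᵥ w = ((u⁻¹ : GL ι F) : Matrix ι ι F) *ᵥ ((n : Matrix ι ι F) *ᵥ w) := by
      rw [hv', Units.val_mul, ← mulVec_mulVec]
    have p1 := h1'.2 le_rfl
    have p2 := h2.2 le_rfl
    rw [map_sub, sub_eq_zero, P.projW_of_mem hnw] at p1
    rw [hproj, map_sub, sub_eq_zero, P.projW_of_mem hw, hvw, p1] at p2
    rw [p2, Units.val_one, one_mulVec]

end Polar

end CfsgLib.SchurOrth
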