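import Mathlib
import Cfsg.Agent.SchurOrth.Polar
import Cfsg.Agent.SchurOrth.Frame

/-!
Root groups of a hyperbolic frame: Eichler transformations with frame vectors.
-/

set_option autoImplicit false
set_option linter.unusedSectionVars false

namespace CfsgLib.SchurOrth

open Cfsg.Geo CfsgLib.OrthGeo Matrix
open scoped MatrixGroups

variable {ι : Type} [Fintype ι] [DecidableEq ι] {F : Type*} [Field F] {Q : (ι → F) → F}
section Eichler

variable (hQ : IsNondegenerateQuadraticForm Q)
include hQ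

theorem eMat_smul_left (c : F) (u w : ι → F) :
    eichlerMat Q (c • u) w = eichlerMat Q u (c • w) := by
  refine Matrix.ext_of_mulVec_single fun i => ?_
  generalize (Pi.single i 1 : ι → F) = x
  simp only [eichlerMat_mulVec hQ, map_smul, LinearMap.smul_apply, q_smul hQ, smul_eq_mul]
  module

theorem eMat_swap {u v : ι → F} (hu : Q u = 0) (hv : Q v = 0) (c : F) :
    eichlerMat Q u (c • v) = eichlerMat Q v (-c • u) := by
  refine Matrix.ext_of_mulVec_single fun i => ?_
  generalize (Pi.single i 1 : ι → F) = x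
  simp only [eichlerMat_mulVec hQ, map_smul, LinearMap.smul_apply, q_smul hQ, smul_eq_mul, hu, hv]
  module

theorem eMat_add_left {u u' v : ι → F} (hu : Q u = 0) (hu' : Q u' = 0) (huu : bform hQ u u' = 0)
    (hv : Q v = 0) (huv : bform hQ u v = 0) (hu'v : bform hQ u' v = 0) (c : F) :
    eichlerMat Q (u + u') (c • v) = eichlerMat Q u (c • v) * eichlerMat Q u' (c • v) := by
  rw [eMat_swap hQ (by rw [q_add hQ, hu, hu', huu, add_zero, add_zero]) hv, eMat_swap hQ hu hv,
    eMat_swap hQ hu' hv, eichlerMat_mul hQ hv (by rw [map_smul, b_symm hQ v u, huv, smul_zero])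
    (by rw [map_smul, b_symm hQ v u', hu'v, smul_zero]), smul_add]

theorem eMat_add_left_aniso {u u' w : ι → F} (hu : Q u = 0) (hu' : Q u' = 0) (huu : bform hQ u u' = 0)
    (huw : bform hQ u w = 0) (hu'w : bform hQ u' w = 0) :
    eichlerMat Q (u + u') w =
      eichlerMat Q u (Q w • u') * (eichlerMat Q u w * eichlerMat Q u' w) := by
  refine Matrix.ext_of_mulVec_single fun i => ?_
  generalize (Pi.single i 1 : ι → F) = x
  simp only [← mulVec_mulVec, eichlerMat_mulVec hQ, map_add, map_sub, map_smul, LinearMap.add_apply,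
    LinearMap.smul_apply, smul_eq_mul, b_self hQ u, b_self hQ u', b_self hQ w, hu, hu', q_smul hQ,
    b_symm hQ u' u, huu, huw, hu'w, b_symm hQ w u, b_symm hQ w u']
  module

end Eichler

/-- The label of a root group. -/
def IsRoot {m : ℕ} (sh : Prop) (s : Finset (Fin m ⊕ Fin m)) : Prop :=
  (∃ a c, c ≠ a ∧ c ≠ a.swap ∧ s = {a, c}) ∨ (sh ∧ ∃ a, s = {a})

/-- The roots. -/
def Root (m : ℕ) (sh : Prop) : Type := {s : Finset (Fin m ⊕ Fin m) // IsRoot sh s}

namespace Root

variable {m : ℕ} {sh : Prop}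

/-- Positive roots. -/
def IsPos (s : Root m sh) : Prop := ∑ x ∈ s.1, deg x < s.1.card * m

/-- The root given by a permutation commuting with the exchange. -/
def act (π : Equiv.Perm (Fin m ⊕ Fin m)) (hπ : ∀ a, π a.swap = (π a).swap) (s : Root m sh) : Root m sh :=
  ⟨s.1.map π.toEmbedding, by
    rcases s.2 with ⟨a, c, h1, h2, e⟩ | ⟨h, a, e⟩
    · exact Or.inl ⟨π a, π c, fun h => h1 (π.injective h),
        fun h => h2 (π.injective (h.trans (hπ a).symm)), by simp [e]⟩
    · exact Or.inr ⟨h, π a, by simp [e]⟩⟩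

/-- The opposite root. -/
def neg (s : Root m sh) : Root m sh := act (Equiv.sumComm _ _) (fun _ => rfl) s

theorem neg_neg (s : Root m sh) : neg (neg s) = s := Subtype.ext (by
  ext x
  simp [neg, act, Equiv.sumComm])

theorem sum_ne (s : Root m sh) : ∑ x ∈ s.1, deg x ≠ s.1.card * m := by
  rcases s.2 with ⟨a, c, h1, h2, e⟩ | ⟨_, a, e⟩ <;> rw [e]
  · rw [Finset.sum_pair (Ne.symm h1), Finset.card_pair (Ne.symm h1)]
    intro h
    refine h2 (deg_injective ?_)
    rw [deg_swap]
    omega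
  · simpa using deg_ne a

theorem isPos_neg (s : Root m sh) : IsPos s ↔ ¬ IsPos (neg s) := by
  have hcard : (neg s).1.card = s.1.card := Finset.card_map _
  have hsum : ∑ x ∈ (neg s).1, deg x + ∑ x ∈ s.1, deg x = s.1.card * (2 * m) := by
    change ∑ x ∈ s.1.map (Equiv.sumComm _ _).toEmbedding, deg x + _ = _
    rw [Finset.sum_map, ← Finset.sum_add_distrib, ← smul_eq_mul, ← Finset.sum_const]
    refine Finset.sum_congr rfl fun x _ => ?_
    show deg x.swap + deg x = 2 * m
    rw [deg_swap]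
    have := deg_le x
    omega
  have := sum_ne s
  rw [IsPos, IsPos, hcard]
  generalize s.1.card = n at *
  have e : n * (2 * m) = 2 * (n * m) := by ring
  omega

end Root

namespace Polar

variable {hQ : IsNondegenerateQuadraticForm Q} {m : ℕ} (P : Polar hQ m) {sh : Prop}

/-- The parameters of the Eichler transformations in a root group. -/
def Gen (s : Finset (Fin m ⊕ Fin m)) (a : Fin m ⊕ Fin m) (v : ι → F) : Prop :=
  (s = {a} ∧ v ∈ P.W) ∨ ∃ c, ∃ t : F, c ≠ a ∧ c ≠ a.swap ∧ s = {a, c} ∧ v = t • P.b c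

theorem Gen.bform_eq_zero {P : Polar hQ m} {s : Finset (Fin m ⊕ Fin m)} {a : Fin m ⊕ Fin m}
    {v : ι → F} (h : P.Gen s a v) : bform hQ (P.b a) v = 0 := by
  rcases h with ⟨-, hv⟩ | ⟨c, t, -, h2, -, rfl⟩
  · exact P.bform_b_W hv a
  · rw [map_smul, P.b_b, if_neg h2, smul_zero]

/-- The root group. -/
noncomputable def rootGroup (s : Finset (Fin m ⊕ Fin m)) : Subgroup (GL ι F) :=
  Subgroup.closure {g | ∃ a v, P.Gen s a v ∧ (g : Matrix ι ι F) = eichlerMat Q (P.b a) v}

theorem eichler_mem_rootGroup {s : Finset (Fin m ⊕ Fin m)} {a : Fin m ⊕ Fin m} {v : ι → F}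
    (h : P.Gen s a v) : eichler hQ (P.q_b a) h.bform_eq_zero ∈ P.rootGroup s :=
  Subgroup.subset_closure ⟨a, v, h, rfl⟩

theorem rootGroup_le_of {s : Finset (Fin m ⊕ Fin m)} {H : Subgroup (GL ι F)}
    (h : ∀ a v (hg : P.Gen s a v), eichler hQ (P.q_b a) hg.bform_eq_zero ∈ H) : P.rootGroup s ≤ H :=
  (Subgroup.closure_le _).2 fun g ⟨a, v, hg, e⟩ => by
    rw [show g = eichler hQ (P.q_b a) hg.bform_eq_zero from Units.ext e]; exact h a v hg

theorem rootGroup_le_isometry (s : Finset (Fin m ⊕ Fin m)) :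
    P.rootGroup s ≤ Cfsg.isometryGroup F Q :=
  P.rootGroup_le_of fun _ _ _ => eichler_mem_isometryGroup hQ _ _

theorem rootGroup_le_omega (hn : 5 ≤ Fintype.card ι) (s : Finset (Fin m ⊕ Fin m)) :
    P.rootGroup s ≤ omegaGL Q :=
  P.rootGroup_le_of fun _ _ _ => eichler_mem_omega hQ hn _ _

theorem eichler_b_sub {a : Fin m ⊕ Fin m} {v : ι → F} (hv : bform hQ (P.b a) v = 0)
    (x : ι → F) : (eichler hQ (P.q_b a) hv : Matrix ι ι F) *ᵥ x - x =
      (bform hQ v x - Q v * P.coord a.swap x) • P.b a - P.coord a.swap x • v := by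
  rw [eichler_mulVec hQ, P.bform_eq_coord]
  module

theorem eichler_mem_up [Finite F] {s : Finset (Fin m ⊕ Fin m)}
    (hpos : ∑ x ∈ s, deg x < s.card * m) {a : Fin m ⊕ Fin m} {v : ι → F} (h : P.Gen s a v) :
    eichler hQ (P.q_b a) h.bform_eq_zero ∈ P.up := by
  refine P.mem_up_of (eichler_mem_isometryGroup hQ _ _) (fun x => ?_) fun w hw => ?_
  · rw [eichler_b_sub]
    rcases h with ⟨rfl, hv⟩ | ⟨c, t, h1, h2, rfl, rfl⟩
    · simp at hpos
      rw [b_symm hQ v (P.b x), P.bform_b_W hv, zero_sub, P.coord_b]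
      split_ifs with he
      · subst he
        refine Submodule.sub_mem _ (Submodule.smul_mem _ _ (P.b_mem_lev ?_))
          (Submodule.smul_mem _ _ (P.W_mem_lev hv ?_)) <;> rw [deg_swap] <;> omega
      · simp
    · rw [Finset.sum_pair (Ne.symm h1), Finset.card_pair (Ne.symm h1)] at hpos
      rw [map_smul, LinearMap.smul_apply, P.bform_eq_coord, q_smul hQ, P.q_b, mul_zero, zero_mul,
        sub_zero, P.coord_b, P.coord_b]
      refine Submodule.sub_mem _ ?_ ?_
      · split_ifs with hc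
        · subst hc
          exact Submodule.smul_mem _ _ (P.b_mem_lev (by rw [deg_swap]; omega))
        · simp
      · split_ifs with ha
        · subst ha
          exact Submodule.smul_mem _ _ (Submodule.smul_mem _ _ (P.b_mem_lev (by rw [deg_swap]; omega)))
        · simp
  · rw [eichler_b_sub, P.coord_W hw, mul_zero, sub_zero, zero_smul, sub_zero]
    rcases h with ⟨rfl, hv⟩ | ⟨c, t, h1, h2, rfl, rfl⟩
    · simp at hpos
      exact Submodule.smul_mem _ _ (P.b_mem_lev hpos)
    · rw [map_smul, LinearMap.smul_apply, P.bform_b_W hw, smul_zero, zero_smul]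
      exact Submodule.zero_mem _

theorem rootGroup_le_up [Finite F] {s : Root m sh} (hs : s.IsPos) : P.rootGroup s.1 ≤ P.up :=
  P.rootGroup_le_of fun _ _ h => P.eichler_mem_up hs h

theorem flip_W : P.flip.W = P.W := by
  ext w
  rw [mem_W, mem_W]
  exact ⟨fun h a => by simpa [coord_apply, flip] using h a.swap,
    fun h a => by simpa [coord_apply, flip] using h a.swap⟩

theorem rootGroup_eq_flip (s : Root m sh) : P.rootGroup s.1 = P.flip.rootGroup s.neg.1 := by
  have hmem : ∀ a (v : ι → F), P.Gen s.1 a v ↔ P.flip.Gen s.neg.1 a.swap v := by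
    intro a v
    have hinj : ∀ t t' : Finset (Fin m ⊕ Fin m),
        t.map (Equiv.sumComm _ _).toEmbedding = t'.map (Equiv.sumComm _ _).toEmbedding ↔ t = t' :=
      fun t t' => Finset.map_inj
    rw [Gen, Gen, flip_W]
    refine or_congr (and_congr_left' ?_) ⟨?_, ?_⟩
    · rw [← hinj s.1]; simp [Root.neg, Root.act]
    · rintro ⟨c, t, h1, h2, h3, rfl⟩
      refine ⟨c.swap, t, fun h => h1 (Sum.swap_swap c ▸ Sum.swap_swap a ▸ congrArg Sum.swap h),
        fun h => h2 ?_, ?_, by simp [flip]⟩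
      · rw [← Sum.swap_swap c, h, Sum.swap_swap]
      · simp [Root.neg, Root.act, h3]
    · rintro ⟨c, t, h1, h2, h3, rfl⟩
      refine ⟨c.swap, t, fun h => h1 (by rw [← h, Sum.swap_swap]), fun h => h2 ?_, ?_, by simp [flip]⟩
      · rw [Sum.swap_swap, ← Sum.swap_swap c, h, Sum.swap_swap]
      · rw [← hinj]; simpa [Root.neg, Root.act] using h3
  refine le_antisymm (P.rootGroup_le_of fun a v h => ?_) (P.flip.rootGroup_le_of fun a v h => ?_)
  · refine Subgroup.subset_closure ⟨a.swap, v, (hmem a v).1 h, ?_⟩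
    show eichlerMat Q (P.b a) v = eichlerMat Q (P.b a.swap.swap) v
    rw [Sum.swap_swap]
  · refine Subgroup.subset_closure ⟨a.swap, v, ?_, ?_⟩
    · rw [hmem, Sum.swap_swap]; exact h
    · rfl

theorem rootGroup_le_flip_up [Finite F] {s : Root m sh} (hs : ¬ s.IsPos) :
    P.rootGroup s.1 ≤ P.flip.up := by
  rw [rootGroup_eq_flip]
  refine P.flip.rootGroup_le_up ?_
  by_contra h
  exact hs ((Root.isPos_neg s).2 h)

theorem IsMono.map_rootGroup [Finite F] {P : Polar hQ m} {g : GL ι F}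
    {π : Equiv.Perm (Fin m ⊕ Fin m)} (hg : P.IsMono g π) (s : Root m sh) :
    (P.rootGroup s.1).map (MulAut.conj g).toMonoidHom = P.rootGroup (Root.act π hg.swap s).1 := by
  have key : ∀ (g : GL ι F) (π : Equiv.Perm (Fin m ⊕ Fin m)) (hg : P.IsMono g π) (s : Root m sh),
      (P.rootGroup s.1).map (MulAut.conj g).toMonoidHom ≤ P.rootGroup (Root.act π hg.swap s).1 := by
    intro g π hg s
    rw [Subgroup.map_le_iff_le_comap]
    refine P.rootGroup_le_of fun a v h => ?_
    rw [Subgroup.mem_comap]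
    obtain ⟨κ, hκ⟩ := hg.2.1 a
    refine Subgroup.subset_closure ⟨π a, κ • ((g : Matrix ι ι F) *ᵥ v), ?_, ?_⟩
    · rcases h with ⟨e, hv⟩ | ⟨c, t, h1, h2, e, rfl⟩
      · exact Or.inl ⟨by simp [Root.act, e], P.W.smul_mem _ (hg.2.2 v hv)⟩
      · obtain ⟨μ, hμ⟩ := hg.2.1 c
        refine Or.inr ⟨π c, κ * (t * μ), fun h => h1 (π.injective h),
          fun h => h2 (π.injective (h.trans (hg.swap a).symm)), by simp [Root.act, e], ?_⟩
        rw [mulVec_smul, hμ, smul_smul, smul_smul, mul_assoc]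
    · rw [← eMat_smul_left hQ κ, ← hκ]
      show ((g * eichler hQ (P.q_b a) h.bform_eq_zero * g⁻¹ : GL ι F) : Matrix ι ι F) = _
      rw [conj_eichler hQ hg.1 (P.q_b a) h.bform_eq_zero
        (by rw [mem_isometryGroup.1 hg.1, P.q_b]) (by rw [isometry_b hQ hg.1, h.bform_eq_zero]) rfl rfl]
      rfl
  refine le_antisymm (key g π hg s) ?_
  have h := key g⁻¹ π⁻¹ hg.inv (Root.act π hg.swap s)
  rw [Subgroup.map_le_iff_le_comap] at h
  intro x hx
  have h' := Subgroup.mem_comap.1 (h hx)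
  have hs : Root.act π⁻¹ hg.inv.swap (Root.act π hg.swap s) = s := Subtype.ext (by
    ext y; simp [Root.act, Equiv.Perm.inv_def])
  rw [hs] at h'
  exact ⟨_, h', by simp [MulAut.conj_apply, mul_assoc]⟩

end Polar

end CfsgLib.SchurOrth
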