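import Mathlib
import Cfsg.Agent.SchurOrth.Roots
import Cfsg.Agent.Classical.Orth.CentreOmega

/-!
The projection onto the projective group and root groups in it.
-/

set_option autoImplicit false
set_option linter.unusedSectionVars false

namespace CfsgLib.SchurOrth

open Cfsg.Geo CfsgLib.OrthGeo Matrix
open scoped MatrixGroups

variable {ι : Type} [Fintype ι] [DecidableEq ι] {F : Type*} [Field F] {Q : (ι → F) → F}

/-- `Ω` as a subgroup of the matrices. -/
noncomputable def omegaEquiv (Q : (ι → F) → F) : Cfsg.Omega F Q ≃* ↥(omegaGL Q) :=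
  Subgroup.equivMapOfInjective _ _ (Cfsg.isometryGroup F Q).subtype_injective

/-- The projection onto `PΩ`. -/
noncomputable def prΩ (Q : (ι → F) → F) : ↥(omegaGL Q) →* Cfsg.POmega F Q :=
  (QuotientGroup.mk' _).comp (omegaEquiv Q).symm.toMonoidHom

theorem prΩ_surjective : Function.Surjective (prΩ Q) :=
  (QuotientGroup.mk'_surjective _).comp (omegaEquiv Q).symm.surjective

theorem prΩ_ker : (prΩ Q).ker = Subgroup.center ↥(omegaGL Q) := by
  ext z
  show (QuotientGroup.mk' _ ((omegaEquiv Q).symm z) = 1) ↔ _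
  rw [QuotientGroup.mk'_apply, QuotientGroup.eq_one_iff, Subgroup.mem_center_iff, Subgroup.mem_center_iff]
  constructor
  · intro h y
    exact (omegaEquiv Q).symm.injective (by rw [map_mul, map_mul]; exact h _)
  · intro h y
    exact (omegaEquiv Q).injective (by rw [map_mul, map_mul, MulEquiv.apply_symm_apply]; exact h _)

/-- The image in `PΩ` of a subgroup of matrices. -/
noncomputable def projSub (Q : (ι → F) → F) (H : Subgroup (GL ι F)) : Subgroup (Cfsg.POmega F Q) :=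
  (H.subgroupOf (omegaGL Q)).map (prΩ Q)

theorem mem_projSub {H : Subgroup (GL ι F)} {g : GL ι F} (hg : g ∈ omegaGL Q) (h : g ∈ H) :
    prΩ Q ⟨g, hg⟩ ∈ projSub Q H := ⟨⟨g, hg⟩, h, rfl⟩

theorem projSub_mono {H K : Subgroup (GL ι F)} (h : H ≤ K) : projSub Q H ≤ projSub Q K :=
  Subgroup.map_mono (Subgroup.comap_mono h)

theorem projSub_conj (g : ↥(omegaGL Q)) (H : Subgroup (GL ι F)) :
    (projSub Q H).map (MulAut.conj (prΩ Q g)).toMonoidHom =
      projSub Q (H.map (MulAut.conj (g : GL ι F)).toMonoidHom) := by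
  refine le_antisymm ?_ ?_
  · rintro _ ⟨_, ⟨x, hx, rfl⟩, rfl⟩
    exact ⟨g * x * g⁻¹, ⟨(x : GL ι F), hx, by simp [MulAut.conj_apply]⟩, by simp [MulAut.conj_apply]⟩
  · rintro _ ⟨x, ⟨y, hy, e⟩, rfl⟩
    refine ⟨prΩ Q (g⁻¹ * x * g), ⟨g⁻¹ * x * g, ?_, rfl⟩, ?_⟩
    · show ((g⁻¹ * x * g : ↥(omegaGL Q)) : GL ι F) ∈ H
      simp only [MulEquiv.coe_toMonoidHom, MulAut.conj_apply, Subgroup.coe_subtype] at e
      simp only [Subgroup.coe_mul, Subgroup.coe_inv, ← e]
      simpa [mul_assoc] using hy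
    · simp [MulAut.conj_apply, mul_assoc]

variable [Finite F] (hQ : IsNondegenerateQuadraticForm Q) (hn : 5 ≤ Fintype.card ι)
include hQ hn

/-- The centre consists of scalars. -/
theorem exists_scalar {z : ↥(omegaGL Q)} (hz : z ∈ Subgroup.center ↥(omegaGL Q)) :
    ∃ c : F, ∀ x, ((z : GL ι F) : Matrix ι ι F) *ᵥ x = c • x := by
  have hz' : (omegaEquiv Q).symm z ∈ Subgroup.center (Cfsg.Omega F Q) :=
    Subgroup.mem_center_iff.2 fun y => (omegaEquiv Q).injective (by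
      rw [map_mul, map_mul, MulEquiv.apply_symm_apply]; exact Subgroup.mem_center_iff.1 hz _)
  obtain ⟨c, hc⟩ := CfsgLib.Classical.Orth.scalar_of_mem_center hQ hn hz'
  refine ⟨c, fun x => ?_⟩
  have e : (z : GL ι F) = (((omegaEquiv Q).symm z : Cfsg.isometryGroup F Q) : GL ι F) := by
    conv_lhs => rw [← (omegaEquiv Q).apply_symm_apply z]
    rfl
  rw [e]
  exact hc x

/-- `prΩ` identifies only scalar multiples. -/
theorem scalar_of_prΩ_eq {g h : ↥(omegaGL Q)} (e : prΩ Q g = prΩ Q h) :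
    ∃ c : F, c ≠ 0 ∧ ∀ x, ((g : GL ι F) : Matrix ι ι F) *ᵥ x = c • (((h : GL ι F) : Matrix ι ι F) *ᵥ x) := by
  have hz : g * h⁻¹ ∈ (prΩ Q).ker := by rw [MonoidHom.mem_ker, map_mul, map_inv, e, mul_inv_cancel]
  rw [prΩ_ker] at hz
  obtain ⟨c, hc⟩ := exists_scalar hQ hn hz
  have key : ∀ x, ((g : GL ι F) : Matrix ι ι F) *ᵥ x = c • (((h : GL ι F) : Matrix ι ι F) *ᵥ x) := fun x => by
    rw [← hc]
    rw [Subgroup.coe_mul, Subgroup.coe_inv, Units.val_mul, ← mulVec_mulVec, OrthGeo.inv_mulVec_cancel]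
  refine ⟨c, ?_, key⟩
  rintro rfl
  obtain ⟨i⟩ : Nonempty ι := Fintype.card_pos_iff.1 (by omega)
  have h1 := key (Pi.single i 1)
  rw [zero_smul] at h1
  have h2 := OrthGeo.inv_mulVec_cancel (g : GL ι F) (Pi.single i (1 : F))
  rw [h1, mulVec_zero] at h2
  simpa using congrFun h2.symm i

/-- `prΩ` is injective on `p`-subgroups in characteristic `p`. -/
theorem prΩ_injOn {p : ℕ} [CharP F p] [Fact p.Prime] {H : Subgroup (GL ι F)} (hH : IsPGroup p H)
    {g h : ↥(omegaGL Q)} (hg : (g : GL ι F) ∈ H) (hh : (h : GL ι F) ∈ H) (e : prΩ Q g = prΩ Q h) : g = h := by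
  have hz : g * h⁻¹ ∈ (prΩ Q).ker := by rw [MonoidHom.mem_ker, map_mul, map_inv, e, mul_inv_cancel]
  rw [prΩ_ker] at hz
  obtain ⟨c, hc⟩ := exists_scalar hQ hn hz
  obtain ⟨k, hk⟩ := hH ⟨_, mul_mem hg (inv_mem hh)⟩
  have hk' : ((g : GL ι F) * (h : GL ι F)⁻¹) ^ p ^ k = 1 := congrArg Subtype.val hk
  have hpow : ∀ n x, ((((g : GL ι F) * (h : GL ι F)⁻¹) ^ n : GL ι F) : Matrix ι ι F) *ᵥ x = c ^ n • x := by
    intro n
    induction n with
    | zero => intro x; simp
    | succ n ih =>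
      intro x
      have hc' : (((g : GL ι F) * (h : GL ι F)⁻¹ : GL ι F) : Matrix ι ι F) *ᵥ x = c • x := hc x
      rw [pow_succ, Units.val_mul, ← mulVec_mulVec, hc', mulVec_smul, ih, smul_smul, ← pow_succ']
  obtain ⟨i⟩ : Nonempty ι := Fintype.card_pos_iff.1 (by omega)
  have h1 : c ^ p ^ k = 1 := by
    have := congrFun (hpow (p ^ k) (Pi.single i 1)) i
    rw [hk'] at this
    simpa using this.symm
  have hc1 : c = 1 := by
    have h2 : (c - 1) ^ p ^ k = 0 := by rw [sub_pow_char_pow, h1, one_pow, sub_self]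
    exact sub_eq_zero.1 (pow_eq_zero_iff (pow_ne_zero _ (Fact.out : p.Prime).ne_zero) |>.1 h2)
  rw [← mul_inv_eq_one]
  refine Subtype.ext (OrthGeo.gl_ext fun x => ?_)
  rw [hc x, hc1, one_smul]
  simp

end CfsgLib.SchurOrth
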