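import Mathlib
import Cfsg.Agent.SchurOrth.Omega
import Cfsg.Agent.SchurOrth.Polar
import Cfsg.Agent.Eq.Def_KGroupFacts

/-!
Stem extensions of `PΩ` from perfect central extensions of `Ω`.
-/

set_option autoImplicit false
set_option linter.unusedSectionVars false

namespace CfsgLib.SchurOrth

open Cfsg.Geo CfsgLib.OrthGeo Matrix
open scoped MatrixGroups commutatorElement

universe u

/-- In a perfect central extension the preimage of the centre is central. -/
theorem mem_center_of_perfect {Γ G : Type*} [Group Γ] [Group G] {θ : Γ →* G}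
    (hc : θ.ker ≤ Subgroup.center Γ) (hperf : _root_.commutator Γ = ⊤) {x : Γ}
    (hx : θ x ∈ Subgroup.center G) : x ∈ Subgroup.center Γ := by
  have hk : ∀ y, ⁅x, y⁆ ∈ θ.ker := fun y => by
    rw [MonoidHom.mem_ker, map_commutatorElement, commutatorElement_eq_one_iff_mul_comm,
      Subgroup.mem_center_iff.1 hx (θ y)]
  let φ : Γ →* Subgroup.center Γ :=
    { toFun := fun y => ⟨⁅x, y⁆, hc (hk y)⟩
      map_one' := by ext; simp
      map_mul' := fun a b => by
        ext
        show ⁅x, a * b⁆ = ⁅x, a⁆ * ⁅x, b⁆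
        have hb : a * ⁅x, b⁆ * a⁻¹ = ⁅x, b⁆ := by
          rw [Subgroup.mem_center_iff.1 (hc (hk b)) a, mul_inv_cancel_right]
        calc ⁅x, a * b⁆ = ⁅x, a⁆ * (a * ⁅x, b⁆ * a⁻¹) := by simp only [commutatorElement_def]; group
          _ = _ := by rw [hb] }
  have htop : _root_.commutator Γ ≤ φ.ker := by
    rw [_root_.commutator_def, Subgroup.commutator_le]
    intro a _ b _
    rw [MonoidHom.mem_ker, map_commutatorElement, commutatorElement_eq_one_iff_mul_comm]
    exact (Subgroup.mem_center_iff.1 (φ a).2 _).symm |> Subtype.ext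
  rw [hperf] at htop
  refine Subgroup.mem_center_iff.2 fun y => ?_
  have h : ⁅x, y⁆ = 1 := congrArg Subtype.val
    (htop (Subgroup.mem_top y))
  exact (commutatorElement_eq_one_iff_mul_comm.1 h).symm

variable {ι : Type} [Fintype ι] [DecidableEq ι] {F : Type u} [Field F] {Q : (ι → F) → F}

/-- A perfect central extension of `Ω` is a stem extension of `PΩ`. -/
theorem isStem_prΩ {Γ : Type u} [Group Γ] {θ : Γ →* ↥(omegaGL Q)} (hs : Function.Surjective θ)
    (hc : θ.ker ≤ Subgroup.center Γ) (hperf : _root_.commutator Γ = ⊤) :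
    Cfsg.IsStemExtension ((prΩ Q).comp θ) := by
  refine ⟨prΩ_surjective.comp hs, fun x hx => mem_center_of_perfect hc hperf ?_, hperf ▸ le_top⟩
  rw [← prΩ_ker]
  exact hx

/-- The order of the kernel of the extension of `PΩ`. -/
theorem card_ker_prΩ_comp {Γ : Type u} [Group Γ] {θ : Γ →* ↥(omegaGL Q)} (hs : Function.Surjective θ) :
    Nat.card ((prΩ Q).comp θ).ker =
      Nat.card θ.ker * Nat.card (Subgroup.center ↥(omegaGL Q)) := by
  let K := ((prΩ Q).comp θ).ker
  let r : K →* Subgroup.center ↥(omegaGL Q) :=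
    (θ.comp K.subtype).codRestrict _ fun x => by rw [← prΩ_ker]; exact x.2
  have hr : Function.Surjective r := by
    rintro ⟨z, hz⟩
    obtain ⟨x, rfl⟩ := hs z
    exact ⟨⟨x, by rw [← prΩ_ker] at hz; exact hz⟩, rfl⟩
  have hle : θ.ker ≤ K := fun x hx => by
    show prΩ Q (θ x) = 1
    rw [MonoidHom.mem_ker.1 hx, map_one]
  have hker : r.ker = θ.ker.subgroupOf K := by
    ext x
    rw [MonoidHom.mem_ker, Subgroup.mem_subgroupOf, MonoidHom.mem_ker, Subtype.ext_iff]
    rfl
  have h := r.ker.card_eq_card_quotient_mul_card_subgroup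
  rw [Nat.card_congr (QuotientGroup.quotientKerEquivOfSurjective r hr).toEquiv, hker,
    Nat.card_congr (Subgroup.subgroupOfEquivOfLe hle).toEquiv] at h
  exact h.trans (mul_comm _ _)

/-- The multiplier from the bound and an extension attaining it. -/
theorem hasSchurMultiplier_of_bound {G : Type u} [Group G] (A : Type) [CommGroup A] [Finite A]
    (hbound : ∀ (Γ : Type u) [Group Γ] [Finite Γ] (σ : Γ →* G), Cfsg.IsStemExtension σ →
      ∃ π : A →* σ.ker, Function.Surjective π)
    {Γ : Type u} [Group Γ] [Finite Γ] {σ : Γ →* G} (hσ : Cfsg.IsStemExtension σ)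
    (hcard : Nat.card A ≤ Nat.card σ.ker) : Cfsg.HasSchurMultiplier G A := by
  obtain ⟨π, hπ⟩ := hbound Γ σ hσ
  exact ⟨⟨Γ, inferInstance, inferInstance, σ, hσ,
    ⟨(MulEquiv.ofBijective π (hπ.bijective_of_nat_card_le hcard)).symm⟩⟩, hbound⟩

/-- Three orthogonal vectors of value one. -/
theorem Polar.exists_orth_triple {hQ : IsNondegenerateQuadraticForm Q} {m : ℕ} (P : Polar hQ m)
    (hm : 3 ≤ m) : ∃ a b c : ι → F, Q a = 1 ∧ Q b = 1 ∧ Q c = 1 ∧
      bform hQ a b = 0 ∧ bform hQ a c = 0 ∧ bform hQ b c = 0 := by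
  let v : Fin m → (ι → F) := fun i => P.b (Sum.inl i) + P.b (Sum.inr i)
  have hq : ∀ i, Q (v i) = 1 := fun i => by
    simp only [v, q_add hQ, P.q_b, P.b_b, Sum.swap_inl, zero_add, if_true]
  have hb : ∀ i j, i ≠ j → bform hQ (v i) (v j) = 0 := fun i j h => by
    simp only [v, map_add, LinearMap.add_apply, P.b_b, Sum.swap_inl, Sum.swap_inr]
    simp [Ne.symm h]
  exact ⟨v ⟨0, by omega⟩, v ⟨1, by omega⟩, v ⟨2, by omega⟩, hq _, hq _, hq _,
    hb _ _ (by simp), hb _ _ (by simp), hb _ _ (by simp)⟩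

end CfsgLib.SchurOrth
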