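import Mathlib
import Cfsg.Agent.Schur.CentralCommutator

/-!
Lifting a graded unipotent group along a central extension with the help of a torus: the commutator
subgroup of the preimage meets the kernel trivially.
-/

set_option autoImplicit false

namespace CfsgLib.SchurOrth

open Subgroup
open scoped commutatorElement

universe u v

variable {Γ : Type u} {G : Type v} [Group Γ] [Group G]

/-- Root groups with heights and a torus. -/
structure Graded (G : Type v) [Group G] where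
  Φ : Type
  [finite : Finite Φ]
  X : Φ → Subgroup G
  ht : Φ → ℕ
  ht_pos : ∀ r, 1 ≤ ht r
  comm : ∀ r s, ∀ x ∈ X r, ∀ y ∈ X s, ⁅x, y⁆ ∈ (⨆ t : {t // ht r + ht s ≤ ht t}, X t.1 : Subgroup G)
  sep : ∀ r, ∀ x ∈ X r, x ∈ (⨆ t : {t // t ≠ r ∧ ht r ≤ ht t}, X t.1 : Subgroup G) → x = 1
  T : Subgroup G
  T_comm : ∀ a ∈ T, ∀ b ∈ T, a * b = b * a
  T_mem : ∀ a ∈ T, ∀ r, ∀ x ∈ X r, a * x * a⁻¹ ∈ X r
  tau : Φ → G
  tau_mem : ∀ r, tau r ∈ T
  tau_free : ∀ r, ∀ x ∈ X r, tau r * x = x * tau r → x = 1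

attribute [instance] Graded.finite

namespace Graded

variable (D : Graded G)

/-- The roots of height at least `k`. -/
abbrev upper (k : ℕ) : Subgroup G := ⨆ t : {t // k ≤ D.ht t}, D.X t.1

theorem X_le_upper {r : D.Φ} {k : ℕ} (h : k ≤ D.ht r) : D.X r ≤ D.upper k :=
  le_iSup (fun t : {t // k ≤ D.ht t} => D.X t.1) ⟨r, h⟩

/-- The element of `T` acts freely on the root group. -/
def Free (a : G) (r : D.Φ) : Prop := ∀ x ∈ D.X r, a * x = x * a → x = 1

/-- The element centralises the root group. -/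
def Fixes (a : G) (r : D.Φ) : Prop := ∀ x ∈ D.X r, a * x = x * a

theorem bracket_mem {a : G} (ha : a ∈ D.T) {r : D.Φ} {x : G} (hx : x ∈ D.X r) : ⁅a, x⁆ ∈ D.X r := by
  rw [commutatorElement_def]
  exact mul_mem (D.T_mem a ha r x hx) (inv_mem hx)

variable [Finite G]

theorem exists_bracket {a : G} (ha : a ∈ D.T) {r : D.Φ} (hf : D.Free a r) {x : G} (hx : x ∈ D.X r) :
    ∃ y ∈ D.X r, ⁅a, y⁆ = x := by
  let f : D.X r → D.X r := fun y => ⟨⁅a, (y : G)⁆, D.bracket_mem ha y.2⟩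
  have hinj : Function.Injective f := by
    rintro ⟨y, hy⟩ ⟨z, hz⟩ h
    have e : ⁅a, y⁆ = ⁅a, z⁆ := congrArg Subtype.val h
    refine Subtype.ext (inv_mul_eq_one.1 (hf (z⁻¹ * y) (mul_mem (inv_mem hz) hy) ?_)).symm
    simp only [commutatorElement_def] at e
    have e' : a * y * a⁻¹ * y⁻¹ * (y * a) = a * z * a⁻¹ * z⁻¹ * (y * a) := by rw [e]
    have e1 : a * y = a * z * a⁻¹ * z⁻¹ * (y * a) := by rw [← e']; group
    calc a * (z⁻¹ * y) = a * z⁻¹ * a⁻¹ * (a * y) := by group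
      _ = z⁻¹ * y * a := by rw [e1]; group
  obtain ⟨y, hy⟩ := (Finite.injective_iff_surjective.1 hinj) ⟨x, hx⟩
  exact ⟨y, y.2, congrArg Subtype.val hy⟩

variable {D}
variable {σ : Γ →* G} (hs : Function.Surjective σ) (hc : σ.ker ≤ center Γ)

/-- The chosen torus lift. -/
noncomputable def tlift (D : Graded G) (hs : Function.Surjective σ) (r : D.Φ) : Γ := (hs (D.tau r)).choose

theorem σ_tlift (r : D.Φ) : σ (tlift D hs r) = D.tau r := (hs (D.tau r)).choose_spec

/-- The canonical lift of a root group. -/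
def NR (D : Graded G) (hs : Function.Surjective σ) (r : D.Φ) : Subgroup Γ :=
  closure {z | ∃ y, σ y ∈ D.X r ∧ z = ⁅tlift D hs r, y⁆}

variable (hab : ∀ r, ∀ a b : Γ, σ a ∈ D.X r → σ b ∈ D.X r → a * b = b * a)
include hc hab

theorem mem_NR {r : D.Φ} {z : Γ} (hz : z ∈ NR D hs r) :
    ∃ y, σ y ∈ D.X r ∧ z = ⁅tlift D hs r, y⁆ := by
  induction hz using closure_induction with
  | mem z hz => exact hz
  | one => exact ⟨1, by simp, by simp⟩
  | mul a b _ _ ha hb =>
    obtain ⟨y, hy, rfl⟩ := ha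
    obtain ⟨y', hy', rfl⟩ := hb
    refine ⟨y * y', by rw [map_mul]; exact mul_mem hy hy', (Schur.commutator_mul_right' ?_).symm⟩
    refine hab r _ _ hy ?_
    rw [map_commutatorElement, σ_tlift]
    exact D.bracket_mem (D.tau_mem r) hy'
  | inv a _ ha =>
    obtain ⟨y, hy, rfl⟩ := ha
    refine ⟨y⁻¹, by rw [map_inv]; exact inv_mem hy, ?_⟩
    rw [inv_eq_iff_mul_eq_one, ← Schur.commutator_mul_right', mul_inv_cancel, commutatorElement_one_right]
    refine hab r _ _ hy ?_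
    rw [map_commutatorElement, σ_tlift, map_inv]
    exact D.bracket_mem (D.tau_mem r) (inv_mem hy)

theorem NR_le (r : D.Φ) {z : Γ} (hz : z ∈ NR D hs r) : σ z ∈ D.X r := by
  obtain ⟨y, hy, rfl⟩ := mem_NR hs hc hab hz
  rw [map_commutatorElement, σ_tlift]
  exact D.bracket_mem (D.tau_mem r) hy

theorem NR_inj {r : D.Φ} {z : Γ} (hz : z ∈ NR D hs r) (h : σ z = 1) : z = 1 := by
  obtain ⟨y, hy, rfl⟩ := mem_NR hs hc hab hz
  rw [map_commutatorElement, σ_tlift, commutatorElement_eq_one_iff_mul_comm] at h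
  have h1 := D.tau_free r _ hy h
  rw [Schur.commutator_congr hc (g' := tlift D hs r) rfl (show σ y = σ 1 by rw [h1, map_one]),
    commutatorElement_one_right]

theorem NR_surj {r : D.Φ} {x : G} (hx : x ∈ D.X r) : ∃ z ∈ NR D hs r, σ z = x := by
  obtain ⟨y, hy, rfl⟩ := D.exists_bracket (D.tau_mem r) (D.tau_free r) hx
  obtain ⟨y, rfl⟩ := hs y
  exact ⟨_, subset_closure ⟨y, hy, rfl⟩, by rw [map_commutatorElement, σ_tlift]⟩

theorem NR_conj {r : D.Φ} {t : Γ} (ht : σ t ∈ D.T) {z : Γ} (hz : z ∈ NR D hs r) :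
    t * z * t⁻¹ ∈ NR D hs r := by
  obtain ⟨y, hy, rfl⟩ := mem_NR hs hc hab hz
  refine subset_closure ⟨t * y * t⁻¹, by simpa using D.T_mem _ ht r _ hy, ?_⟩
  rw [show t * ⁅tlift D hs r, y⁆ * t⁻¹ = ⁅t * tlift D hs r * t⁻¹, t * y * t⁻¹⁆ by
    simp only [commutatorElement_def]; group]
  refine Schur.commutator_congr hc ?_ rfl
  rw [map_mul, map_mul, map_inv, σ_tlift, D.T_comm _ ht _ (D.tau_mem r), mul_inv_cancel_right]

omit hc hab in
/-- The lift of the roots of height at least `k`. -/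
def NU (D : Graded G) (hs : Function.Surjective σ) (k : ℕ) : Subgroup Γ :=
  ⨆ t : {t // k ≤ D.ht t}, NR D hs t.1

omit hc hab in
theorem NR_le_NU {r : D.Φ} {k : ℕ} (h : k ≤ D.ht r) : NR D hs r ≤ NU D hs k :=
  le_iSup (fun t : {t // k ≤ D.ht t} => NR D hs t.1) ⟨r, h⟩

omit hc hab in
theorem NU_anti {k l : ℕ} (h : k ≤ l) : NU D hs l ≤ NU D hs k :=
  iSup_le fun t => NR_le_NU hs (h.trans t.2)

theorem map_NU (k : ℕ) : (NU D hs k).map σ = D.upper k := by
  rw [NU, Subgroup.map_iSup]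
  refine iSup_congr fun t => le_antisymm (map_le_iff_le_comap.2 fun z hz => NR_le hs hc hab t.1 hz) fun x hx => ?_
  obtain ⟨z, hz, rfl⟩ := NR_surj hs hc hab hx
  exact ⟨z, hz, rfl⟩

omit hc hab in
/-- The relations among lifts of height sum at least `k`. -/
def Rel (D : Graded G) (hs : Function.Surjective σ) (k : ℕ) : Prop :=
  ∀ r s, k ≤ D.ht r + D.ht s → ∀ x ∈ NR D hs r, ∀ y ∈ NR D hs s, ⁅x, y⁆ ∈ NU D hs (D.ht r + D.ht s)

omit hc hab in
theorem conj_NU {k l : ℕ} (hrel : Rel D hs k) {s : D.Φ} (h : k ≤ l + D.ht s) {g : Γ} (hg : g ∈ NR D hs s)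
    {z : Γ} (hz : z ∈ NU D hs l) : g * z * g⁻¹ ∈ NU D hs l := by
  suffices hle : NU D hs l ≤ (NU D hs l).comap (MulAut.conj g).toMonoidHom from hle hz
  refine iSup_le fun t w hw => ?_
  show g * w * g⁻¹ ∈ NU D hs l
  have h1 : ⁅g, w⁆ ∈ NU D hs l :=
    NU_anti hs (by have := t.2; omega) (hrel s t.1 (by have := t.2; omega) g hg w hw)
  rw [show g * w * g⁻¹ = ⁅g, w⁆ * w by simp only [commutatorElement_def]; group]
  exact mul_mem h1 (NR_le_NU hs t.2 hw)

theorem conj_T_NU {l : ℕ} {t : Γ} (ht : σ t ∈ D.T) {z : Γ} (hz : z ∈ NU D hs l) :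
    t * z * t⁻¹ ∈ NU D hs l := by
  suffices hle : NU D hs l ≤ (NU D hs l).comap (MulAut.conj t).toMonoidHom from hle hz
  exact iSup_le fun s w hw => NR_le_NU hs s.2 (NR_conj hs hc hab ht hw)

theorem inj_step {k : ℕ} (hk : 1 ≤ k) (hrel : Rel D hs (k + 1))
    (hinj : ∀ z ∈ NU D hs (k + 1), σ z = 1 → z = 1) : ∀ z ∈ NU D hs k, σ z = 1 → z = 1 := by
  classical
  haveI : Fintype D.Φ := Fintype.ofFinite _
  let M : Finset D.Φ → Subgroup Γ := fun S => NU D hs (k + 1) ⊔ ⨆ r ∈ S, NR D hs r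
  have hM : ∀ S : Finset D.Φ, (∀ r ∈ S, D.ht r = k) → ∀ z ∈ M S, σ z = 1 → z = 1 := by
    intro S
    induction S using Finset.induction_on with
    | empty => intro _ z hz; exact hinj z (by simpa [M] using hz)
    | insert r S hr ih =>
      intro hS z hz hz1
      have hSr := hS r (Finset.mem_insert_self _ _)
      have hS' : ∀ t ∈ S, D.ht t = k := fun t ht => hS t (Finset.mem_insert_of_mem ht)
      have hnorm : NR D hs r ≤ normalizer (M S : Set Γ) := by
        intro g hg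
        have key : ∀ g ∈ NR D hs r, ∀ n ∈ M S, g * n * g⁻¹ ∈ M S := by
          intro g hg n hn
          suffices hle : M S ≤ (M S).comap (MulAut.conj g).toMonoidHom from hle hn
          refine sup_le (fun w hw => ?_) (iSup₂_le fun t ht w hw => ?_)
          · exact mem_sup_left (conj_NU hs hrel (by omega) hg hw)
          · show g * w * g⁻¹ ∈ M S
            rw [show g * w * g⁻¹ = ⁅g, w⁆ * w by simp only [commutatorElement_def]; group]
            refine mul_mem (mem_sup_left (NU_anti hs ?_ (hrel r t ?_ g hg w hw)))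
              (mem_sup_right (mem_iSup_of_mem t (mem_iSup_of_mem ht hw))) <;>
              rw [hSr, hS' t ht] <;> omega
        refine mem_normalizer_iff.2 fun n => ⟨key g hg n, fun h => ?_⟩
        have := key g⁻¹ (inv_mem hg) _ h
        simpa [mul_assoc] using this
      have e : M (insert r S) = NR D hs r ⊔ M S := by
        simp only [M, Finset.iSup_insert]
        rw [← sup_assoc, ← sup_assoc, sup_comm (NR D hs r)]
      rw [e, ← SetLike.mem_coe, coe_mul_of_left_le_normalizer_right _ _ hnorm] at hz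
      obtain ⟨a, ha, b, hb, rfl⟩ := hz
      have hab' : σ a = 1 := by
        refine D.sep r _ (NR_le hs hc hab r ha) ?_
        rw [map_mul, mul_eq_one_iff_eq_inv] at hz1
        rw [hz1]
        refine inv_mem (mem_comap.1 ((?_ : M S ≤ Subgroup.comap σ
          (⨆ t : {t // t ≠ r ∧ D.ht r ≤ D.ht t}, D.X t.1)) hb))
        refine sup_le (fun w hw => ?_) (iSup₂_le fun t ht w hw => ?_)
        · have h1 : σ w ∈ D.upper (k + 1) := map_NU hs hc hab (k + 1) ▸ mem_map_of_mem σ hw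
          refine (iSup_le fun t => le_iSup_of_le ⟨t.1, ?_, ?_⟩ le_rfl : D.upper (k + 1) ≤ _) h1
          · intro h; have h2 := t.2; rw [h, hSr] at h2; omega
          · have := t.2; omega
        · rw [mem_comap]
          exact mem_iSup_of_mem ⟨t, fun h => hr (h ▸ ht), by rw [hSr, hS' t ht]⟩ (NR_le hs hc hab t hw)
      have ha1 : a = 1 := NR_inj hs hc hab ha hab'
      subst ha1
      simp only [one_mul] at hz1 ⊢
      exact ih hS' b hb hz1
  intro z hz
  refine hM (Finset.univ.filter fun r => D.ht r = k) (fun r hr => (Finset.mem_filter.1 hr).2) z ?_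
  refine (iSup_le fun t => ?_ : NU D hs k ≤ _) hz
  rcases (eq_or_lt_of_le t.2) with h | h
  · exact le_sup_of_le_right (le_iSup₂_of_le t.1 (by simp [h.symm]) le_rfl)
  · exact le_sup_of_le_left (NR_le_NU hs h)

variable (hpair : ∀ r s, r ≠ s → (∃ a ∈ D.T, D.Fixes a r ∧ D.Free a s) ∨
  (∃ a ∈ D.T, D.Fixes a s ∧ D.Free a r) ∨ ∀ a b : Γ, σ a ∈ D.X r → σ b ∈ D.X s → a * b = b * a)
include hpair

theorem rel_step {k : ℕ} (hrel : Rel D hs (k + 1))
    (hinj : ∀ z ∈ NU D hs k, σ z = 1 → z = 1) : Rel D hs k := by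
  intro r s hle x hx y hy
  rcases eq_or_lt_of_le hle with hk | hlt
  swap
  · exact hrel r s hlt x hx y hy
  rw [← hk]
  by_cases hrs : r = s
  · subst hrs
    rw [commutatorElement_eq_one_iff_mul_comm.2 (hab r x y (NR_le hs hc hab r hx) (NR_le hs hc hab r hy))]
    exact one_mem _
  have main : ∀ r s, D.ht r + D.ht s = k → (∃ a ∈ D.T, D.Fixes a r ∧ D.Free a s) →
      ∀ x ∈ NR D hs r, ∀ y ∈ NR D hs s, ⁅x, y⁆ ∈ NU D hs k := by
    intro r s hk ⟨a, haT, hfix, hfree⟩ x hx y hy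
    have hex : ∀ y : NR D hs s, ∃ n ∈ NU D hs k, σ n = σ ⁅x, (y : Γ)⁆ := fun y => by
      have h := D.comm r s _ (NR_le hs hc hab r hx) _ (NR_le hs hc hab s y.2)
      rw [hk, ← map_commutatorElement, show (⨆ t : {t // k ≤ D.ht t}, D.X t.1 : Subgroup G) = (NU D hs k).map σ from
        (map_NU hs hc hab k).symm] at h
      exact h
    choose n hn hσn using hex
    have hδ : ∀ y : NR D hs s, ⁅x, (y : Γ)⁆ * (n y)⁻¹ ∈ σ.ker := fun y => by
      rw [MonoidHom.mem_ker, map_mul, map_inv, hσn, mul_inv_cancel]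
    have huniq : ∀ (y : NR D hs s) (m : Γ), m ∈ NU D hs k → ⁅x, (y : Γ)⁆ * m⁻¹ ∈ σ.ker → m = n y := by
      intro y m hm h
      refine mul_inv_eq_one.1 (hinj _ (mul_mem hm (inv_mem (hn y))) ?_)
      rw [MonoidHom.mem_ker, map_mul, map_inv, mul_inv_eq_one] at h
      rw [map_mul, map_inv, hσn, h, mul_inv_cancel]
    let δ : NR D hs s →* Γ := MonoidHom.mk' (fun y => ⁅x, (y : Γ)⁆ * (n y)⁻¹) fun y y' => by
      have e1 : ⁅x, ((y * y' : NR D hs s) : Γ)⁆ =
          (⁅x, (y : Γ)⁆ * (n y)⁻¹) * (⁅x, (y' : Γ)⁆ * (n y')⁻¹) *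
            (n y * ((y : Γ) * n y' * (y : Γ)⁻¹)) := by
        have c1 := mem_center_iff.1 (hc (hδ y))
        have c2 := mem_center_iff.1 (hc (hδ y'))
        generalize hd : ⁅x, (y : Γ)⁆ * (n y)⁻¹ = d at c1 ⊢
        generalize hd' : ⁅x, (y' : Γ)⁆ * (n y')⁻¹ = d' at c2 ⊢
        rw [mul_inv_eq_iff_eq_mul] at hd hd'
        rw [Subgroup.coe_mul, show ⁅x, (y : Γ) * y'⁆ = ⁅x, (y : Γ)⁆ * ((y : Γ) * ⁅x, (y' : Γ)⁆ * (y : Γ)⁻¹) by
          simp only [commutatorElement_def]; group, hd, hd']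
        calc d * n y * ((y : Γ) * (d' * n y') * (y : Γ)⁻¹)
            = d * n y * ((y : Γ) * d') * (n y' * (y : Γ)⁻¹) := by group
          _ = d * n y * (d' * (y : Γ)) * (n y' * (y : Γ)⁻¹) := by rw [c2 (y : Γ)]
          _ = d * (n y * d') * ((y : Γ) * n y' * (y : Γ)⁻¹) := by group
          _ = d * (d' * n y) * ((y : Γ) * n y' * (y : Γ)⁻¹) := by rw [c2 (n y)]
          _ = _ := by group
      have hmem : n y * ((y : Γ) * n y' * (y : Γ)⁻¹) ∈ NU D hs k :=
        mul_mem (hn y) (conj_NU hs hrel (by have := D.ht_pos s; omega) y.2 (hn y'))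
      have e2 := huniq (y * y') _ hmem (by
        rw [e1, mul_inv_cancel_right]; exact mul_mem (hδ y) (hδ y'))
      rw [e1, ← e2, mul_inv_cancel_right]
    obtain ⟨t, ht⟩ := hs a
    have hxt : t * x * t⁻¹ = x := by
      refine mul_inv_eq_one.1 (NR_inj hs hc hab (mul_mem (NR_conj hs hc hab (ht.symm ▸ haT) hx) (inv_mem hx)) ?_)
      rw [map_mul, map_mul, map_mul, map_inv, map_inv, ht, hfix _ (NR_le hs hc hab r hx)]
      group
    have hinv : ∀ y : NR D hs s,
        δ ⟨t * y * t⁻¹, NR_conj hs hc hab (ht.symm ▸ haT) y.2⟩ = δ y := by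
      intro y
      have e : ⁅x, t * (y : Γ) * t⁻¹⁆ = (⁅x, (y : Γ)⁆ * (n y)⁻¹) * (t * n y * t⁻¹) := by
        have c1 := mem_center_iff.1 (hc (hδ y)) t
        conv_lhs => rw [← hxt]
        calc ⁅t * x * t⁻¹, t * (y : Γ) * t⁻¹⁆
            = t * (⁅x, (y : Γ)⁆ * (n y)⁻¹) * (n y * t⁻¹) := by simp only [commutatorElement_def]; group
          _ = (⁅x, (y : Γ)⁆ * (n y)⁻¹) * t * (n y * t⁻¹) := by rw [c1]
          _ = _ := by group
      have e2 := huniq ⟨t * y * t⁻¹, NR_conj hs hc hab (ht.symm ▸ haT) y.2⟩ (t * n y * t⁻¹)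
        (conj_T_NU hs hc hab (ht.symm ▸ haT) (hn y))
        (by show ⁅x, t * (y : Γ) * t⁻¹⁆ * _ ∈ _; rw [e, mul_inv_cancel_right]; exact hδ y)
      show ⁅x, t * (y : Γ) * t⁻¹⁆ * _ = ⁅x, (y : Γ)⁆ * _
      rw [e, ← e2, mul_inv_cancel_right]
    have hzero : δ ⟨y, hy⟩ = 1 := by
      obtain ⟨u, hu, e⟩ := D.exists_bracket haT hfree (NR_le hs hc hab s hy)
      obtain ⟨z, hz, rfl⟩ := NR_surj hs hc hab hu
      have hy' : y = t * z * t⁻¹ * z⁻¹ := by
        refine mul_inv_eq_one.1 (NR_inj hs hc hab (mul_mem hy (inv_mem (mul_mem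
          (NR_conj hs hc hab (ht.symm ▸ haT) hz) (inv_mem hz)))) ?_)
        rw [map_mul, map_inv, ← e, map_mul, map_mul, map_mul, map_inv, map_inv, ht, commutatorElement_def,
          mul_inv_cancel]
      have hy'' : (⟨y, hy⟩ : NR D hs s) = ⟨t * z * t⁻¹, NR_conj hs hc hab (ht.symm ▸ haT) hz⟩ * (⟨z, hz⟩)⁻¹ :=
        Subtype.ext hy'
      rw [hy'', map_mul, map_inv, hinv ⟨z, hz⟩, mul_inv_cancel]
    have : ⁅x, y⁆ = n ⟨y, hy⟩ := mul_inv_eq_one.1 hzero
    rw [this]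
    exact hn _
  rcases hpair r s hrs with h | h | h
  · exact main r s hk.symm h x hx y hy
  · rw [← commutatorElement_inv]
    exact inv_mem (main s r (by omega) h y hy x hx)
  · rw [commutatorElement_eq_one_iff_mul_comm.2 (h x y (NR_le hs hc hab r hx) (NR_le hs hc hab s hy))]
    exact one_mem _

theorem inj_all (k : ℕ) (hk : 1 ≤ k) :
    (∀ z ∈ NU D hs k, σ z = 1 → z = 1) ∧ Rel D hs k := by
  classical
  haveI : Fintype D.Φ := Fintype.ofFinite _
  obtain ⟨K, hK⟩ : ∃ K, ∀ r, D.ht r < K :=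
    ⟨(Finset.univ.sup D.ht) + 1, fun r => Nat.lt_succ_of_le (Finset.le_sup (Finset.mem_univ r))⟩
  suffices h : ∀ d k, 1 ≤ k → 2 * K ≤ k + d → (∀ z ∈ NU D hs k, σ z = 1 → z = 1) ∧ Rel D hs k from
    h (2 * K) k hk (by omega)
  intro d
  induction d with
  | zero =>
    intro k hk hkd
    have hbot : NU D hs k = ⊥ := eq_bot_iff.2 (iSup_le fun t => by
      have := t.2; have := hK t.1; omega)
    exact ⟨fun z hz _ => by rwa [hbot, mem_bot] at hz, fun r s h => by have := hK r; have := hK s; omega⟩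
  | succ d ih =>
    intro k hk hkd
    obtain ⟨h1, h2⟩ := ih (k + 1) (by omega) (by omega)
    have h3 := inj_step hs hc hab hk h2 h1
    exact ⟨h3, rel_step hs hc hab hpair h2 h3⟩

include hs in
/-- The derived subgroup of the preimage of the unipotent group meets the kernel trivially. -/
theorem ker_inf_commutator :
    σ.ker ⊓ ⁅(D.upper 1).comap σ, (D.upper 1).comap σ⁆ = ⊥ := by
  have hinj := (inj_all hs hc hab hpair 1 le_rfl).1
  rw [eq_bot_iff]
  rintro z ⟨hz, hzc⟩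
  refine mem_bot.2 (hinj z ?_ hz)
  refine (commutator_le.2 fun a ha b hb => ?_ :
    ⁅(D.upper 1).comap σ, (D.upper 1).comap σ⁆ ≤ NU D hs 1) hzc
  rw [mem_comap, ← map_NU hs hc hab 1] at ha hb
  obtain ⟨a', ha', ea⟩ := ha
  obtain ⟨b', hb', eb⟩ := hb
  rw [Schur.commutator_congr hc ea.symm eb.symm, commutatorElement_def]
  exact mul_mem (mul_mem (mul_mem ha' hb') (inv_mem ha')) (inv_mem hb')

end Graded

end CfsgLib.SchurOrth
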