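import Mathlib
import Cfsg.Agent.SchurOrth.Roots

/-!
A positive root element normalises the subgroup generated by the other positive root groups.
-/

set_option autoImplicit false
set_option linter.unusedSectionVars false

namespace CfsgLib.SchurOrth

open Cfsg.Geo CfsgLib.OrthGeo Matrix
open scoped MatrixGroups

variable {ι : Type} [Fintype ι] [DecidableEq ι] {F : Type*} [Field F] {Q : (ι → F) → F}
variable {hQ : IsNondegenerateQuadraticForm Q} {m : ℕ} (P : Polar hQ m)

namespace Polar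

/-- The positive root groups other than `σ`. -/
noncomputable def others (sh : Prop) (σ : Finset (Fin m ⊕ Fin m)) : Subgroup (GL ι F) :=
  ⨆ (s : Root m sh) (_ : s.IsPos ∧ s.1 ≠ σ), P.rootGroup s.1

/-- The matrix belongs to the subgroup. -/
def MatIn (M : Matrix ι ι F) (H : Subgroup (GL ι F)) : Prop := ∃ g ∈ H, (g : Matrix ι ι F) = M

theorem MatIn.mul {M N : Matrix ι ι F} {H : Subgroup (GL ι F)} (hM : MatIn M H) (hN : MatIn N H) :
    MatIn (M * N) H := by
  obtain ⟨g, hg, rfl⟩ := hM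
  obtain ⟨k, hk, rfl⟩ := hN
  exact ⟨g * k, mul_mem hg hk, rfl⟩

variable (sh : Prop) {σ : Finset (Fin m ⊕ Fin m)}

theorem matIn_long {a y : Fin m ⊕ Fin m} (k : F) (h : deg a + deg y < 2 * m)
    (hk : k ≠ 0 → y ≠ a → y ≠ a.swap ∧ ({a, y} : Finset _) ≠ σ) :
    MatIn (eichlerMat Q (P.b a) (k • P.b y)) (P.others sh σ) := by
  by_cases hk0 : k = 0
  · exact ⟨1, one_mem _, by rw [hk0, zero_smul, eichlerMat_zero hQ]; rfl⟩
  by_cases hya : y = a
  · refine ⟨1, one_mem _, ?_⟩
    subst hya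
    refine Matrix.ext_of_mulVec_single fun i => ?_
    generalize (Pi.single i 1 : ι → F) = x
    rw [eichlerMat_mulVec hQ, map_smul, LinearMap.smul_apply, q_smul hQ, P.q_b, Units.val_one,
      one_mulVec, smul_eq_mul]
    module
  obtain ⟨h1, h2⟩ := hk hk0 hya
  have hg : P.Gen {a, y} a (k • P.b y) := Or.inr ⟨y, k, hya, h1, rfl, rfl⟩
  let s : Root m sh := ⟨{a, y}, Or.inl ⟨a, y, hya, h1, rfl⟩⟩
  have hs : s.IsPos ∧ s.1 ≠ σ := ⟨by
    show ∑ x ∈ ({a, y} : Finset _), deg x < _
    rw [Finset.sum_pair (Ne.symm hya), Finset.card_pair (Ne.symm hya)]; omega, h2⟩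
  exact ⟨_, le_iSup₂_of_le (f := fun (s : Root m sh) (_ : s.IsPos ∧ s.1 ≠ σ) => P.rootGroup s.1) s hs
    le_rfl (P.eichler_mem_rootGroup hg), rfl⟩

theorem matIn_short {a : Fin m ⊕ Fin m} {w : ι → F} (hsh : sh) (hw : w ∈ P.W) (h : deg a < m)
    (hne : ({a} : Finset _) ≠ σ) : MatIn (eichlerMat Q (P.b a) w) (P.others sh σ) := by
  have hg : P.Gen {a} a w := Or.inl ⟨rfl, hw⟩
  let s : Root m sh := ⟨{a}, Or.inr ⟨hsh, a, rfl⟩⟩
  have hs : s.IsPos ∧ s.1 ≠ σ := ⟨by simpa [Root.IsPos, s] using h, hne⟩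
  exact ⟨_, le_iSup₂_of_le (f := fun (s : Root m sh) (_ : s.IsPos ∧ s.1 ≠ σ) => P.rootGroup s.1) s hs
    le_rfl (P.eichler_mem_rootGroup hg), rfl⟩

theorem long_apply {α γ : Fin m ⊕ Fin m} (t : F) (hv : bform hQ (P.b α) (t • P.b γ) = 0) (x : ι → F) :
    (eichler hQ (P.q_b α) hv : Matrix ι ι F) *ᵥ x =
      x + (t * P.coord γ.swap x) • P.b α - (t * P.coord α.swap x) • P.b γ := by
  rw [eichler_mulVec hQ, P.bform_eq_coord, map_smul, LinearMap.smul_apply, P.bform_eq_coord, q_smul hQ,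
    P.q_b, smul_eq_mul]
  module

theorem short_apply_b {α : Fin m ⊕ Fin m} {u : ι → F} (hu : u ∈ P.W)
    (hv : bform hQ (P.b α) u = 0) (a : Fin m ⊕ Fin m) :
    (eichler hQ (P.q_b α) hv : Matrix ι ι F) *ᵥ P.b a =
      if a = α.swap then P.b a - u - Q u • P.b α else P.b a := by
  rw [eichler_mulVec hQ, P.bform_eq_coord, b_symm hQ u, P.bform_b_W hu, P.coord_b]
  by_cases h : a = α.swap
  · rw [if_pos h, if_pos h.symm]; module
  · rw [if_neg h, if_neg (Ne.symm h)]; module

theorem short_apply_W {α : Fin m ⊕ Fin m} {u w : ι → F} (hv : bform hQ (P.b α) u = 0) (hw : w ∈ P.W) :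
    (eichler hQ (P.q_b α) hv : Matrix ι ι F) *ᵥ w = w + bform hQ u w • P.b α := by
  rw [eichler_mulVec hQ, P.bform_b_W hw]
  module

/-- The images of the frame vectors of a root under a long root element. -/
theorem long_conj {α γ : Fin m ⊕ Fin m} (h1 : γ ≠ α) (h2 : γ ≠ α.swap) (t : F)
    (hpos : deg α + deg γ < 2 * m) (hv : bform hQ (P.b α) (t • P.b γ) = 0) (a : Fin m ⊕ Fin m) :
    ∃ y, ∃ k : F, (eichler hQ (P.q_b α) hv : Matrix ι ι F) *ᵥ P.b a = P.b a + k • P.b y ∧
      (k = 0 → y = a) ∧ (k ≠ 0 → deg y < deg a ∧ ((a = γ.swap ∧ y = α) ∨ (a = α.swap ∧ y = γ))) := by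
  rw [long_apply, P.coord_b, P.coord_b]
  have hsw : γ.swap ≠ α.swap := fun h => h1 (by rw [← Sum.swap_swap γ, h, Sum.swap_swap])
  by_cases hγ : γ.swap = a
  · subst hγ
    by_cases ht : t = 0
    · exact ⟨γ.swap, 0, by simp [ht], fun _ => rfl, fun h => absurd rfl h⟩
    refine ⟨α, t, by simp [Ne.symm hsw], fun h => absurd h ht, fun _ => ⟨?_, Or.inl ⟨rfl, rfl⟩⟩⟩
    rw [deg_swap]; omega
  by_cases hα : α.swap = a
  · subst hα
    by_cases ht : t = 0
    · exact ⟨α.swap, 0, by simp [ht], fun _ => rfl, fun h => absurd rfl h⟩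
    refine ⟨γ, -t, by simp [hsw]; module, fun h => absurd (neg_eq_zero.1 h) ht,
      fun _ => ⟨?_, Or.inr ⟨rfl, rfl⟩⟩⟩
    rw [deg_swap]; omega
  exact ⟨a, 0, by simp [hγ, hα], fun _ => rfl, fun h => absurd rfl h⟩

theorem long_norm [Finite F] {α γ : Fin m ⊕ Fin m} (h1 : γ ≠ α) (h2 : γ ≠ α.swap) (t : F)
    (hpos : deg α + deg γ < 2 * m) (hv : bform hQ (P.b α) (t • P.b γ) = 0) {r : Root m sh}
    (hr : r.IsPos) (hne : r.1 ≠ {α, γ}) {x : GL ι F} (hx : x ∈ P.rootGroup r.1) :
    eichler hQ (P.q_b α) hv * x * (eichler hQ (P.q_b α) hv)⁻¹ ∈ P.others sh {α, γ} := by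
  set g := eichler hQ (P.q_b α) hv with hg
  have hgI : g ∈ Cfsg.isometryGroup F Q := eichler_mem_isometryGroup hQ _ _
  refine (P.rootGroup_le_of (H := (P.others sh {α, γ}).comap (MulAut.conj g).toMonoidHom) ?_) hx
  intro a v h
  suffices hm : MatIn (eichlerMat Q ((g : Matrix ι ι F) *ᵥ P.b a) ((g : Matrix ι ι F) *ᵥ v))
      (P.others sh {α, γ}) by
    obtain ⟨k, hk, e⟩ := hm
    show g * _ * g⁻¹ ∈ P.others sh {α, γ}
    rw [conj_eichler hQ hgI (P.q_b a) h.bform_eq_zero (by rw [mem_isometryGroup.1 hgI, P.q_b])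
      (by rw [isometry_b hQ hgI, h.bform_eq_zero]) rfl rfl]
    convert hk
    exact Units.ext e.symm
  rcases h with ⟨e, hw⟩ | ⟨c, s, hca, hcb, e, rfl⟩
  · -- short root
    have hsh : sh := by
      rcases r.2 with ⟨p, q, hpq, -, e'⟩ | ⟨hsh, -⟩
      · rw [e] at e'
        have := congrArg Finset.card e'
        rw [Finset.card_singleton, Finset.card_pair (Ne.symm hpq)] at this
        omega
      · exact hsh
    have hda : deg a < m := by simpa [Root.IsPos, e] using hr
    have hgv : (g : Matrix ι ι F) *ᵥ v = v := by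
      rw [hg, long_apply, P.coord_W hw, P.coord_W hw]; module
    have hsing : ∀ z : Fin m ⊕ Fin m, ({z} : Finset _) ≠ {α, γ} := fun z hz => by
      have := congrArg Finset.card hz
      rw [Finset.card_singleton, Finset.card_pair (Ne.symm h1)] at this
      omega
    obtain ⟨y, k, ey, hk0, hk⟩ := P.long_conj h1 h2 t hpos hv a
    rw [← hg] at ey
    rw [ey, hgv]
    by_cases hkz : k = 0
    · rw [hkz, zero_smul, add_zero]; exact P.matIn_short sh hsh hw hda (hsing a)
    obtain ⟨hlt, hor⟩ := hk hkz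
    have hya : y ≠ a := fun h => by rw [h] at hlt; omega
    have hys : y ≠ a.swap := by
      rcases hor with ⟨rfl, rfl⟩ | ⟨rfl, rfl⟩ <;> rw [Sum.swap_swap]
      exacts [Ne.symm h1, h1]
    rw [eMat_add_left_aniso hQ (P.q_b a) (by rw [q_smul hQ, P.q_b, mul_zero])
      (by rw [map_smul, P.b_b, if_neg hys, smul_zero]) (P.bform_b_W hw a)
      (by rw [map_smul, LinearMap.smul_apply, P.bform_b_W hw, smul_zero]), smul_smul,
      eMat_smul_left hQ k (P.b y)]
    refine MatIn.mul (P.matIn_long sh _ (by omega) fun _ _ => ⟨hys, ?_⟩)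
      (MatIn.mul (P.matIn_short sh hsh hw hda (hsing a))
        (P.matIn_short sh hsh (P.W.smul_mem k hw) (by omega) (hsing y)))
    intro he
    have ha : a ∈ ({α, γ} : Finset _) := he ▸ Finset.mem_insert_self _ _
    simp only [Finset.mem_insert, Finset.mem_singleton] at ha
    rcases hor with ⟨rfl, rfl⟩ | ⟨rfl, rfl⟩ <;> rcases ha with h | h
    exacts [h2 (by rw [← h, Sum.swap_swap]), swap_ne γ h, swap_ne α h, h2 h.symm]
  · -- long root
    have hda : deg a + deg c < 2 * m := by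
      have := hr
      rw [Root.IsPos, e, Finset.sum_pair (Ne.symm hca), Finset.card_pair (Ne.symm hca)] at this
      omega
    obtain ⟨y, k, ey, hk0, hk⟩ := P.long_conj h1 h2 t hpos hv a
    obtain ⟨z, l, ez, hl0, hl⟩ := P.long_conj h1 h2 t hpos hv c
    rw [← hg] at ey ez
    rw [mulVec_smul, ey, ez]
    -- at most one of the two vectors moves
    have hcases : k = 0 ∨ l = 0 := by
      by_contra hc
      push Not at hc
      rcases (hk hc.1).2 with ⟨rfl, rfl⟩ | ⟨rfl, rfl⟩ <;> rcases (hl hc.2).2 with ⟨rfl, rfl⟩ | ⟨rfl, rfl⟩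
      · exact hca rfl
      · rw [deg_swap, deg_swap] at hda; omega
      · rw [deg_swap, deg_swap] at hda; omega
      · exact hca rfl
    rcases hcases with hz | hz
    · rw [hz, zero_smul, add_zero, smul_add, smul_smul, ← eichlerMat_mul hQ (P.q_b a)
        (by rw [map_smul, P.b_b, if_neg hcb, smul_zero]) (by
          by_cases hl' : l = 0
          · rw [hl', mul_zero, zero_smul, map_zero]
          · rw [map_smul, P.b_b, if_neg, smul_zero]
            rintro rfl
            have := (hl hl').1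
            rw [deg_swap] at this
            omega)]
      refine MatIn.mul (P.matIn_long sh _ (by omega) fun _ _ => ⟨hcb, by rw [← e]; exact hne⟩)
        (P.matIn_long sh _ ?_ fun hl' hza => ?_)
      · rcases eq_or_ne l 0 with h | h
        · rw [hl0 h]; omega
        · have := (hl h).1; omega
      have hl'' : l ≠ 0 := fun h => hl' (by rw [h, mul_zero])
      refine ⟨fun h => ?_, fun he => ?_⟩
      · subst h
        have := (hl hl'').1
        rw [deg_swap] at this
        omega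
      · have ha : a ∈ ({α, γ} : Finset _) := he ▸ Finset.mem_insert_self _ _
        simp only [Finset.mem_insert, Finset.mem_singleton] at ha
        rcases (hl hl'').2 with ⟨rfl, rfl⟩ | ⟨rfl, rfl⟩ <;> rcases ha with rfl | rfl
        exacts [hza rfl, hcb rfl, hcb rfl, hza rfl]
    · rw [hz, zero_smul, add_zero]
      have hyd : deg y + deg c < 2 * m := by
        rcases eq_or_ne k 0 with h | h
        · rw [hk0 h]; omega
        · have := (hk h).1; omega
      by_cases hk' : k = 0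
      · rw [hk', zero_smul, add_zero]
        exact P.matIn_long sh _ hda fun _ _ => ⟨hcb, by rw [← e]; exact hne⟩
      have hya : y ≠ a.swap := by
        rcases (hk hk').2 with ⟨rfl, rfl⟩ | ⟨rfl, rfl⟩ <;> rw [Sum.swap_swap]
        exacts [Ne.symm h1, h1]
      have hcy : c ≠ y.swap := fun h => by
        subst h; rw [deg_swap] at hyd; omega
      rw [eMat_add_left hQ (P.q_b a) (by rw [q_smul hQ, P.q_b, mul_zero])
        (by rw [map_smul, P.b_b, if_neg hya, smul_zero]) (P.q_b c) (by rw [P.b_b, if_neg hcb])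
        (by rw [map_smul, LinearMap.smul_apply, P.b_b, if_neg hcy, smul_zero]),
        eMat_smul_left hQ k (P.b y), smul_smul]
      refine MatIn.mul (P.matIn_long sh _ hda fun _ _ => ⟨hcb, by rw [← e]; exact hne⟩)
        (P.matIn_long sh _ hyd fun _ hcy' => ⟨hcy, fun he => ?_⟩)
      have hc' : c ∈ ({α, γ} : Finset _) := he ▸ Finset.mem_insert_of_mem (Finset.mem_singleton_self _)
      simp only [Finset.mem_insert, Finset.mem_singleton] at hc'
      rcases (hk hk').2 with ⟨rfl, rfl⟩ | ⟨rfl, rfl⟩ <;> rcases hc' with rfl | rfl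
      exacts [hcy' rfl, hcb (Sum.swap_swap _).symm, hcb (Sum.swap_swap _).symm, hcy' rfl]

theorem short_norm [Finite F] {α : Fin m ⊕ Fin m} {u : ι → F} (hsh : sh) (hu : u ∈ P.W)
    (hα : deg α < m) (hv : bform hQ (P.b α) u = 0) {r : Root m sh}
    (hr : r.IsPos) (hne : r.1 ≠ {α}) {x : GL ι F} (hx : x ∈ P.rootGroup r.1) :
    eichler hQ (P.q_b α) hv * x * (eichler hQ (P.q_b α) hv)⁻¹ ∈ P.others sh {α} := by
  set g := eichler hQ (P.q_b α) hv with hg
  have hgI : g ∈ Cfsg.isometryGroup F Q := eichler_mem_isometryGroup hQ _ _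
  refine (P.rootGroup_le_of (H := (P.others sh {α}).comap (MulAut.conj g).toMonoidHom) ?_) hx
  intro a v h
  suffices hm : MatIn (eichlerMat Q ((g : Matrix ι ι F) *ᵥ P.b a) ((g : Matrix ι ι F) *ᵥ v))
      (P.others sh {α}) by
    obtain ⟨k, hk, e⟩ := hm
    show g * _ * g⁻¹ ∈ P.others sh {α}
    rw [conj_eichler hQ hgI (P.q_b a) h.bform_eq_zero (by rw [mem_isometryGroup.1 hgI, P.q_b])
      (by rw [isometry_b hQ hgI, h.bform_eq_zero]) rfl rfl]
    convert hk
    exact Units.ext e.symm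
  have hgb := P.short_apply_b hu hv
  rw [← hg] at hgb
  have hpair : ∀ p q : Fin m ⊕ Fin m, q ≠ p → ({p, q} : Finset _) ≠ {α} := fun p q hpq he => by
    have := congrArg Finset.card he
    rw [Finset.card_singleton, Finset.card_pair (Ne.symm hpq)] at this
    omega
  rcases h with ⟨e, hw⟩ | ⟨c, s, hca, hcb, e, rfl⟩
  · have hda : deg a < m := by simpa [Root.IsPos, e] using hr
    have haα : a ≠ α := fun h => hne (by rw [e, h])
    have has : a ≠ α.swap := fun h => by rw [h, deg_swap] at hda; omega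
    have hαa : α ≠ a.swap := fun h => has (by rw [h, Sum.swap_swap])
    rw [hgb, if_neg has, hg, short_apply_W _ hv hw, ← eichlerMat_mul hQ (P.q_b a) (P.bform_b_W hw a)
      (by rw [map_smul, P.b_b, if_neg hαa, smul_zero])]
    exact MatIn.mul (P.matIn_short sh hsh hw hda (fun h => haα (Finset.singleton_inj.1 h)))
      (P.matIn_long sh _ (by omega) fun _ h => ⟨hαa, hpair _ _ h⟩)
  · have hda : deg a + deg c < 2 * m := by
      have := hr
      rw [Root.IsPos, e, Finset.sum_pair (Ne.symm hca), Finset.card_pair (Ne.symm hca)] at this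
      omega
    -- put the moved vector second
    obtain ⟨a', c', t, hda', hca', hcb', ha', hm⟩ : ∃ a' c', ∃ t : F, deg a' + deg c' < 2 * m ∧ c' ≠ a' ∧
        c' ≠ a'.swap ∧ a' ≠ α.swap ∧
        eichlerMat Q ((g : Matrix ι ι F) *ᵥ P.b a) ((g : Matrix ι ι F) *ᵥ (s • P.b c)) =
          eichlerMat Q ((g : Matrix ι ι F) *ᵥ P.b a') (t • ((g : Matrix ι ι F) *ᵥ P.b c')) := by
      by_cases has : a = α.swap
      · refine ⟨c, a, -s, by omega, Ne.symm hca, fun h => hcb ?_, fun h => hca (h.trans has.symm), ?_⟩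
        · rw [h, Sum.swap_swap]
        · rw [mulVec_smul, eMat_swap hQ (by rw [mem_isometryGroup.1 hgI, P.q_b])
            (by rw [mem_isometryGroup.1 hgI, P.q_b])]
      · exact ⟨a, c, s, hda, hca, hcb, has, by rw [mulVec_smul]⟩
    rw [hm, hgb a', if_neg ha', hgb c']
    have main := P.matIn_long sh (σ := {α}) t hda' fun _ _ => ⟨hcb', hpair _ _ hca'⟩
    split_ifs with hc'
    · subst hc'
      rw [deg_swap] at hda'
      have hαa : α ≠ a'.swap := fun h => hca' (by rw [h, Sum.swap_swap])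
      have haα : a' ≠ α := fun h => hcb' (by rw [h])
      have e1 : t • (P.b α.swap - u - Q u • P.b α) =
          t • P.b α.swap + ((-t) • u + (-(t * Q u)) • P.b α) := by module
      have b1 : bform hQ (P.b a') ((-t) • u) = 0 := by rw [map_smul, P.bform_b_W hu, smul_zero]
      have b2 : bform hQ (P.b a') ((-(t * Q u)) • P.b α) = 0 := by
        rw [map_smul, P.b_b, if_neg hαa, smul_zero]
      rw [e1, ← eichlerMat_mul hQ (P.q_b a') (by rw [map_smul, P.b_b, if_neg hcb', smul_zero])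
        (by rw [map_add, b1, b2, add_zero]), ← eichlerMat_mul hQ (P.q_b a') b1 b2]
      exact MatIn.mul main (MatIn.mul (P.matIn_short sh hsh (P.W.smul_mem _ hu) (by omega)
        (fun h => haα (Finset.singleton_inj.1 h)))
        (P.matIn_long sh _ (by omega) fun _ h => ⟨hαa, hpair _ _ h⟩))
    · exact main

end Polar

end CfsgLib.SchurOrth
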