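import Mathlib
import Cfsg.Agent.Schur.SL2Kernel
import Cfsg.Agent.SchurClassical.SympCross
import Cfsg.Agent.SchurOrth.PLift

/-!
`SL_2`: elements, generation, and splitting of central extensions with kernel of order prime to the
characteristic.
-/

set_option autoImplicit false

namespace CfsgLib.SchurOrth

open Matrix
open CfsgLib.SchurClassical (pElts)

universe u

variable {K : Type u} [Field K]

local notation "SL2" => Matrix.SpecialLinearGroup (Fin 2) K

/-- Upper unitriangular. -/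
def slU (t : K) : SL2 := ⟨!![1, t; 0, 1], by simp [Matrix.det_fin_two]⟩

/-- Lower unitriangular. -/
def slL (t : K) : SL2 := ⟨!![1, 0; t, 1], by simp [Matrix.det_fin_two]⟩

/-- The Weyl element. -/
noncomputable def slW (t : K) : SL2 := slU t * slL (-t⁻¹) * slU t

/-- Diagonal. -/
noncomputable def slD : Kˣ →* SL2 :=
  MonoidHom.mk' (fun t => ⟨!![(t : K), 0; 0, (t : K)⁻¹], by simp [Matrix.det_fin_two]⟩) fun a b => by
    apply Subtype.ext
    show !![((a * b : Kˣ) : K), 0; 0, ((a * b : Kˣ) : K)⁻¹] = !![(a : K), 0; 0, (a : K)⁻¹] * !![(b : K), 0; 0, (b : K)⁻¹]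
    rw [Units.val_mul, mul_inv]
    ext i j
    fin_cases i <;> fin_cases j <;> simp [Matrix.mul_apply, Fin.sum_univ_two]

theorem slU_coe (t : K) : (slU t : Matrix (Fin 2) (Fin 2) K) = !![1, t; 0, 1] := rfl

theorem slL_coe (t : K) : (slL t : Matrix (Fin 2) (Fin 2) K) = !![1, 0; t, 1] := rfl

theorem slD_coe (t : Kˣ) : (slD t : Matrix (Fin 2) (Fin 2) K) = !![(t : K), 0; 0, (t : K)⁻¹] := rfl

theorem slU_add (s t : K) : slU s * slU t = slU (s + t) := by
  refine Subtype.ext ?_
  show !![1, s; 0, 1] * !![1, t; 0, 1] = (!![1, s + t; 0, 1] : Matrix (Fin 2) (Fin 2) K)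
  rw [Matrix.mul_fin_two]
  simp [add_comm]

theorem slL_add (s t : K) : slL s * slL t = slL (s + t) := by
  refine Subtype.ext ?_
  show !![1, 0; s, 1] * !![1, 0; t, 1] = (!![1, 0; s + t, 1] : Matrix (Fin 2) (Fin 2) K)
  rw [Matrix.mul_fin_two]
  simp [add_comm]

theorem slU_zero : slU (0 : K) = 1 := by
  apply Subtype.ext
  ext i j
  fin_cases i <;> fin_cases j <;> simp [slU]

theorem slL_zero : slL (0 : K) = 1 := by
  apply Subtype.ext
  ext i j
  fin_cases i <;> fin_cases j <;> simp [slL]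

/-- The upper unitriangular subgroup. -/
def slUsub (K : Type u) [Field K] : Subgroup (Matrix.SpecialLinearGroup (Fin 2) K) :=
  (MonoidHom.mk' (fun t : Multiplicative K => slU t.toAdd) fun a b => (slU_add _ _).symm).range

/-- The lower unitriangular subgroup. -/
def slLsub (K : Type u) [Field K] : Subgroup (Matrix.SpecialLinearGroup (Fin 2) K) :=
  (MonoidHom.mk' (fun t : Multiplicative K => slL t.toAdd) fun a b => (slL_add _ _).symm).range

theorem slU_mem (t : K) : slU t ∈ slUsub K := ⟨Multiplicative.ofAdd t, rfl⟩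

theorem slL_mem (t : K) : slL t ∈ slLsub K := ⟨Multiplicative.ofAdd t, rfl⟩

theorem exists_of_mem_slU {g : SL2} (h : g ∈ slUsub K) : ∃ t, g = slU t := by
  obtain ⟨t, rfl⟩ := h; exact ⟨t.toAdd, rfl⟩

theorem exists_of_mem_slL {g : SL2} (h : g ∈ slLsub K) : ∃ t, g = slL t := by
  obtain ⟨t, rfl⟩ := h; exact ⟨t.toAdd, rfl⟩

theorem sl_gen : slUsub K ⊔ slLsub K = ⊤ := by
  rw [eq_top_iff]
  have key : ∀ g : SL2, (g : Matrix (Fin 2) (Fin 2) K) 1 0 ≠ 0 → g ∈ slUsub K ⊔ slLsub K := by
    intro g hc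
    have hdet := g.2
    rw [Matrix.det_fin_two] at hdet
    have e : g = slU (((g : Matrix (Fin 2) (Fin 2) K) 0 0 - 1) / (g : Matrix (Fin 2) (Fin 2) K) 1 0) *
        slL ((g : Matrix (Fin 2) (Fin 2) K) 1 0) *
        slU (((g : Matrix (Fin 2) (Fin 2) K) 1 1 - 1) / (g : Matrix (Fin 2) (Fin 2) K) 1 0) := by
      refine Subtype.ext ?_
      show (g : Matrix (Fin 2) (Fin 2) K) = !![1, _; 0, 1] * !![1, 0; _, 1] * !![1, _; 0, 1]
      rw [Matrix.mul_fin_two, Matrix.mul_fin_two]
      ext i j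
      fin_cases i <;> fin_cases j <;> simp <;> field_simp <;>
        first | ring1 | linear_combination -hdet | linear_combination hdet
    rw [e]
    exact Subgroup.mul_mem _ (Subgroup.mul_mem _ (Subgroup.mem_sup_left (slU_mem _))
      (Subgroup.mem_sup_right (slL_mem _))) (Subgroup.mem_sup_left (slU_mem _))
  intro g _
  by_cases hc : (g : Matrix (Fin 2) (Fin 2) K) 1 0 = 0
  · have h := key (g * slL 1) (by
      have hdet := g.2
      rw [Matrix.det_fin_two, hc, mul_zero, sub_zero] at hdet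
      show ((g : Matrix (Fin 2) (Fin 2) K) * !![1, 0; 1, 1] : Matrix (Fin 2) (Fin 2) K) 1 0 ≠ 0
      rw [Matrix.mul_apply, Fin.sum_univ_two]
      simp [hc]
      intro h
      rw [h, mul_zero] at hdet
      exact zero_ne_one hdet)
    have := Subgroup.mul_mem _ h (Subgroup.inv_mem _ (Subgroup.mem_sup_right (slL_mem (1 : K))))
    rwa [mul_inv_cancel_right] at this
  · exact key g hc

theorem slW_coe {t : K} (ht : t ≠ 0) :
    (slW t : Matrix (Fin 2) (Fin 2) K) = !![0, t; -t⁻¹, 0] := by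
  show !![1, t; 0, 1] * !![1, 0; -t⁻¹, 1] * !![1, t; 0, 1] = _
  rw [Matrix.mul_fin_two, Matrix.mul_fin_two]
  ext i j
  fin_cases i <;> fin_cases j <;> simp [ht]

theorem slL_eq {s : K} (hs : s ≠ 0) : slL s = slU s⁻¹ * slW (-s⁻¹) * slU s⁻¹ := by
  have h1 : slU (-s⁻¹) = (slU s⁻¹)⁻¹ := by
    rw [eq_inv_iff_mul_eq_one, slU_add, neg_add_cancel, slU_zero]
  rw [slW, h1, inv_neg, neg_neg, inv_inv]
  group

theorem slW_inv {t : K} (ht : t ≠ 0) : (slW t)⁻¹ = slW (-t) := by
  rw [inv_eq_iff_mul_eq_one]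
  refine Subtype.ext ?_
  show (slW t : Matrix (Fin 2) (Fin 2) K) * (slW (-t) : Matrix (Fin 2) (Fin 2) K) = (1 : Matrix (Fin 2) (Fin 2) K)
  rw [slW_coe ht, slW_coe (neg_ne_zero.2 ht)]
  ext i j
  fin_cases i <;> fin_cases j <;> simp [Matrix.mul_apply, Fin.sum_univ_two, ht]

theorem slW_mul {t s : K} (ht : t ≠ 0) (hs : s ≠ 0) :
    slW t * slW s = slD (Units.mk0 (-(t * s⁻¹)) (neg_ne_zero.2 (mul_ne_zero ht (inv_ne_zero hs)))) := by
  refine Subtype.ext ?_
  show (slW t : Matrix (Fin 2) (Fin 2) K) * (slW s : Matrix (Fin 2) (Fin 2) K) = !![-(t * s⁻¹), 0; 0, (-(t * s⁻¹))⁻¹]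
  rw [slW_coe ht, slW_coe hs]
  ext i j
  fin_cases i <;> fin_cases j <;> simp [Matrix.mul_apply, Fin.sum_univ_two]
  field_simp

theorem slD_injective : Function.Injective (slD (K := K)) := fun a b h => by
  have := congrArg (fun g : SL2 => (g : Matrix (Fin 2) (Fin 2) K) 0 0) h
  exact Units.ext (by simpa [slD_coe] using this)

/-- Conjugation by `diag(κ, 1)`. -/
noncomputable def slScale (κ : Kˣ) : SL2 →* SL2 :=
  MonoidHom.mk' (fun g => ⟨!![g.1 0 0, (κ : K) * g.1 0 1; (κ : K)⁻¹ * g.1 1 0, g.1 1 1], by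
      have h := g.2
      rw [Matrix.det_fin_two] at h
      rw [Matrix.det_fin_two_of]
      have := κ.ne_zero
      field_simp
      linear_combination h⟩) fun g h => by
    refine Subtype.ext ?_
    show _ = (!![_, _; _, _] : Matrix (Fin 2) (Fin 2) K) * !![_, _; _, _]
    have := κ.ne_zero
    rw [Matrix.mul_fin_two]
    ext i j
    fin_cases i <;> fin_cases j <;> simp [Matrix.mul_apply, Fin.sum_univ_two] <;> field_simp

theorem slScale_slU (κ : Kˣ) (t : K) : slScale κ (slU t) = slU ((κ : K) * t) :=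
  Subtype.ext (by
    show !![(slU t).1 0 0, _; _, (slU t).1 1 1] = _
    rw [slU_coe, slU_coe]; simp)

theorem slScale_slL (κ : Kˣ) (t : K) : slScale κ (slL t) = slL ((κ : K)⁻¹ * t) :=
  Subtype.ext (by
    show !![(slL t).1 0 0, _; _, (slL t).1 1 1] = _
    rw [slL_coe, slL_coe]; simp)

theorem slScale_slD (κ t : Kˣ) : slScale κ (slD t) = slD t :=
  Subtype.ext (by
    show !![(slD t).1 0 0, _; _, (slD t).1 1 1] = _
    rw [slD_coe]; simp)

theorem slScale_slW (κ : Kˣ) {t : K} (ht : t ≠ 0) : slScale κ (slW t) = slW ((κ : K) * t) := by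
  refine Subtype.ext ?_
  rw [slW_coe (mul_ne_zero κ.ne_zero ht)]
  show !![(slW t).1 0 0, _; _, (slW t).1 1 1] = _
  rw [slW_coe ht]
  simp [mul_comm]

variable [Finite K] {p : ℕ} [CharP K p] [Fact p.Prime]

theorem slU_pow (t : K) (n : ℕ) : slU t ^ n = slU ((n : K) * t) := by
  induction n with
  | zero => simp [slU_zero]
  | succ n ih => rw [pow_succ, ih, slU_add]; push_cast; ring_nf

theorem slL_pow (t : K) (n : ℕ) : slL t ^ n = slL ((n : K) * t) := by
  induction n with
  | zero => simp [slL_zero]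
  | succ n ih => rw [pow_succ, ih, slL_add]; push_cast; ring_nf

theorem slUsub_isPGroup : IsPGroup p (slUsub K) := by
  rintro ⟨g, hg⟩
  obtain ⟨t, rfl⟩ := exists_of_mem_slU hg
  exact ⟨1, Subtype.ext (by simp [slU_pow, CharP.cast_eq_zero, slU_zero])⟩

theorem slLsub_isPGroup : IsPGroup p (slLsub K) := by
  rintro ⟨g, hg⟩
  obtain ⟨t, rfl⟩ := exists_of_mem_slL hg
  exact ⟨1, Subtype.ext (by simp [slL_pow, CharP.cast_eq_zero, slL_zero])⟩

theorem units_pow_char_eq_one {t : Kˣ} {k : ℕ} (h : t ^ p ^ k = 1) : t = 1 := by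
  have h1 : (t : K) ^ p ^ k = 1 := by rw [← Units.val_pow_eq_pow_val, h, Units.val_one]
  have h2 : ((t : K) - 1) ^ p ^ k = 0 := by rw [sub_pow_char_pow, h1, one_pow, sub_self]
  exact Units.ext (sub_eq_zero.1 (pow_eq_zero_iff (pow_ne_zero _ (Fact.out : p.Prime).ne_zero) |>.1 h2))

/-- Central extensions of `SL_2` with kernel of order prime to `p` split. -/
theorem sl_split {E : Type u} [Group E] [Finite E] (θ : E →* SL2) (hθ : PCentral p θ) :
    ∃ s : SL2 →* E, ∀ x, θ (s x) = x := by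
  classical
  haveI : Fintype K := Fintype.ofFinite K
  let D : Subgroup E := Subgroup.closure (pElts p E)
  let τ : D →* SL2 := θ.comp D.subtype
  have hsur : Function.Surjective τ := by
    intro x
    have hx : x ∈ D.map θ := by
      have hle : slUsub K ⊔ slLsub K ≤ D.map θ := by
        refine sup_le ?_ ?_ <;> intro g hg <;> obtain ⟨e, he, rfl⟩ := hθ.exists_pElt
          (SchurClassical.mem_pElts_of_mem (by first | exact slUsub_isPGroup | exact slLsub_isPGroup) hg) <;>
          exact ⟨e, Subgroup.subset_closure he, rfl⟩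
      exact hle (sl_gen (K := K) ▸ Subgroup.mem_top x)
    obtain ⟨e, he, rfl⟩ := hx
    exact ⟨⟨e, he⟩, rfl⟩
  have hstem : Cfsg.IsStemExtension τ := by
    refine ⟨hsur, fun d hd => Subgroup.mem_center_iff.2 fun e =>
      Subtype.ext (Subgroup.mem_center_iff.1 (hθ.ker_le (show (d : E) ∈ θ.ker from hd)) e), fun d hd => ?_⟩
    have hall : Abelianization.of d ∈ pElts p (Abelianization D) := by
      refine SchurClassical.closure_pElts_pow
        (S := Abelianization.of '' ((Subtype.val : D → E) ⁻¹' pElts p E)) ?_ ?_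
      · rintro _ ⟨t, ⟨k, hk⟩, rfl⟩
        exact ⟨k, by rw [← map_pow, show t ^ p ^ k = 1 from Subtype.ext hk, map_one]⟩
      · rw [← MonoidHom.map_closure, Subgroup.closure_closure_coe_preimage]
        exact Subgroup.mem_map_of_mem _ (Subgroup.mem_top d)
    obtain ⟨k, hk⟩ := hall
    have hn : 0 < orderOf (d : E) := orderOf_pos _
    have hco : p.Coprime (orderOf (d : E)) := (Nat.Prime.coprime_iff_not_dvd Fact.out).2 fun hdvd => by
      obtain ⟨e, he⟩ := hdvd
      have hp1 : ((d : E) ^ e) ^ p ^ 1 = 1 := by rw [pow_one, ← pow_mul, mul_comm, ← he, pow_orderOf_eq_one]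
      have h1 := hθ.prime_to _ (Subgroup.pow_mem _ (show (d : E) ∈ θ.ker from hd) e) 1 hp1
      rw [← orderOf_dvd_iff_pow_eq_one, he] at h1
      rw [he] at hn
      have := Nat.le_of_dvd (Nat.pos_of_mul_pos_left hn) h1
      have := (Fact.out : p.Prime).two_le
      nlinarith [Nat.pos_of_mul_pos_left hn]
    rw [← Abelianization.ker_of, MonoidHom.mem_ker]
    refine SchurClassical.eq_one_of_pow_prime_pow hk ?_ hco
    rw [← map_pow, show d ^ orderOf (d : E) = 1 from
      Subtype.ext (by rw [SubmonoidClass.coe_pow, pow_orderOf_eq_one]; rfl), map_one]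
  have hker : τ.ker = ⊥ := by
    rw [← Subgroup.card_eq_one]
    by_contra hne
    obtain ⟨r, hr, hrd⟩ := Nat.exists_prime_and_dvd hne
    haveI := Fact.mk hr
    have hrp : r ≠ p := by
      rintro rfl
      obtain ⟨z, hz⟩ := exists_prime_orderOf_dvd_card' r hrd
      have h1 := hθ.prime_to ((z : D) : E) (show ((z : D) : E) ∈ θ.ker from z.2) 1 (by
        rw [pow_one]
        have := congrArg (fun w : τ.ker => ((w : D) : E)) (show z ^ r = 1 from by rw [← hz]; exact pow_orderOf_eq_one z)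
        simpa using this)
      have hz1 : z = 1 := Subtype.ext (Subtype.ext h1)
      rw [hz1, orderOf_one] at hz
      exact hr.one_lt.ne hz
    by_cases hr2 : r = 2
    · subst hr2
      exact Schur.sl2_not_two_dvd_ker hstem
        (Ring.two_ne_zero (by rw [ringChar.eq K p]; exact Ne.symm hrp)) hrd
    obtain ⟨R⟩ : Nonempty (Sylow r SL2) := inferInstance
    haveI := CfsgLib.SL2.isCyclic_sylow_odd (p := p) hr2 hrp R
    exact Schur.not_dvd_card_ker_of_isCyclic hstem _ R.not_dvd_index hrd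
  let e := MulEquiv.ofBijective τ ⟨(MonoidHom.ker_eq_bot_iff τ).1 hker, hsur⟩
  exact ⟨D.subtype.comp e.symm.toMonoidHom, fun x => e.apply_symm_apply x⟩

end CfsgLib.SchurOrth
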