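import Mathlib
import Cfsg.Agent.SchurOrth.SLTwo
import Cfsg.Agent.SchurOrth.Norm

/-!
The `SL_2` of a long root.
-/

set_option autoImplicit false
set_option linter.unusedSectionVars false
set_option maxHeartbeats 400000

namespace CfsgLib.SchurOrth

open Cfsg.Geo CfsgLib.OrthGeo Matrix
open scoped MatrixGroups

variable {ι : Type} [Fintype ι] [DecidableEq ι] {F : Type*} [Field F] {Q : (ι → F) → F}
variable {hQ : IsNondegenerateQuadraticForm Q} {m : ℕ}

/-- A long root given by two frame vectors. -/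
structure LongPair (m : ℕ) where
  α : Fin m ⊕ Fin m
  γ : Fin m ⊕ Fin m
  ne : γ ≠ α
  ne_swap : γ ≠ α.swap

namespace LongPair

variable (P : Polar hQ m) (r : LongPair m)

theorem swap_ne_swap : r.γ.swap ≠ r.α.swap := fun h => r.ne (by rw [← Sum.swap_swap r.γ, h, Sum.swap_swap])

theorem swap_ne' : r.γ.swap ≠ r.α := fun h => r.ne_swap (by rw [← h, Sum.swap_swap])

/-- The linear map of a matrix of `SL_2`. -/
noncomputable def lin (g : Matrix (Fin 2) (Fin 2) F) : (ι → F) →ₗ[F] (ι → F) :=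
  LinearMap.id + ((g 0 0 - 1) • P.coord r.α + g 0 1 • P.coord r.γ.swap).smulRight (P.b r.α) +
    (g 1 0 • P.coord r.α + (g 1 1 - 1) • P.coord r.γ.swap).smulRight (P.b r.γ.swap) +
    ((g 1 1 - 1) • P.coord r.α.swap + (-g 1 0) • P.coord r.γ).smulRight (P.b r.α.swap) +
    ((-g 0 1) • P.coord r.α.swap + (g 0 0 - 1) • P.coord r.γ).smulRight (P.b r.γ)

theorem lin_apply (g : Matrix (Fin 2) (Fin 2) F) (x : ι → F) : r.lin P g x =
    x + ((g 0 0 - 1) * P.coord r.α x + g 0 1 * P.coord r.γ.swap x) • P.b r.α +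
      (g 1 0 * P.coord r.α x + (g 1 1 - 1) * P.coord r.γ.swap x) • P.b r.γ.swap +
      ((g 1 1 - 1) * P.coord r.α.swap x + (-g 1 0) * P.coord r.γ x) • P.b r.α.swap +
      ((-g 0 1) * P.coord r.α.swap x + (g 0 0 - 1) * P.coord r.γ x) • P.b r.γ := by
  simp [lin]

theorem lin_mul (g h : Matrix (Fin 2) (Fin 2) F) :
    (r.lin P g).comp (r.lin P h) = r.lin P (g * h) := by
  refine LinearMap.ext fun x => ?_
  have e : ∀ i j, (g * h) i j = g i 0 * h 0 j + g i 1 * h 1 j := fun i j => by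
    rw [Matrix.mul_apply, Fin.sum_univ_two]
  rw [LinearMap.comp_apply, r.lin_apply P h, r.lin_apply P (g * h), r.lin_apply P g, e, e, e, e]
  simp only [map_add, map_smul, P.coord_b, smul_eq_mul, if_neg (r.swap_ne'), if_neg (Ne.symm r.swap_ne'),
    if_neg r.ne, if_neg (Ne.symm r.ne), if_neg r.ne_swap, if_neg (Ne.symm r.ne_swap),
    if_neg r.swap_ne_swap, if_neg (Ne.symm r.swap_ne_swap), if_neg (swap_ne r.α),
    if_neg (Ne.symm (swap_ne r.α)), if_neg (swap_ne r.γ), if_neg (Ne.symm (swap_ne r.γ)), if_true]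
  module

theorem lin_one : r.lin P 1 = LinearMap.id := by
  refine LinearMap.ext fun x => ?_
  simp [lin_apply]

/-- The embedding in the matrices. -/
noncomputable def hom : Matrix.SpecialLinearGroup (Fin 2) F →* GL ι F :=
  MonoidHom.toHomUnits
    { toFun := fun g => LinearMap.toMatrix' (r.lin P g.1)
      map_one' := by
        rw [Matrix.SpecialLinearGroup.coe_one, lin_one, LinearMap.toMatrix'_id]
      map_mul' := fun g h => by
        rw [← LinearMap.toMatrix'_comp, lin_mul]; rfl }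

theorem hom_mulVec (g : Matrix.SpecialLinearGroup (Fin 2) F) (x : ι → F) :
    (r.hom P g : Matrix ι ι F) *ᵥ x = r.lin P g.1 x :=
  LinearMap.toMatrix'_mulVec _ _

theorem bform_eq_zero (t : F) : bform hQ (P.b r.α) (t • P.b r.γ) = 0 := by
  rw [map_smul, P.b_b, if_neg r.ne_swap, smul_zero]

theorem bform_eq_zero' (t : F) : bform hQ (P.b r.α.swap) (t • P.b r.γ.swap) = 0 := by
  rw [map_smul, P.b_b, Sum.swap_swap, if_neg r.swap_ne', smul_zero]

theorem hom_slU (t : F) : r.hom P (slU t) = eichler hQ (P.q_b _) (r.bform_eq_zero P t) := by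
  refine OrthGeo.gl_ext fun x => ?_
  rw [hom_mulVec, P.long_apply, lin_apply, slU_coe]
  simp
  module

theorem hom_slL (t : F) : r.hom P (slL t) = eichler hQ (P.q_b _) (r.bform_eq_zero' P (-t)) := by
  refine OrthGeo.gl_ext fun x => ?_
  rw [hom_mulVec, P.long_apply, lin_apply, slL_coe]
  simp
  module

theorem hom_mem_of {H : Subgroup (GL ι F)}
    (hU : ∀ t, eichler hQ (P.q_b _) (r.bform_eq_zero P t) ∈ H)
    (hL : ∀ t, eichler hQ (P.q_b _) (r.bform_eq_zero' P t) ∈ H)
    (g : Matrix.SpecialLinearGroup (Fin 2) F) : r.hom P g ∈ H := by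
  suffices hle : slUsub F ⊔ slLsub F ≤ H.comap (r.hom P) from hle (sl_gen (K := F) ▸ Subgroup.mem_top g)
  refine sup_le ?_ ?_ <;> intro x hx
  · obtain ⟨t, rfl⟩ := exists_of_mem_slU hx
    rw [Subgroup.mem_comap, hom_slU]; exact hU t
  · obtain ⟨t, rfl⟩ := exists_of_mem_slL hx
    rw [Subgroup.mem_comap, hom_slL]; exact hL (-t)

theorem hom_mem_isometry (g : Matrix.SpecialLinearGroup (Fin 2) F) :
    r.hom P g ∈ Cfsg.isometryGroup F Q :=
  r.hom_mem_of P (fun _ => eichler_mem_isometryGroup hQ _ _) (fun _ => eichler_mem_isometryGroup hQ _ _) g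

theorem hom_mem_omega [Finite F] (hn : 5 ≤ Fintype.card ι) (g : Matrix.SpecialLinearGroup (Fin 2) F) :
    r.hom P g ∈ omegaGL Q :=
  r.hom_mem_of P (fun _ => eichler_mem_omega hQ hn _ _) (fun _ => eichler_mem_omega hQ hn _ _) g

/-- The permutation of the Weyl element. -/
def perm : Equiv.Perm (Fin m ⊕ Fin m) :=
  Equiv.swap r.α r.γ.swap * Equiv.swap r.α.swap r.γ

theorem perm_apply (x : Fin m ⊕ Fin m) : r.perm x =
    if x = r.α then r.γ.swap else if x = r.γ.swap then r.α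
    else if x = r.α.swap then r.γ else if x = r.γ then r.α.swap else x := by
  rw [perm, Equiv.Perm.mul_apply]
  by_cases ha : x = r.α
  · subst ha
    rw [if_pos rfl, Equiv.swap_apply_of_ne_of_ne (Ne.symm (swap_ne r.α)) (Ne.symm r.ne),
      Equiv.swap_apply_left]
  rw [if_neg ha]
  by_cases hb : x = r.γ.swap
  · subst hb
    rw [if_pos rfl, Equiv.swap_apply_of_ne_of_ne r.swap_ne_swap (swap_ne r.γ), Equiv.swap_apply_right]
  rw [if_neg hb]
  by_cases hc : x = r.α.swap
  · subst hc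
    rw [if_pos rfl, Equiv.swap_apply_left,
      Equiv.swap_apply_of_ne_of_ne r.ne (Ne.symm (swap_ne r.γ))]
  rw [if_neg hc]
  by_cases hd : x = r.γ
  · subst hd
    rw [if_pos rfl, Equiv.swap_apply_right,
      Equiv.swap_apply_of_ne_of_ne (swap_ne r.α) (Ne.symm r.swap_ne_swap)]
  rw [if_neg hd, Equiv.swap_apply_of_ne_of_ne hc hd, Equiv.swap_apply_of_ne_of_ne ha hb]

theorem perm_α : r.perm r.α = r.γ.swap := by rw [perm_apply, if_pos rfl]

theorem perm_γs : r.perm r.γ.swap = r.α := by rw [perm_apply, if_neg r.swap_ne', if_pos rfl]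

theorem perm_αs : r.perm r.α.swap = r.γ := by
  rw [perm_apply, if_neg (swap_ne r.α), if_neg (Ne.symm r.swap_ne_swap), if_pos rfl]

theorem perm_γ : r.perm r.γ = r.α.swap := by
  rw [perm_apply, if_neg r.ne, if_neg (Ne.symm (swap_ne r.γ)), if_neg r.ne_swap, if_pos rfl]

theorem perm_other {x : Fin m ⊕ Fin m} (ha : x ≠ r.α) (hb : x ≠ r.γ.swap) (hc : x ≠ r.α.swap)
    (hd : x ≠ r.γ) : r.perm x = x := by
  rw [perm_apply, if_neg ha, if_neg hb, if_neg hc, if_neg hd]

theorem perm_swap (x : Fin m ⊕ Fin m) : r.perm x.swap = (r.perm x).swap := by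
  by_cases ha : x = r.α
  · rw [ha, perm_α, perm_αs, Sum.swap_swap]
  by_cases hb : x = r.γ.swap
  · rw [hb, Sum.swap_swap, perm_γ, perm_γs]
  by_cases hc : x = r.α.swap
  · rw [hc, Sum.swap_swap, perm_α, perm_αs]
  by_cases hd : x = r.γ
  · rw [hd, perm_γ, perm_γs, Sum.swap_swap]
  rw [r.perm_other ha hb hc hd, r.perm_other]
  · exact fun h => hc (by rw [← h, Sum.swap_swap])
  · exact fun h => hd (by rw [← Sum.swap_swap r.γ, ← h, Sum.swap_swap])
  · exact fun h => ha (by rw [← Sum.swap_swap r.α, ← h, Sum.swap_swap])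
  · exact fun h => hb (by rw [← h, Sum.swap_swap])

/-- The root as a set. -/
def root (sh : Prop) : Root m sh := ⟨{r.α, r.γ}, Or.inl ⟨r.α, r.γ, r.ne, r.ne_swap, rfl⟩⟩

theorem act_root (sh : Prop) : Root.act r.perm r.perm_swap (r.root sh) = (r.root sh).neg := by
  refine Subtype.ext ?_
  simp only [Root.act, Root.neg, root, Finset.map_insert, Finset.map_singleton]
  show ({r.perm r.α, r.perm r.γ} : Finset _) = {r.α.swap, r.γ.swap}
  rw [perm_apply, if_pos rfl, perm_apply, if_neg r.ne, if_neg (Ne.symm (swap_ne r.γ)), if_neg r.ne_swap,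
    if_pos rfl]
  exact Finset.pair_comm _ _

theorem isMono_W [Finite F] {t : F} (ht : t ≠ 0) : P.IsMono (r.hom P (slW t)) r.perm := by
  refine ⟨r.hom_mem_isometry P _, fun a => ?_, fun w hw => ?_⟩
  · rw [hom_mulVec, lin_apply, slW_coe ht, perm_apply]
    have h1 := r.swap_ne'
    have h2 := r.swap_ne_swap
    have h3 := r.ne
    have h4 := r.ne_swap
    have h5 := swap_ne r.α
    have h6 := swap_ne r.γ
    by_cases ha : a = r.α
    · subst ha
      refine ⟨-t⁻¹, ?_⟩
      simp [P.coord_b, h1, h3, h4, h5, h6, Ne.symm h1, Ne.symm h3, Ne.symm h4, Ne.symm h5]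
    by_cases hb : a = r.γ.swap
    · subst hb
      refine ⟨t, ?_⟩
      simp [P.coord_b, h1, h2, h3, h4, h5, h6, Ne.symm h1, Ne.symm h2, Ne.symm h6]
    by_cases hc : a = r.α.swap
    · subst hc
      refine ⟨-t, ?_⟩
      simp [P.coord_b, h1, h2, h3, h4, h5, h6, Ne.symm h2, Ne.symm h4, Ne.symm h5]
    by_cases hd : a = r.γ
    · subst hd
      refine ⟨t⁻¹, ?_⟩
      simp [P.coord_b, h1, h2, h3, h4, h5, h6, Ne.symm h3, Ne.symm h4, Ne.symm h6]
    refine ⟨1, ?_⟩
    rw [if_neg ha, if_neg hb, if_neg hc, if_neg hd, one_smul]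
    simp [P.coord_b, Ne.symm ha, Ne.symm hb, Ne.symm hc, Ne.symm hd]
  · rw [hom_mulVec, lin_apply]
    simpa [P.coord_W hw] using hw

theorem isMono_D [Finite F] (t : Fˣ) : P.IsMono (r.hom P (slD t)) 1 := by
  refine ⟨r.hom_mem_isometry P _, fun a => ?_, fun w hw => ?_⟩
  · rw [hom_mulVec, lin_apply, slD_coe, Equiv.Perm.one_apply]
    simp only [P.coord_b, of_apply, cons_val', cons_val_zero, cons_val_one, cons_val_fin_one, empty_val']
    have h1 := r.swap_ne'
    have h2 := r.swap_ne_swap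
    have h3 := r.ne
    have h4 := r.ne_swap
    have h5 := swap_ne r.α
    have h6 := swap_ne r.γ
    by_cases ha : a = r.α
    · subst ha
      exact ⟨(t : F), by simp [h1, h3, h5, Ne.symm h4]; module⟩
    by_cases hb : a = r.γ.swap
    · subst hb
      exact ⟨(t : F)⁻¹, by simp [h1, h2, Ne.symm h6, Ne.symm h1, Ne.symm h2, h6]; module⟩
    by_cases hc : a = r.α.swap
    · subst hc
      exact ⟨(t : F)⁻¹, by simp [h4, h2, h5, Ne.symm h5, Ne.symm h2]; module⟩
    by_cases hd : a = r.γ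
    · subst hd
      exact ⟨(t : F), by simp [h3, h4, h6, Ne.symm h3, Ne.symm h4]; module⟩
    exact ⟨1, by simp [Ne.symm ha, Ne.symm hb, Ne.symm hc, Ne.symm hd]⟩
  · rw [hom_mulVec, lin_apply]
    simpa [P.coord_W hw] using hw

/-- Conjugation by a monomial element fixing every line. -/
theorem conj_hom [Finite F] {h : GL ι F} (hh : P.IsMono h 1) :
    ∃ κ : Fˣ, ∀ g : Matrix.SpecialLinearGroup (Fin 2) F,
      h * r.hom P g * h⁻¹ = r.hom P (slScale κ g) := by
  obtain ⟨a, ha⟩ := hh.2.1 r.α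
  obtain ⟨c, hc⟩ := hh.2.1 r.γ
  obtain ⟨a', ha'⟩ := hh.2.1 r.α.swap
  obtain ⟨c', hc'⟩ := hh.2.1 r.γ.swap
  have haa : a * a' = 1 := by
    have e := isometry_b hQ hh.1 (P.b r.α) (P.b r.α.swap)
    rw [ha, ha', P.b_b r.α r.α.swap, if_pos rfl] at e
    simp only [map_smul, LinearMap.smul_apply, Equiv.Perm.one_apply, P.b_b, smul_eq_mul, if_true, mul_one] at e
    linear_combination e
  have hcc : c * c' = 1 := by
    have e := isometry_b hQ hh.1 (P.b r.γ) (P.b r.γ.swap)
    rw [hc, hc', P.b_b r.γ r.γ.swap, if_pos rfl] at e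
    simp only [map_smul, LinearMap.smul_apply, Equiv.Perm.one_apply, P.b_b, smul_eq_mul, if_true, mul_one] at e
    linear_combination e
  rw [Equiv.Perm.one_apply] at ha ha' hc hc'
  have hne : a * c ≠ 0 := mul_ne_zero (left_ne_zero_of_mul_eq_one haa) (left_ne_zero_of_mul_eq_one hcc)
  refine ⟨Units.mk0 (a * c) hne, fun g => ?_⟩
  have hconj : ∀ (u v : Fin m ⊕ Fin m) (k l t : F) (hv : bform hQ (P.b u) (t • P.b v) = 0)
      (hv' : bform hQ (P.b u) ((k * l * t) • P.b v) = 0),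
      (h : Matrix ι ι F) *ᵥ P.b u = k • P.b u → (h : Matrix ι ι F) *ᵥ P.b v = l • P.b v →
      h * eichler hQ (P.q_b u) hv * h⁻¹ = eichler hQ (P.q_b u) hv' := by
    intro u v k l t hv hv' e1 e2
    rw [conj_eichler hQ hh.1 (P.q_b u) hv (by rw [mem_isometryGroup.1 hh.1, P.q_b])
      (by rw [isometry_b hQ hh.1, hv]) rfl rfl]
    refine Units.ext ?_
    show eichlerMat Q _ _ = eichlerMat Q _ _
    rw [e1, mulVec_smul, e2, eMat_smul_left hQ, smul_smul, smul_smul]
    congr 2; ring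
  suffices he : (MulAut.conj h).toMonoidHom.comp (r.hom P) = (r.hom P).comp (slScale (Units.mk0 (a * c) hne)) by
    have := DFunLike.congr_fun he g
    simpa only [MonoidHom.comp_apply, MulEquiv.coe_toMonoidHom, MulAut.conj_apply] using this
  refine MonoidHom.eq_of_eqOn_dense (s := (slUsub F : Set (Matrix.SpecialLinearGroup (Fin 2) F)) ∪ slLsub F)
    (by rw [Subgroup.closure_union, Subgroup.closure_eq, Subgroup.closure_eq, sl_gen]) ?_
  rintro x (hx | hx)
  · obtain ⟨t, rfl⟩ := exists_of_mem_slU hx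
    simp only [MonoidHom.comp_apply, MulEquiv.coe_toMonoidHom, MulAut.conj_apply, slScale_slU, Units.val_mk0]
    rw [hom_slU, hom_slU, hconj _ _ a c t _ (r.bform_eq_zero P _) ha hc]
  · obtain ⟨t, rfl⟩ := exists_of_mem_slL hx
    simp only [MonoidHom.comp_apply, MulEquiv.coe_toMonoidHom, MulAut.conj_apply, slScale_slL, Units.val_mk0]
    rw [hom_slL, hom_slL, hconj _ _ a' c' (-t) _ (r.bform_eq_zero' P _) ha' hc']
    refine Units.ext ?_
    show eichlerMat Q (P.b r.α.swap) ((a' * c' * -t) • P.b r.γ.swap) =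
      eichlerMat Q (P.b r.α.swap) ((-((a * c)⁻¹ * t)) • P.b r.γ.swap)
    rw [show a' * c' * -t = -((a * c)⁻¹ * t) by
      rw [eq_inv_of_mul_eq_one_right haa, eq_inv_of_mul_eq_one_right hcc, mul_inv]; ring]

end LongPair

end CfsgLib.SchurOrth
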