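import Mathlib
import Cfsg.Agent.SchurOrth.SLTwo
import Cfsg.Agent.SchurOrth.Norm

/-!
The `SL_2` of a short root, over the field carrying the norm form of the anisotropic part.
-/

set_option autoImplicit false
set_option linter.unusedSectionVars false
set_option maxHeartbeats 400000

namespace CfsgLib.SchurOrth

open Cfsg.Geo CfsgLib.OrthGeo Matrix
open scoped MatrixGroups

universe u

variable {ι : Type} [Fintype ι] [DecidableEq ι] {F : Type u} [Field F] {Q : (ι → F) → F}
variable {hQ : IsNondegenerateQuadraticForm Q} {m : ℕ}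

/-- A field carrying the form of the anisotropic part as its norm. -/
structure ShortData (P : Polar hQ m) where
  K : Type u
  [field : Field K]
  [finite : Finite K]
  [alg : Algebra F K]
  σ : K ≃ₐ[F] K
  σσ : ∀ x, σ (σ x) = x
  fix : ∀ x, σ x = x → ∃ r, algebraMap F K r = x
  ψ : P.W ≃ₗ[F] K
  norm : ∀ w : P.W, algebraMap F K (Q (w : ι → F)) = ψ w * σ (ψ w)

attribute [instance] ShortData.field ShortData.finite ShortData.alg

namespace ShortData

variable {P : Polar hQ m} (S : ShortData P)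

/-- A retraction on the base field. -/
noncomputable def ret : S.K →ₗ[F] F :=
  (LinearMap.exists_leftInverse_of_injective (Algebra.linearMap F S.K)
    (LinearMap.ker_eq_bot.2 (algebraMap F S.K).injective)).choose

theorem ret_map (r : F) : S.ret (algebraMap F S.K r) = r :=
  LinearMap.congr_fun (LinearMap.exists_leftInverse_of_injective (Algebra.linearMap F S.K)
    (LinearMap.ker_eq_bot.2 (algebraMap F S.K).injective)).choose_spec r

theorem map_ret {x : S.K} (hx : S.σ x = x) : algebraMap F S.K (S.ret x) = x := by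
  obtain ⟨r, rfl⟩ := S.fix x hx
  rw [ret_map]

theorem σ_map (r : F) : S.σ (algebraMap F S.K r) = algebraMap F S.K r := S.σ.commutes r

/-- The coordinate in the field. -/
noncomputable def kW : (ι → F) →ₗ[F] S.K :=
  S.ψ.toLinearMap.comp (P.projW.codRestrict P.W P.projW_mem)

theorem kW_of_mem (w : P.W) : S.kW (w : ι → F) = S.ψ w := by
  show S.ψ _ = _
  congr 1
  exact Subtype.ext (P.projW_of_mem w.2)

theorem kW_b (a : Fin m ⊕ Fin m) : S.kW (P.b a) = 0 := by
  show S.ψ _ = _
  rw [show P.projW.codRestrict P.W P.projW_mem (P.b a) = 0 from Subtype.ext (P.projW_b a), map_zero]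

theorem bform_W (w w' : P.W) : algebraMap F S.K (bform hQ (w : ι → F) w') =
    S.ψ w * S.σ (S.ψ w') + S.ψ w' * S.σ (S.ψ w) := by
  have h := q_add hQ (w : ι → F) w'
  have h1 := S.norm (w + w')
  rw [Submodule.coe_add, h, map_add, map_add, S.norm, S.norm, map_add, map_add] at h1
  linear_combination h1

variable (α : Fin m ⊕ Fin m)

/-- The upper left entry of the hermitian matrix. -/
noncomputable def m00 : (ι → F) →ₗ[F] S.K := (Algebra.linearMap F S.K).comp (P.coord α)

/-- The lower right entry. -/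
noncomputable def m11 : (ι → F) →ₗ[F] S.K := -(Algebra.linearMap F S.K).comp (P.coord α.swap)

/-- The transformed upper left entry. -/
noncomputable def n00 (g : Matrix (Fin 2) (Fin 2) S.K) : (ι → F) →ₗ[F] S.K :=
  (g 0 0 * S.σ (g 0 0)) • S.m00 α + (g 0 0 * S.σ (g 0 1)) • S.kW +
    (g 0 1 * S.σ (g 0 0)) • S.σ.toLinearMap.comp S.kW + (g 0 1 * S.σ (g 0 1)) • S.m11 α

/-- The transformed upper right entry. -/
noncomputable def n01 (g : Matrix (Fin 2) (Fin 2) S.K) : (ι → F) →ₗ[F] S.K :=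
  (g 0 0 * S.σ (g 1 0)) • S.m00 α + (g 0 0 * S.σ (g 1 1)) • S.kW +
    (g 0 1 * S.σ (g 1 0)) • S.σ.toLinearMap.comp S.kW + (g 0 1 * S.σ (g 1 1)) • S.m11 α

/-- The transformed lower right entry. -/
noncomputable def n11 (g : Matrix (Fin 2) (Fin 2) S.K) : (ι → F) →ₗ[F] S.K :=
  (g 1 0 * S.σ (g 1 0)) • S.m00 α + (g 1 0 * S.σ (g 1 1)) • S.kW +
    (g 1 1 * S.σ (g 1 0)) • S.σ.toLinearMap.comp S.kW + (g 1 1 * S.σ (g 1 1)) • S.m11 α

/-- The linear map of a matrix. -/
noncomputable def lin (g : Matrix (Fin 2) (Fin 2) S.K) : (ι → F) →ₗ[F] (ι → F) :=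
  LinearMap.id + (S.ret.comp (S.n00 α g) - P.coord α).smulRight (P.b α) +
    (-S.ret.comp (S.n11 α g) - P.coord α.swap).smulRight (P.b α.swap) +
    P.W.subtype.comp (S.ψ.symm.toLinearMap.comp (S.n01 α g - S.kW))

theorem lin_apply (g : Matrix (Fin 2) (Fin 2) S.K) (x : ι → F) : S.lin α g x =
    x + (S.ret (S.n00 α g x) - P.coord α x) • P.b α +
      (-S.ret (S.n11 α g x) - P.coord α.swap x) • P.b α.swap +
      (S.ψ.symm (S.n01 α g x - S.kW x) : ι → F) := by
  simp [lin]

theorem m00_apply (x : ι → F) : S.m00 α x = algebraMap F S.K (P.coord α x) := rfl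

theorem m11_apply (x : ι → F) : S.m11 α x = -algebraMap F S.K (P.coord α.swap x) := rfl

theorem n00_apply (g : Matrix (Fin 2) (Fin 2) S.K) (x : ι → F) : S.n00 α g x =
    g 0 0 * S.σ (g 0 0) * S.m00 α x + g 0 0 * S.σ (g 0 1) * S.kW x +
      g 0 1 * S.σ (g 0 0) * S.σ (S.kW x) + g 0 1 * S.σ (g 0 1) * S.m11 α x := rfl

theorem n01_apply (g : Matrix (Fin 2) (Fin 2) S.K) (x : ι → F) : S.n01 α g x =
    g 0 0 * S.σ (g 1 0) * S.m00 α x + g 0 0 * S.σ (g 1 1) * S.kW x +
      g 0 1 * S.σ (g 1 0) * S.σ (S.kW x) + g 0 1 * S.σ (g 1 1) * S.m11 α x := rfl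

theorem n11_apply (g : Matrix (Fin 2) (Fin 2) S.K) (x : ι → F) : S.n11 α g x =
    g 1 0 * S.σ (g 1 0) * S.m00 α x + g 1 0 * S.σ (g 1 1) * S.kW x +
      g 1 1 * S.σ (g 1 0) * S.σ (S.kW x) + g 1 1 * S.σ (g 1 1) * S.m11 α x := rfl

theorem m00_lin (g : Matrix (Fin 2) (Fin 2) S.K) (x : ι → F) :
    S.m00 α (S.lin α g x) = S.n00 α g x := by
  have e : P.coord α (S.lin α g x) = S.ret (S.n00 α g x) := by
    rw [lin_apply]
    simp only [map_add, map_smul, P.coord_b, P.coord_W (Submodule.coe_mem _)]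
    rw [if_pos trivial, if_neg (Ne.symm (swap_ne α))]
    simp only [smul_eq_mul, mul_one, mul_zero, add_zero, add_sub_cancel]
  rw [m00_apply, e]
  refine S.map_ret ?_
  simp only [n00_apply, m00_apply, m11_apply, map_add, map_mul, map_neg, S.σσ, S.σ_map]
  ring

theorem m11_lin (g : Matrix (Fin 2) (Fin 2) S.K) (x : ι → F) :
    S.m11 α (S.lin α g x) = S.n11 α g x := by
  have e : P.coord α.swap (S.lin α g x) = -S.ret (S.n11 α g x) := by
    rw [lin_apply]
    simp only [map_add, map_smul, P.coord_b, P.coord_W (Submodule.coe_mem _)]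
    rw [if_pos trivial, if_neg (swap_ne α)]
    simp only [smul_eq_mul, mul_one, mul_zero, add_zero, add_sub_cancel]
  rw [m11_apply, e, map_neg, neg_neg]
  refine S.map_ret ?_
  simp only [n11_apply, m00_apply, m11_apply, map_add, map_mul, map_neg, S.σσ, S.σ_map]
  ring

theorem kW_lin (g : Matrix (Fin 2) (Fin 2) S.K) (x : ι → F) :
    S.kW (S.lin α g x) = S.n01 α g x := by
  rw [lin_apply, map_add, map_add, map_add, map_smul, map_smul, kW_b, kW_b, kW_of_mem,
    LinearEquiv.apply_symm_apply, smul_zero, smul_zero, add_zero, add_zero, add_sub_cancel]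

theorem lin_mul (g h : Matrix (Fin 2) (Fin 2) S.K) :
    (S.lin α g).comp (S.lin α h) = S.lin α (g * h) := by
  refine LinearMap.ext fun x => ?_
  have e : ∀ i j, (g * h) i j = g i 0 * h 0 j + g i 1 * h 1 j := fun i j => by
    rw [Matrix.mul_apply, Fin.sum_univ_two]
  have e1 : S.n00 α g (S.lin α h x) = S.n00 α (g * h) x := by
    rw [n00_apply, n00_apply, m00_lin, m11_lin, kW_lin, e, e, n00_apply, n01_apply, n11_apply]
    simp only [m00_apply, m11_apply, map_add, map_mul, map_neg, S.σσ, S.σ_map]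
    ring
  have e2 : S.n01 α g (S.lin α h x) = S.n01 α (g * h) x := by
    rw [n01_apply, n01_apply, m00_lin, m11_lin, kW_lin, e, e, e, e, n00_apply, n01_apply, n11_apply]
    simp only [m00_apply, m11_apply, map_add, map_mul, map_neg, S.σσ, S.σ_map]
    ring
  have e3 : S.n11 α g (S.lin α h x) = S.n11 α (g * h) x := by
    rw [n11_apply, n11_apply, m00_lin, m11_lin, kW_lin, e, e, n00_apply, n01_apply, n11_apply]
    simp only [m00_apply, m11_apply, map_add, map_mul, map_neg, S.σσ, S.σ_map]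
    ring
  have c1 : P.coord α (S.lin α h x) = S.ret (S.n00 α h x) := by
    rw [← S.m00_lin α h x, m00_apply, ret_map]
  have c2 : P.coord α.swap (S.lin α h x) = -S.ret (S.n11 α h x) := by
    rw [← S.m11_lin α h x, m11_apply, map_neg, ret_map, neg_neg]
  rw [LinearMap.comp_apply, S.lin_apply α g, e1, e2, e3, c1, c2, kW_lin, S.lin_apply α (g * h),
    S.lin_apply α h]
  simp only [map_sub, Submodule.coe_sub]
  module

theorem lin_one : S.lin α 1 = LinearMap.id := by
  refine LinearMap.ext fun x => ?_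
  simp [lin_apply, n00_apply, n01_apply, n11_apply, m00_apply, m11_apply, ret_map]

/-- The embedding in the matrices. -/
noncomputable def hom : Matrix.SpecialLinearGroup (Fin 2) S.K →* GL ι F :=
  MonoidHom.toHomUnits
    { toFun := fun g => LinearMap.toMatrix' (S.lin α g.1)
      map_one' := by
        rw [Matrix.SpecialLinearGroup.coe_one, lin_one, LinearMap.toMatrix'_id]
      map_mul' := fun g h => by
        rw [← LinearMap.toMatrix'_comp, lin_mul]; rfl }

theorem hom_mulVec (g : Matrix.SpecialLinearGroup (Fin 2) S.K) (x : ι → F) :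
    (S.hom α g : Matrix ι ι F) *ᵥ x = S.lin α g.1 x :=
  LinearMap.toMatrix'_mulVec _ _

theorem bform_coe (a : Fin m ⊕ Fin m) (w : P.W) : bform hQ (P.b a) (w : ι → F) = 0 :=
  P.bform_b_W w.2 a

theorem bform_kW (w : P.W) (x : ι → F) : algebraMap F S.K (bform hQ (w : ι → F) x) =
    S.ψ w * S.σ (S.kW x) + S.kW x * S.σ (S.ψ w) := by
  conv_lhs => rw [P.decomp x]
  rw [map_add, map_sum, Finset.sum_eq_zero fun a _ => by
    rw [map_smul, b_symm hQ _ (P.b a), P.bform_b_W w.2, smul_zero], zero_add]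
  exact S.bform_W w (P.projW.codRestrict P.W P.projW_mem x)

theorem hom_slU (t : S.K) :
    S.hom α (slU t) = eichler hQ (P.q_b α) (bform_coe α (S.ψ.symm t)) := by
  refine OrthGeo.gl_ext fun x => ?_
  obtain ⟨u, hu⟩ : ∃ u, S.ψ.symm t = u := ⟨_, rfl⟩
  have hψ : S.ψ u = t := by rw [← hu, LinearEquiv.apply_symm_apply]
  have e1 : S.ret (S.n00 α (slU t).1 x) = P.coord α x + bform hQ (u : ι → F) x -
      Q (u : ι → F) * P.coord α.swap x := by
    have h : S.n00 α (slU t).1 x = algebraMap F S.K (P.coord α x + bform hQ (u : ι → F) x -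
        Q (u : ι → F) * P.coord α.swap x) := by
      rw [map_sub, map_add, map_mul, S.norm, S.bform_kW, hψ, n00_apply, slU_coe, m00_apply, m11_apply]
      simp
      ring
    rw [h, ret_map]
  have e3 : S.ret (S.n11 α (slU t).1 x) = -P.coord α.swap x := by
    simp [n11_apply, slU_coe, m11_apply, ret_map]
  have e2 : S.n01 α (slU t).1 x - S.kW x = -(P.coord α.swap x • t) := by
    simp [n01_apply, slU_coe, m11_apply, Algebra.smul_def]
    ring
  rw [hom_mulVec, lin_apply, eichler_mulVec hQ, P.bform_eq_coord, e1, e2, e3, map_neg, map_smul, hu]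
  simp only [Submodule.coe_neg, Submodule.coe_smul]
  module

theorem hom_slL (t : S.K) :
    S.hom α (slL t) = eichler hQ (P.q_b α.swap) (bform_coe α.swap (S.ψ.symm (-S.σ t))) := by
  refine OrthGeo.gl_ext fun x => ?_
  obtain ⟨u, hu⟩ : ∃ u, S.ψ.symm (-S.σ t) = u := ⟨_, rfl⟩
  have hψ : S.ψ u = -S.σ t := by rw [← hu, LinearEquiv.apply_symm_apply]
  have e1 : S.ret (S.n00 α (slL t).1 x) = P.coord α x := by
    simp [n00_apply, slL_coe, m00_apply, ret_map]
  have e3 : S.ret (S.n11 α (slL t).1 x) = -(P.coord α.swap x + bform hQ (u : ι → F) x -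
      Q (u : ι → F) * P.coord α x) := by
    have h : S.n11 α (slL t).1 x = algebraMap F S.K (-(P.coord α.swap x + bform hQ (u : ι → F) x -
        Q (u : ι → F) * P.coord α x)) := by
      rw [map_neg, map_sub, map_add, map_mul, S.norm, S.bform_kW, hψ, n11_apply, slL_coe, m00_apply, m11_apply]
      simp [S.σσ]
      ring
    rw [h, ret_map]
  have e2 : S.n01 α (slL t).1 x - S.kW x = -(P.coord α x • (-S.σ t)) := by
    simp [n01_apply, slL_coe, m00_apply, Algebra.smul_def]
    ring
  rw [hom_mulVec, lin_apply, eichler_mulVec hQ, P.bform_eq_coord, Sum.swap_swap, e1, e2, e3,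
    map_neg (S.ψ.symm), map_smul, hu]
  simp only [Submodule.coe_neg, Submodule.coe_smul]
  module

theorem hom_mem_of {H : Subgroup (GL ι F)}
    (hU : ∀ w : P.W, eichler hQ (P.q_b α) (bform_coe α w) ∈ H)
    (hL : ∀ w : P.W, eichler hQ (P.q_b α.swap) (bform_coe α.swap w) ∈ H)
    (g : Matrix.SpecialLinearGroup (Fin 2) S.K) : S.hom α g ∈ H := by
  suffices hle : slUsub S.K ⊔ slLsub S.K ≤ H.comap (S.hom α) from
    hle (sl_gen (K := S.K) ▸ Subgroup.mem_top g)
  refine sup_le ?_ ?_ <;> intro x hx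
  · obtain ⟨t, rfl⟩ := exists_of_mem_slU hx
    rw [Subgroup.mem_comap, hom_slU]; exact hU _
  · obtain ⟨t, rfl⟩ := exists_of_mem_slL hx
    rw [Subgroup.mem_comap, hom_slL]; exact hL _

theorem hom_mem_isometry (g : Matrix.SpecialLinearGroup (Fin 2) S.K) :
    S.hom α g ∈ Cfsg.isometryGroup F Q :=
  S.hom_mem_of α (fun _ => eichler_mem_isometryGroup hQ _ _) (fun _ => eichler_mem_isometryGroup hQ _ _) g

theorem hom_mem_omega [Finite F] (hn : 5 ≤ Fintype.card ι) (g : Matrix.SpecialLinearGroup (Fin 2) S.K) :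
    S.hom α g ∈ omegaGL Q :=
  S.hom_mem_of α (fun _ => eichler_mem_omega hQ hn _ _) (fun _ => eichler_mem_omega hQ hn _ _) g

/-- The permutation of the Weyl element. -/
def perm : Equiv.Perm (Fin m ⊕ Fin m) := Equiv.swap α α.swap

theorem perm_swap (x : Fin m ⊕ Fin m) : perm α x.swap = (perm α x).swap := by
  by_cases ha : x = α
  · rw [ha, perm, Equiv.swap_apply_right, Equiv.swap_apply_left, Sum.swap_swap]
  by_cases hb : x = α.swap
  · rw [hb, Sum.swap_swap, perm, Equiv.swap_apply_left, Equiv.swap_apply_right]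
  rw [perm, Equiv.swap_apply_of_ne_of_ne ha hb, Equiv.swap_apply_of_ne_of_ne]
  · exact fun h => hb (by rw [← h, Sum.swap_swap])
  · exact fun h => ha (by rw [← Sum.swap_swap α, ← h, Sum.swap_swap])

theorem lin_other {g : Matrix (Fin 2) (Fin 2) S.K} {a : Fin m ⊕ Fin m} (ha : α ≠ a) (hb : α.swap ≠ a) :
    S.lin α g (P.b a) = P.b a := by
  simp [lin_apply, n00_apply, n01_apply, n11_apply, m00_apply, m11_apply, kW_b, P.coord_b, ha, hb]

theorem lin_W (g : Matrix (Fin 2) (Fin 2) S.K) (h1 : g 0 0 * g 1 0 = 0) (h2 : g 0 1 * g 1 1 = 0)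
    (h3 : g 0 0 * g 0 1 = 0) (h4 : g 1 0 * g 1 1 = 0) {w : ι → F} (hw : w ∈ P.W) :
    S.lin α g w ∈ P.W := by
  have e1 : S.n00 α g w = 0 := by
    rw [n00_apply, m00_apply, m11_apply, P.coord_W hw, P.coord_W hw, map_zero]
    rcases mul_eq_zero.1 h3 with h | h <;> simp [h]
  have e2 : S.n11 α g w = 0 := by
    rw [n11_apply, m00_apply, m11_apply, P.coord_W hw, P.coord_W hw, map_zero]
    rcases mul_eq_zero.1 h4 with h | h <;> simp [h]
  rw [lin_apply, e1, e2, P.coord_W hw, P.coord_W hw]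
  simp only [map_zero, sub_zero, neg_zero, zero_smul, add_zero]
  exact P.W.add_mem hw (Submodule.coe_mem _)

theorem isMono_W [Finite F] {t : S.K} (ht : t ≠ 0) :
    P.IsMono (S.hom α (slW t)) (perm α) := by
  refine ⟨S.hom_mem_isometry α _, fun a => ?_, fun w hw => ?_⟩
  · rw [hom_mulVec, slW_coe ht]
    by_cases ha : a = α
    · subst ha
      refine ⟨-S.ret (t⁻¹ * S.σ t⁻¹), ?_⟩
      rw [perm, Equiv.swap_apply_left, lin_apply]
      simp [n00_apply, n01_apply, n11_apply, m00_apply, m11_apply, kW_b, P.coord_b, swap_ne,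
        Ne.symm (swap_ne a)]
    by_cases hb : a = α.swap
    · subst hb
      refine ⟨-S.ret (t * S.σ t), ?_⟩
      rw [perm, Equiv.swap_apply_right, lin_apply]
      simp [n00_apply, n01_apply, n11_apply, m00_apply, m11_apply, kW_b, P.coord_b, swap_ne,
        Ne.symm (swap_ne α)]
    exact ⟨1, by rw [S.lin_other α (Ne.symm ha) (Ne.symm hb), perm, Equiv.swap_apply_of_ne_of_ne ha hb,
      one_smul]⟩
  · rw [hom_mulVec, slW_coe ht]
    exact S.lin_W α _ (by simp) (by simp) (by simp) (by simp) hw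

theorem isMono_D [Finite F] (t : S.Kˣ) : P.IsMono (S.hom α (slD t)) 1 := by
  refine ⟨S.hom_mem_isometry α _, fun a => ?_, fun w hw => ?_⟩
  · rw [hom_mulVec, slD_coe, Equiv.Perm.one_apply]
    by_cases ha : a = α
    · subst ha
      refine ⟨S.ret ((t : S.K) * S.σ t), ?_⟩
      rw [lin_apply]
      simp [n00_apply, n01_apply, n11_apply, m00_apply, m11_apply, kW_b, P.coord_b, swap_ne,
        Ne.symm (swap_ne a)]
      module
    by_cases hb : a = α.swap
    · subst hb
      refine ⟨S.ret ((t : S.K)⁻¹ * S.σ (t : S.K)⁻¹), ?_⟩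
      rw [lin_apply]
      simp [n00_apply, n01_apply, n11_apply, m00_apply, m11_apply, kW_b, P.coord_b, swap_ne,
        Ne.symm (swap_ne α)]
      module
    exact ⟨1, by rw [S.lin_other α (Ne.symm ha) (Ne.symm hb), one_smul]⟩
  · rw [hom_mulVec, slD_coe]
    exact S.lin_W α _ (by simp) (by simp) (by simp) (by simp) hw

/-- Conjugation by a monomial element fixing every line and the anisotropic part. -/
theorem conj_hom [Finite F] {h : GL ι F} (hh : P.IsMono h 1)
    (hW : ∀ w ∈ P.W, (h : Matrix ι ι F) *ᵥ w = w) :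
    ∃ κ : S.Kˣ, ∀ g : Matrix.SpecialLinearGroup (Fin 2) S.K,
      h * S.hom α g * h⁻¹ = S.hom α (slScale κ g) := by
  obtain ⟨a, ha⟩ := hh.2.1 α
  obtain ⟨a', ha'⟩ := hh.2.1 α.swap
  have haa : a * a' = 1 := by
    have e := isometry_b hQ hh.1 (P.b α) (P.b α.swap)
    rw [ha, ha', P.b_b α α.swap, if_pos rfl] at e
    simp only [map_smul, LinearMap.smul_apply, Equiv.Perm.one_apply, P.b_b, smul_eq_mul, if_true, mul_one] at e
    linear_combination e
  rw [Equiv.Perm.one_apply] at ha ha'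
  have ha0 : algebraMap F S.K a ≠ 0 :=
    (map_ne_zero _).2 (left_ne_zero_of_mul_eq_one haa)
  refine ⟨Units.mk0 (algebraMap F S.K a) ha0, fun g => ?_⟩
  suffices he : (MulAut.conj h).toMonoidHom.comp (S.hom α) =
      (S.hom α).comp (slScale (Units.mk0 (algebraMap F S.K a) ha0)) by
    have := DFunLike.congr_fun he g
    simpa only [MonoidHom.comp_apply, MulEquiv.coe_toMonoidHom, MulAut.conj_apply] using this
  have hconj : ∀ (u : Fin m ⊕ Fin m) (k : F) (w w' : P.W),
      (h : Matrix ι ι F) *ᵥ P.b u = k • P.b u → w' = k • w →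
      h * eichler hQ (P.q_b u) (bform_coe u w) * h⁻¹ = eichler hQ (P.q_b u) (bform_coe u w') := by
    intro u k w w' e1 e2
    rw [conj_eichler hQ hh.1 (P.q_b u) (bform_coe u w) (by rw [mem_isometryGroup.1 hh.1, P.q_b])
      (by rw [isometry_b hQ hh.1, bform_coe u w]) rfl rfl]
    refine Units.ext ?_
    show eichlerMat Q ((h : Matrix ι ι F) *ᵥ P.b u) ((h : Matrix ι ι F) *ᵥ (w : ι → F)) =
      eichlerMat Q (P.b u) (w' : ι → F)
    rw [e1, hW _ w.2, eMat_smul_left hQ, e2, Submodule.coe_smul]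
  refine MonoidHom.eq_of_eqOn_dense
    (s := (slUsub S.K : Set (Matrix.SpecialLinearGroup (Fin 2) S.K)) ∪ slLsub S.K)
    (by rw [Subgroup.closure_union, Subgroup.closure_eq, Subgroup.closure_eq, sl_gen]) ?_
  rintro x (hx | hx)
  · obtain ⟨t, rfl⟩ := exists_of_mem_slU hx
    simp only [MonoidHom.comp_apply, MulEquiv.coe_toMonoidHom, MulAut.conj_apply, slScale_slU, Units.val_mk0]
    rw [hom_slU, hom_slU]
    exact hconj _ _ _ _ ha (by rw [← map_smul, Algebra.smul_def])
  · obtain ⟨t, rfl⟩ := exists_of_mem_slL hx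
    simp only [MonoidHom.comp_apply, MulEquiv.coe_toMonoidHom, MulAut.conj_apply, slScale_slL, Units.val_mk0]
    rw [hom_slL, hom_slL]
    refine hconj _ _ _ _ ha' ?_
    rw [← map_smul, Algebra.smul_def, eq_inv_of_mul_eq_one_right haa, map_mul, map_inv₀, map_inv₀, S.σ_map]
    ring_nf

end ShortData

end CfsgLib.SchurOrth
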