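import Mathlib
import Cfsg.Agent.SchurOrth.Frame

/-!
The Bruhat decomposition of a perfect central extension with kernel of order prime to `p`: the kernel
is an image of the torus.
-/

set_option autoImplicit false

namespace CfsgLib.SchurOrth

open Subgroup
open CfsgLib.SchurClassical (pElts conj_mem_pElts mem_pElts_of_mem)
open scoped commutatorElement

universe u

variable {p : ℕ} {E G : Type u} [Group E] [Group G] (F : Frame G p) {θ : E →* G}

/-- Lifts of a rank one subgroup. -/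
theorem RankOne.exists_lift [Finite E] (R : RankOne G p) (hθ : PCentral p θ) :
    ∃ f : R.L →* E, ∀ x, θ (f x) = R.φ x := by
  let P : Subgroup (E × R.L) := (θ.comp (MonoidHom.fst _ _)).eqLocus (R.φ.comp (MonoidHom.snd _ _))
  let τ : P →* R.L := (MonoidHom.snd _ _).comp P.subtype
  have hker : ∀ y ∈ τ.ker, ∃ a ∈ θ.ker, ((y : P) : E × R.L) = (a, 1) := by
    rintro ⟨⟨a, l⟩, hal⟩ hy
    obtain rfl : l = 1 := hy
    exact ⟨a, MonoidHom.mem_ker.2 ((show θ a = R.φ 1 from hal).trans (map_one _)), rfl⟩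
  obtain ⟨s, hs⟩ := R.split τ
    { surj := fun l => by
        obtain ⟨a, ha⟩ := hθ.surj (R.φ l)
        exact ⟨⟨(a, l), ha⟩, rfl⟩
      ker_le := fun y hy => by
        obtain ⟨a, ha, e⟩ := hker y hy
        refine mem_center_iff.2 fun z => Subtype.ext ?_
        rw [Subgroup.coe_mul, Subgroup.coe_mul, e]
        exact Prod.ext (mem_center_iff.1 (hθ.ker_le ha) _) (by simp)
      prime_to := fun y hy k hk => by
        obtain ⟨a, ha, e⟩ := hker y hy
        have h1 := congrArg (fun z : P => ((z : E × R.L)).1) hk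
        simp only [SubmonoidClass.coe_pow, e, Prod.pow_fst, OneMemClass.coe_one, Prod.fst_one] at h1
        exact Subtype.ext (e.trans (by rw [hθ.prime_to a ha k h1]; rfl)) }
  refine ⟨(MonoidHom.fst _ _).comp (P.subtype.comp s), fun x => ?_⟩
  exact (s x).2.trans (congrArg R.φ (hs x))

variable [Finite E] [Fact p.Prime] (hθ : PCentral p θ)

/-- The chosen lift. -/
noncomputable def lft (i : F.ι) : (F.R i).L →* E := ((F.R i).exists_lift hθ).choose

theorem θ_lft (i : F.ι) (x : (F.R i).L) : θ (lft F hθ i x) = (F.R i).φ x :=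
  ((F.R i).exists_lift hθ).choose_spec x

/-- The lifted root groups. -/
abbrev XE (F : Frame G p) (θ : E →* G) (r : F.Φ) : Subgroup E := pLift p θ (F.X r)

include hθ in
theorem mem_XE {r : F.Φ} {e : E} : e ∈ XE F θ r ↔ e ∈ pElts p E ∧ θ e ∈ F.X r :=
  hθ.mem_pLift (F.X_p r)

include hθ in
theorem conj_XE {g e : E} {π : Equiv.Perm F.Φ} (hg : Carries F.X (θ g) π) {r : F.Φ}
    (he : e ∈ XE F θ r) : g * e * g⁻¹ ∈ XE F θ (π r) := by
  obtain ⟨h1, h2⟩ := (mem_XE F hθ).1 he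
  refine (mem_XE F hθ).2 ⟨conj_mem_pElts h1 g, ?_⟩
  rw [map_mul, map_mul, map_inv]
  exact hg.mem h2

theorem lft_U {i : F.ι} {a : (F.R i).L} (ha : a ∈ (F.R i).U) :
    lft F hθ i a ∈ XE F θ (F.simple i) := by
  refine (mem_XE F hθ).2 ⟨?_, by rw [θ_lft, ← F.map_U]; exact ⟨a, ha, rfl⟩⟩
  exact mem_pElts_of_mem ((F.R i).U_p.map (lft F hθ i)) ⟨a, ha, rfl⟩

theorem lft_V {i : F.ι} {a : (F.R i).L} (ha : a ∈ (F.R i).V) :
    lft F hθ i a ∈ XE F θ (F.neg (F.simple i)) := by
  refine (mem_XE F hθ).2 ⟨?_, by rw [θ_lft, ← F.map_V]; exact ⟨a, ha, rfl⟩⟩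
  exact mem_pElts_of_mem ((F.R i).V_p.map (lft F hθ i)) ⟨a, ha, rfl⟩

theorem exists_of_XE_neg {i : F.ι} {e : E} (he : e ∈ XE F θ (F.neg (F.simple i))) :
    ∃ v ∈ (F.R i).V, lft F hθ i v = e := by
  obtain ⟨h1, h2⟩ := (mem_XE F hθ).1 he
  rw [← F.map_V] at h2
  obtain ⟨v, hv, e2⟩ := h2
  exact ⟨v, hv, hθ.eq_of_pElts ((mem_XE F hθ).1 (lft_V F hθ hv)).1 h1 ((θ_lft F hθ i v).trans e2)⟩

theorem exists_of_XE_simple {i : F.ι} {e : E} (he : e ∈ XE F θ (F.simple i)) :
    ∃ v ∈ (F.R i).U, lft F hθ i v = e := by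
  obtain ⟨h1, h2⟩ := (mem_XE F hθ).1 he
  rw [← F.map_U] at h2
  obtain ⟨v, hv, e2⟩ := h2
  exact ⟨v, hv, hθ.eq_of_pElts ((mem_XE F hθ).1 (lft_U F hθ hv)).1 h1 ((θ_lft F hθ i v).trans e2)⟩

/-- The torus of the extension. -/
noncomputable def HE : Subgroup E := ⨆ i, (F.R i).D.map (lft F hθ i)

theorem lft_D {i : F.ι} {d : (F.R i).L} (hd : d ∈ (F.R i).D) : lft F hθ i d ∈ HE F hθ :=
  le_iSup (fun i => (F.R i).D.map (lft F hθ i)) i ⟨d, hd, rfl⟩

theorem exists_adj {i : F.ι} {d : (F.R i).L} (hd : d ∈ (F.R i).D) (j : F.ι) :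
    ∃ c : (F.R j).L →* (F.R j).L, (∀ x ∈ (F.R j).D, c x = x) ∧
      (∀ n ∈ (F.R j).W, c n ∈ (F.R j).W) ∧
      ∀ l, lft F hθ i d * lft F hθ j l * (lft F hθ i d)⁻¹ = lft F hθ j (c l) := by
  obtain ⟨c, h1, h2, h3⟩ := F.adj i j d hd
  refine ⟨c, h1, h2, fun l => ?_⟩
  have := hθ.hom_ext (f := (MulAut.conj (lft F hθ i d)).toMonoidHom.comp (lft F hθ j))
    (f' := (lft F hθ j).comp c) (fun x => by
      simp only [MonoidHom.comp_apply, MulEquiv.coe_toMonoidHom, MulAut.conj_apply, map_mul, map_inv,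
        θ_lft]
      exact h3 x)
    (S := ((F.R j).U : Set _) ∪ (F.R j).V) (by
      rintro x (hx | hx)
      · exact mem_pElts_of_mem (F.R j).U_p hx
      · exact mem_pElts_of_mem (F.R j).V_p hx)
    (by rw [Subgroup.closure_union, Subgroup.closure_eq, Subgroup.closure_eq, (F.R j).gen])
  exact DFunLike.congr_fun this l

theorem lft_D_commute {i j : F.ι} {a : (F.R i).L} (ha : a ∈ (F.R i).D) {b : (F.R j).L}
    (hb : b ∈ (F.R j).D) : Commute (lft F hθ i a) (lft F hθ j b) := by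
  obtain ⟨c, h1, -, h3⟩ := exists_adj F hθ ha j
  have h := h3 b
  rw [h1 b hb] at h
  exact mul_inv_eq_iff_eq_mul.1 h

theorem W_conj_HE (i : F.ι) {n : (F.R i).L} (hn : n ∈ (F.R i).W) {h : E} (hh : h ∈ HE F hθ) :
    lft F hθ i n * h * (lft F hθ i n)⁻¹ ∈ HE F hθ := by
  suffices hle : HE F hθ ≤ (HE F hθ).comap (MulAut.conj (lft F hθ i n)).toMonoidHom from hle hh
  refine iSup_le fun j => ?_
  rintro _ ⟨d, hd, rfl⟩
  obtain ⟨c, -, h2, h3⟩ := exists_adj F hθ hd i
  show lft F hθ i n * lft F hθ j d * (lft F hθ i n)⁻¹ ∈ HE F hθ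
  have e : lft F hθ i n * lft F hθ j d * (lft F hθ i n)⁻¹ =
      lft F hθ i n * (lft F hθ j d * lft F hθ i n⁻¹ * (lft F hθ j d)⁻¹) * lft F hθ j d := by
    rw [map_inv]; group
  rw [e, h3, ← map_mul]
  exact mul_mem (lft_D F hθ ((F.R i).W_mul n hn _ (h2 _ ((F.R i).W_inv n hn)))) (lft_D F hθ hd)

/-- The chosen Weyl element. -/
noncomputable def w₀ (F : Frame G p) (i : F.ι) : (F.R i).L := (F.R i).W_ne.choose

theorem w₀_mem (F : Frame G p) (i : F.ι) : w₀ F i ∈ (F.R i).W := (F.R i).W_ne.choose_spec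

/-- The product of Weyl elements along a word. -/
noncomputable def nW (L : List F.ι) : E := (L.map fun i => lft F hθ i (w₀ F i)).prod

theorem nW_append (A B : List F.ι) : nW F hθ (A ++ B) = nW F hθ A * nW F hθ B := by
  simp [nW, List.map_append, List.prod_append]

theorem nW_conj_HE (L : List F.ι) : ∀ {h : E}, h ∈ HE F hθ →
    nW F hθ L * h * (nW F hθ L)⁻¹ ∈ HE F hθ ∧ (nW F hθ L)⁻¹ * h * nW F hθ L ∈ HE F hθ := by
  induction L with
  | nil => intro h hh; simpa [nW] using hh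
  | cons i L ih =>
    intro h hh
    have hw := W_conj_HE F hθ i (w₀_mem F i) (ih hh).1
    have hw' := W_conj_HE F hθ i ((F.R i).W_inv _ (w₀_mem F i)) hh
    rw [map_inv, inv_inv] at hw'
    have hi := (ih hw').2
    simp only [nW, List.map_cons, List.prod_cons] at hw hi ⊢
    refine ⟨?_, ?_⟩
    · convert hw using 1; group
    · convert hi using 1; group

theorem carries_HE {h : E} (hh : h ∈ HE F hθ) : Carries F.X (θ h) 1 := by
  let K : Subgroup E :=
    { carrier := {e | Carries F.X (θ e) 1}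
      one_mem' := by simpa using Carries.one (X := F.X)
      mul_mem' := fun {a b} ha hb => by
        simpa using (show Carries F.X (θ a) 1 from ha).mul (show Carries F.X (θ b) 1 from hb)
      inv_mem' := fun {a} ha => by simpa using (show Carries F.X (θ a) 1 from ha).inv }
  refine (iSup_le fun i => ?_ : HE F hθ ≤ K) hh
  rintro _ ⟨d, hd, rfl⟩
  show Carries F.X (θ (lft F hθ i d)) 1
  rw [θ_lft]
  exact F.carries_D i d hd

theorem carries_nW (L : List F.ι) : Carries F.X (θ (nW F hθ L)) (L.map F.w).prod := by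
  induction L with
  | nil => simpa [nW] using Carries.one (X := F.X)
  | cons i L ih =>
    simp only [nW, List.map_cons, List.prod_cons, map_mul, θ_lft] at ih ⊢
    exact (F.carries_W i _ (w₀_mem F i)).mul ih

/-- The image of the torus and the Weyl elements. -/
abbrev monoG (F : Frame G p) : Subgroup G :=
  closure (⋃ i, (F.R i).φ '' ((F.R i).W ∪ (F.R i).D))

theorem θ_W_mem {i : F.ι} {n : (F.R i).L} (hn : n ∈ (F.R i).W) :
    θ (lft F hθ i n) ∈ monoG F := by
  rw [θ_lft]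
  exact subset_closure (Set.mem_iUnion.2 ⟨i, n, Or.inl hn, rfl⟩)

theorem θ_nW_mem (L : List F.ι) : θ (nW F hθ L) ∈ monoG F := by
  induction L with
  | nil => simp [nW]
  | cons i L ih =>
    simp only [nW, List.map_cons, List.prod_cons, map_mul] at ih ⊢
    exact mul_mem (θ_W_mem F hθ (w₀_mem F i)) ih

theorem θ_HE_mem {h : E} (hh : h ∈ HE F hθ) : θ h ∈ monoG F := by
  refine (iSup_le fun i => ?_ : HE F hθ ≤ (monoG F).comap θ) hh
  rintro _ ⟨d, hd, rfl⟩
  rw [mem_comap, θ_lft]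
  exact subset_closure (Set.mem_iUnion.2 ⟨i, d, Or.inr hd, rfl⟩)

include hθ in
theorem eq_one_of_XE {r : F.Φ} {e : E} (he : e ∈ XE F θ r) (h : θ e = 1) : e = 1 :=
  hθ.eq_one_of_pLift (F.X_p r) he h

/-- Conjugating a Weyl element to another simple root. -/
theorem exists_W_conj {B : List F.ι} {j k : F.ι}
    (hB : (B.map F.w).prod (F.simple k) = F.simple j) :
    ∃ n ∈ (F.R j).W, nW F hθ B * lft F hθ k (w₀ F k) * (nW F hθ B)⁻¹ = lft F hθ j n := by
  obtain ⟨a, ha, b, hb, c, hc, e⟩ := (F.R k).mid _ (w₀_mem F k)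
  have hBn : (B.map F.w).prod (F.neg (F.simple k)) = F.neg (F.simple j) := by rw [F.wP_neg, hB]
  have ha' := conj_XE F hθ (carries_nW F hθ B) (lft_U F hθ ha)
  have hb' := conj_XE F hθ (carries_nW F hθ B) (lft_V F hθ hb)
  have hc' := conj_XE F hθ (carries_nW F hθ B) (lft_U F hθ hc)
  rw [hB] at ha' hc'
  rw [hBn] at hb'
  obtain ⟨n', hn'⟩ : ∃ x, nW F hθ B * lft F hθ k (w₀ F k) * (nW F hθ B)⁻¹ = x := ⟨_, rfl⟩
  have hmG : θ n' ∈ monoG F := by
    rw [← hn', map_mul, map_mul, map_inv]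
    exact mul_mem (mul_mem (θ_nW_mem F hθ B) (θ_W_mem F hθ (w₀_mem F k))) (inv_mem (θ_nW_mem F hθ B))
  have e' : n' = (nW F hθ B * lft F hθ k a * (nW F hθ B)⁻¹) *
      (nW F hθ B * lft F hθ k b * (nW F hθ B)⁻¹) * (nW F hθ B * lft F hθ k c * (nW F hθ B)⁻¹) := by
    rw [← hn', e, map_mul, map_mul]; group
  rw [hn']
  generalize nW F hθ B * lft F hθ k a * (nW F hθ B)⁻¹ = a' at ha' e'
  generalize nW F hθ B * lft F hθ k c * (nW F hθ B)⁻¹ = c' at hc' e'
  generalize nW F hθ B * lft F hθ k b * (nW F hθ B)⁻¹ = b' at hb' e'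
  obtain ⟨v, hv, rfl⟩ := exists_of_XE_neg F hθ hb'
  by_cases hv1 : v = 1
  · exfalso
    have hac : n' ∈ XE F θ (F.simple j) := by
      rw [e', hv1, map_one, mul_one]; exact mul_mem ha' hc'
    have h1 := F.mono _ hmG (θ n')
      (F.le_posSub (F.simple_pos j) ((mem_XE F hθ).1 hac).2) 1 (one_mem _) (mul_one _).symm
    have hn1 := eq_one_of_XE F hθ hac h1
    rw [← hn', mul_inv_eq_one] at hn1
    have hk1 : (F.R k).φ (w₀ F k) = 1 := by rw [← θ_lft F hθ, mul_eq_left.1 hn1, map_one]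
    have h2 := F.carries_W k _ (w₀_mem F k)
    rw [hk1] at h2
    have h3 := congrArg (fun π : Equiv.Perm F.Φ => π (F.simple k))
      (Carries.unique F.X_inj h2 (Carries.one (X := F.X)))
    simp only [Equiv.Perm.one_apply, F.w_simple] at h3
    exact F.neg_simple_notMem k (by rw [h3]; exact F.simple_pos k)
  obtain ⟨x, hx, n, hn, y, hy, rfl⟩ := (F.R j).lower v hv hv1
  refine ⟨n, hn, ?_⟩
  obtain ⟨a'', ha''⟩ : ∃ t, a' * lft F hθ j x = t := ⟨_, rfl⟩
  obtain ⟨c'', hc''⟩ : ∃ t, lft F hθ j y * c' = t := ⟨_, rfl⟩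
  have ma : a'' ∈ XE F θ (F.simple j) := ha'' ▸ mul_mem ha' (lft_U F hθ hx)
  have mc : c'' ∈ XE F θ (F.simple j) := hc'' ▸ mul_mem (lft_U F hθ hy) hc'
  have e2 : n' = a'' * lft F hθ j n * c'' := by
    rw [e', ← ha'', ← hc'', map_mul, map_mul]; group
  have md := conj_XE F hθ (by rw [θ_lft]; exact F.carries_W j n hn) (g := lft F hθ j n) mc
  rw [F.w_simple] at md
  have hu : θ a'' ∈ F.posSub := F.le_posSub (F.simple_pos j) ((mem_XE F hθ).1 ma).2
  have hv' : θ (lft F hθ j n * c'' * (lft F hθ j n)⁻¹) ∈ F.negSub :=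
    F.le_negSub (F.neg_simple_notMem j) ((mem_XE F hθ).1 md).2
  have h1 := F.mono (θ (n' * (lft F hθ j n)⁻¹))
    (by rw [map_mul, map_inv]; exact mul_mem hmG (inv_mem (θ_W_mem F hθ hn))) _ hu _ hv'
    (by rw [← map_mul, e2]; congr 1; group)
  have h2 : θ a'' * θ (lft F hθ j n * c'' * (lft F hθ j n)⁻¹) = 1 := by
    rw [← h1, ← map_mul, e2]; congr 1; group
  have h3 : θ a'' = 1 := by
    have : θ a'' ∈ F.posSub ⊓ F.negSub := ⟨hu, by
      show θ a'' ∈ F.negSub
      rw [eq_inv_of_mul_eq_one_left h2]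
      exact inv_mem hv'⟩
    rwa [F.U_inf_V, mem_bot] at this
  rw [h3, one_mul] at h2
  have h4 := eq_one_of_XE F hθ md h2
  rw [mul_inv_eq_one] at h4
  rw [e2, eq_one_of_XE F hθ ma h3, one_mul, h4]

theorem W_sq_mem {i : F.ι} {n n' : (F.R i).L} (hn : n ∈ (F.R i).W) (hn' : n' ∈ (F.R i).W) :
    lft F hθ i n * lft F hθ i n' ∈ HE F hθ := by
  rw [← map_mul]; exact lft_D F hθ ((F.R i).W_mul n hn n' hn')

theorem w_mul_self (F : Frame G p) (i : F.ι) : F.w i * F.w i = 1 := by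
  have h1 := (F.carries_W i _ (w₀_mem F i)).mul (F.carries_W i _ (w₀_mem F i))
  have h2 := F.carries_D i _ ((F.R i).W_mul _ (w₀_mem F i) _ (w₀_mem F i))
  rw [map_mul] at h2
  exact Carries.unique F.X_inj h1 h2

/-- The exchange argument: a word preserving the positive roots lies in the torus. -/
theorem nW_mem_HE : ∀ (N : ℕ) (L : List F.ι), L.length = N →
    (∀ r ∈ F.pos, (L.map F.w).prod r ∈ F.pos) → nW F hθ L ∈ HE F hθ := by
  intro N
  induction N using Nat.strong_induction_on with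
  | h N ih =>
    intro L hN hL
    rcases L.eq_nil_or_concat with rfl | ⟨L', k, rfl⟩
    · simp [nW]
    simp only [List.concat_eq_append] at hN hL ⊢
    have hk : (L'.map F.w).prod (F.simple k) ∉ F.pos := by
      have h := hL _ (F.simple_pos k)
      simp only [List.map_append, List.prod_append, List.map_cons, List.map_nil, List.prod_cons,
        List.prod_nil, mul_one, Equiv.Perm.mul_apply, F.w_simple, F.wP_neg] at h
      exact fun h' => (F.pos_neg _).1 h' h
    obtain ⟨A, j, B, rfl, hB⟩ := F.exists_split L' (F.simple_pos k) hk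
    obtain ⟨n, hn, e⟩ := exists_W_conj F hθ hB
    have hperm : F.w j * (B.map F.w).prod = (B.map F.w).prod * F.w k := by
      have h1 := ((carries_nW F hθ B).mul
        (F.carries_W k _ (w₀_mem F k))).mul (carries_nW F hθ B).inv
      rw [← θ_lft F hθ, ← map_mul, ← map_inv, ← map_mul, e, θ_lft] at h1
      have h2 := Carries.unique F.X_inj h1 (F.carries_W j n hn)
      rw [← h2, inv_mul_cancel_right]
    have hAB : nW F hθ (A ++ B) ∈ HE F hθ := by
      refine ih (A ++ B).length ?_ _ rfl fun r hr => ?_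
      · rw [← hN]; simp
      · have h := hL r hr
        simp only [List.map_append, List.prod_append, List.map_cons, List.map_nil, List.prod_cons,
          List.prod_nil, mul_one, mul_assoc] at h ⊢
        rwa [← hperm, ← mul_assoc (F.w j) (F.w j), w_mul_self, one_mul] at h
    have key : nW F hθ ((A ++ j :: B) ++ [k]) = nW F hθ (A ++ B) *
        ((nW F hθ B)⁻¹ * (lft F hθ j (w₀ F j) * lft F hθ j n) * nW F hθ B) := by
      rw [← e]
      simp only [nW, List.map_append, List.prod_append, List.map_cons, List.prod_cons, List.map_nil,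
        List.prod_nil, mul_one]
      group
    rw [key]
    exact mul_mem hAB (nW_conj_HE F hθ B (W_sq_mem F hθ (w₀_mem F j) hn)).2

end CfsgLib.SchurOrth
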