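import Mathlib
import Cfsg.Agent.SchurOrth.Bruhat
import Cfsg.Agent.Schur.CentralCommutator

/-!
Bruhat decomposition of the extension, the bound on the kernel and the Sylow subgroup.
-/

set_option autoImplicit false

namespace CfsgLib.SchurOrth

open Subgroup
open CfsgLib.SchurClassical (pElts conj_mem_pElts mem_pElts_of_mem)
open scoped Pointwise

universe u

variable {p : ℕ} {E G : Type u} [Group E] [Group G] (F : Frame G p) {θ : E →* G}
  [Finite E] [Fact p.Prime] (hθ : PCentral p θ)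

/-- The lifted positive subgroup. -/
abbrev UE (F : Frame G p) (θ : E →* G) : Subgroup E := ⨆ r ∈ F.pos, XE F θ r

/-- The lifted positive subgroup without one simple root. -/
abbrev UiE (F : Frame G p) (θ : E →* G) (i : F.ι) : Subgroup E :=
  ⨆ r ∈ F.pos \ {F.simple i}, XE F θ r

include hθ

theorem map_XE (r : F.Φ) : (XE F θ r).map θ = F.X r := hθ.map_pLift (F.X_p r)

theorem UE_le_pLift : UE F θ ≤ pLift p θ F.posSub :=
  iSup₂_le fun r hr e he => subset_closure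
    ⟨((mem_XE F hθ).1 he).1, F.le_posSub hr ((mem_XE F hθ).1 he).2⟩

theorem eq_one_of_UE {e : E} (he : e ∈ UE F θ) (h : θ e = 1) : e = 1 :=
  hθ.eq_one_of_pLift F.U_p (UE_le_pLift F hθ he) h

theorem θ_UE {e : E} (he : e ∈ UE F θ) : θ e ∈ F.posSub :=
  ((hθ.mem_pLift F.U_p).1 (UE_le_pLift F hθ he)).2

theorem conj_simple_mem (i : F.ι) {r : F.Φ} (hr : r ∈ F.pos) (hne : r ≠ F.simple i) {a e : E}
    (ha : a ∈ XE F θ (F.simple i)) (he : e ∈ XE F θ r) : a * e * a⁻¹ ∈ UiE F θ i := by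
  obtain ⟨ha1, ha2⟩ := (mem_XE F hθ).1 ha
  obtain ⟨he1, he2⟩ := (mem_XE F hθ).1 he
  have h := F.norm_simple i r hr hne _ ha2 _ he2
  have hmap : (UiE F θ i).map θ = ⨆ s ∈ F.pos \ {F.simple i}, F.X s := by
    simp only [UiE, Subgroup.map_iSup, map_XE F hθ]
  rw [← hmap] at h
  obtain ⟨u, hu, e'⟩ := h
  have hu' : u ∈ pElts p E := by
    refine ((hθ.mem_pLift F.U_p).1 (UE_le_pLift F hθ ?_)).1
    exact (iSup₂_le fun s hs => le_biSup (fun r => XE F θ r) hs.1 : UiE F θ i ≤ UE F θ) hu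
  rwa [← hθ.eq_of_pElts hu' (conj_mem_pElts he1 a) (by rw [e', map_mul, map_mul, map_inv])]

theorem XE_simple_conj_Ui (i : F.ι) {a u : E} (ha : a ∈ XE F θ (F.simple i))
    (hu : u ∈ UiE F θ i) : a * u * a⁻¹ ∈ UiE F θ i := by
  suffices hle : UiE F θ i ≤ (UiE F θ i).comap (MulAut.conj a).toMonoidHom from hle hu
  exact iSup₂_le fun r hr e he => conj_simple_mem F hθ i hr.1 (fun h => hr.2 h) ha he

theorem W_conj_Ui (i : F.ι) {n : (F.R i).L} (hn : n ∈ (F.R i).W) {u : E}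
    (hu : u ∈ UiE F θ i) : lft F hθ i n * u * (lft F hθ i n)⁻¹ ∈ UiE F θ i := by
  suffices hle : UiE F θ i ≤ (UiE F θ i).comap (MulAut.conj (lft F hθ i n)).toMonoidHom from hle hu
  refine iSup₂_le fun r hr e he => ?_
  have hm : F.w i r ∈ F.pos \ {F.simple i} := ⟨F.w_pos i r hr.1 (fun h => hr.2 h), fun h => ?_⟩
  · exact le_biSup (fun r => XE F θ r) hm
      (conj_XE F hθ (g := lft F hθ i n) (by rw [θ_lft]; exact F.carries_W i n hn) he)
  have h2 : r = F.neg (F.simple i) := by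
    have h3 := congrArg (F.w i) (Set.mem_singleton_iff.1 h)
    rwa [← Equiv.Perm.mul_apply, w_mul_self, Equiv.Perm.one_apply, F.w_simple] at h3
  exact F.neg_simple_notMem i (h2 ▸ hr.1)

theorem exists_UE_split (i : F.ι) {u : E} (hu : u ∈ UE F θ) :
    ∃ c ∈ XE F θ (F.simple i), ∃ u' ∈ UiE F θ i, u = c * u' := by
  have hle : UE F θ ≤ XE F θ (F.simple i) ⊔ UiE F θ i := by
    refine iSup₂_le fun r hr => ?_
    by_cases h : r = F.simple i
    · subst h; exact le_sup_left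
    · exact le_trans (le_biSup (fun r => XE F θ r) (⟨hr, h⟩ : r ∈ F.pos \ {F.simple i})) le_sup_right
  have hn : XE F θ (F.simple i) ≤ normalizer (UiE F θ i : Set E) := fun a ha => mem_normalizer_iff.2 fun x => by
    refine ⟨fun hx => XE_simple_conj_Ui F hθ i ha hx, fun hx => ?_⟩
    have h := XE_simple_conj_Ui F hθ i (inv_mem ha) hx
    rwa [inv_inv, ← mul_assoc, ← mul_assoc, inv_mul_cancel, one_mul, inv_mul_cancel_right] at h
  have h : u ∈ ((XE F θ (F.simple i) ⊔ UiE F θ i : Subgroup E) : Set E) := hle hu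
  rw [coe_mul_of_left_le_normalizer_right _ _ hn] at h
  obtain ⟨c, hc, u', hu', e⟩ := Set.mem_mul.1 h
  exact ⟨c, hc, u', hu', e.symm⟩

theorem neg_simple_conj_Ui (i : F.ι) {y u : E} (hy : y ∈ XE F θ (F.neg (F.simple i)))
    (hu : u ∈ UiE F θ i) : y * u * y⁻¹ ∈ UiE F θ i := by
  have ha := conj_XE F hθ (g := lft F hθ i (w₀ F i))
    (by rw [θ_lft]; exact F.carries_W i _ (w₀_mem F i)) hy
  rw [F.w_neg, F.w_simple, F.neg_neg] at ha
  have h1 := W_conj_Ui F hθ i (w₀_mem F i) hu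
  have h2 := W_conj_Ui F hθ i ((F.R i).W_inv _ (w₀_mem F i)) (XE_simple_conj_Ui F hθ i ha h1)
  rw [map_inv] at h2
  convert h2 using 1
  group

/-- The words `u * n * v`. -/
def cells : Set E :=
  {e | ∃ u ∈ UE F θ, ∃ L : List F.ι, ∃ h ∈ HE F hθ, ∃ v ∈ UE F θ, e = u * (nW F hθ L * h) * v}

theorem one_mem_cells : (1 : E) ∈ cells F hθ :=
  ⟨1, one_mem _, [], 1, one_mem _, 1, one_mem _, by simp [nW]⟩

theorem simple_mul_cells (i : F.ι) {a e : E} (ha : a ∈ XE F θ (F.simple i)) (he : e ∈ cells F hθ) :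
    a * e ∈ cells F hθ := by
  obtain ⟨u, hu, L, h, hh, v, hv, rfl⟩ := he
  exact ⟨a * u, mul_mem (le_biSup (fun r => XE F θ r) (F.simple_pos i) ha) hu, L, h, hh, v, hv,
    by group⟩

theorem W_mul_nW (i : F.ι) {n : (F.R i).L} (hn : n ∈ (F.R i).W) (L : List F.ι) {h : E}
    (hh : h ∈ HE F hθ) :
    ∃ h' ∈ HE F hθ, lft F hθ i n * (nW F hθ L * h) = nW F hθ (i :: L) * h' := by
  refine ⟨(nW F hθ L)⁻¹ * ((lft F hθ i (w₀ F i))⁻¹ * lft F hθ i n) * nW F hθ L * h,
    mul_mem (nW_conj_HE F hθ L ?_).2 hh, ?_⟩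
  · rw [← map_inv]; exact W_sq_mem F hθ ((F.R i).W_inv _ (w₀_mem F i)) hn
  · simp only [nW, List.map_cons, List.prod_cons]
    group

theorem neg_mul_cells (i : F.ι) {y e : E} (hy : y ∈ XE F θ (F.neg (F.simple i)))
    (he : e ∈ cells F hθ) : y * e ∈ cells F hθ := by
  obtain ⟨v₀, hv₀, rfl⟩ := exists_of_XE_neg F hθ hy
  by_cases h1 : v₀ = 1
  · rwa [h1, map_one, one_mul]
  obtain ⟨x, hx, n, hn, z, hz, rfl⟩ := (F.R i).lower v₀ hv₀ h1
  obtain ⟨u, hu, L, h, hh, v, hv, rfl⟩ := he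
  obtain ⟨c, hc, u₁, hu₁, hcu⟩ := exists_UE_split F hθ i
    (mul_mem (le_biSup (fun r => XE F θ r) (F.simple_pos i) (lft_U F hθ hz)) hu :
      lft F hθ i z * u ∈ UE F θ)
  rw [show lft F hθ i (x * n * z) * (u * (nW F hθ L * h) * v) = lft F hθ i x *
      (lft F hθ i n * (lft F hθ i z * u) * (nW F hθ L * h) * v) by rw [map_mul, map_mul]; group, hcu]
  refine simple_mul_cells F hθ i (lft_U F hθ hx) ?_
  obtain ⟨y', hy'⟩ : ∃ t, lft F hθ i n * c * (lft F hθ i n)⁻¹ = t := ⟨_, rfl⟩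
  have my : y' ∈ XE F θ (F.neg (F.simple i)) := by
    rw [← hy', ← F.w_simple i]
    exact conj_XE F hθ (by rw [θ_lft]; exact F.carries_W i n hn) hc
  obtain ⟨u₂, hu₂⟩ : ∃ t, y' * (lft F hθ i n * u₁ * (lft F hθ i n)⁻¹) * y'⁻¹ = t := ⟨_, rfl⟩
  have mu : u₂ ∈ UE F θ := by
    rw [← hu₂]
    exact (iSup₂_le fun s hs => le_biSup (fun r => XE F θ r) hs.1 : UiE F θ i ≤ UE F θ)
      (neg_simple_conj_Ui F hθ i my (W_conj_Ui F hθ i hn hu₁))
  obtain ⟨h', hh', em⟩ := W_mul_nW F hθ i hn L hh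
  rw [show lft F hθ i n * (c * u₁) * (nW F hθ L * h) * v =
      u₂ * (y' * (lft F hθ i n * (nW F hθ L * h)) * v) by rw [← hu₂, ← hy']; group, em]
  suffices hs : y' * (nW F hθ (i :: L) * h') * v ∈ cells F hθ by
    obtain ⟨a, ha, L', k, hk, b, hb, e⟩ := hs
    exact ⟨u₂ * a, mul_mem mu ha, L', k, hk, b, hb, by rw [e]; group⟩
  -- move `y'` to the right
  have hcar : Carries F.X (θ (nW F hθ (i :: L) * h')) ((i :: L).map F.w).prod := by
    rw [map_mul]
    simpa using (carries_nW F hθ (i :: L)).mul (carries_HE F hθ hh')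
  by_cases hs : (((i :: L).map F.w).prod)⁻¹ (F.neg (F.simple i)) ∈ F.pos
  · refine ⟨1, one_mem _, i :: L, h', hh',
      (nW F hθ (i :: L) * h')⁻¹ * y' * (nW F hθ (i :: L) * h') * v, mul_mem ?_ hv, by group⟩
    have := conj_XE F hθ (g := (nW F hθ (i :: L) * h')⁻¹) (by rw [map_inv]; exact hcar.inv) my
    rw [inv_inv] at this
    exact le_biSup (fun r => XE F θ r) hs this
  obtain ⟨v₁, hv₁, hy₁⟩ := exists_of_XE_neg F hθ my
  by_cases h2 : v₁ = 1
  · rw [← hy₁, h2, map_one, one_mul]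
    exact ⟨1, one_mem _, i :: L, h', hh', v, hv, by group⟩
  obtain ⟨a', ha', n', hn', b', hb', rfl⟩ := (F.R i).lower v₁ hv₁ h2
  have hpos : (((i :: L).map F.w).prod)⁻¹ (F.simple i) ∈ F.pos := by
    by_contra hc'
    refine hs ?_
    have e := F.wP_neg (i :: L) ((((i :: L).map F.w).prod)⁻¹ (F.simple i))
    rw [Equiv.Perm.coe_inv, Equiv.apply_symm_apply] at e
    rw [← e, Equiv.Perm.coe_inv, Equiv.symm_apply_apply]
    by_contra h3
    exact hc' ((F.pos_neg _).2 h3)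
  have hb2 := conj_XE F hθ (g := (nW F hθ (i :: L) * h')⁻¹) (by rw [map_inv]; exact hcar.inv)
    (lft_U F hθ hb')
  rw [inv_inv] at hb2
  obtain ⟨h'', hh'', em'⟩ := W_mul_nW F hθ i hn' (i :: L) hh'
  refine ⟨lft F hθ i a', le_biSup (fun r => XE F θ r) (F.simple_pos i) (lft_U F hθ ha'),
    i :: i :: L, h'', hh'', (nW F hθ (i :: L) * h')⁻¹ * lft F hθ i b' * (nW F hθ (i :: L) * h') * v,
    mul_mem (le_biSup (fun r => XE F θ r) hpos hb2) hv, ?_⟩
  rw [← hy₁, ← em', map_mul, map_mul]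
  group

theorem mem_range_cells {i : F.ι} (x : (F.R i).L) {e : E} (he : e ∈ cells F hθ) :
    lft F hθ i x * e ∈ cells F hθ ∧ (lft F hθ i x)⁻¹ * e ∈ cells F hθ := by
  have hx : x ∈ (F.R i).U ⊔ (F.R i).V := (F.R i).gen ▸ mem_top x
  rw [sup_eq_closure] at hx
  induction hx using closure_induction generalizing e with
  | mem a ha =>
    rcases ha with ha | ha
    · exact ⟨simple_mul_cells F hθ i (lft_U F hθ ha) he,
        simple_mul_cells F hθ i (inv_mem (lft_U F hθ ha)) he⟩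
    · exact ⟨neg_mul_cells F hθ i (lft_V F hθ ha) he,
        neg_mul_cells F hθ i (inv_mem (lft_V F hθ ha)) he⟩
  | one => simpa using he
  | mul a b _ _ iha ihb =>
    refine ⟨?_, ?_⟩
    · rw [map_mul, mul_assoc]; exact (iha (ihb he).1).1
    · rw [map_mul, mul_inv_rev, mul_assoc]; exact (ihb (iha he).2).2
  | inv a _ iha => rw [map_inv, inv_inv]; exact ⟨(iha he).2, (iha he).1⟩

theorem mem_cells (hperf : _root_.commutator E = ⊤) (e : E) : e ∈ cells F hθ := by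
  let R : Subgroup E := ⨆ i, (lft F hθ i).range
  have hR : R.map θ = ⊤ := by
    rw [Subgroup.map_iSup, ← F.gen]
    refine iSup_congr fun i => ?_
    rw [MonoidHom.map_range]
    congr 1
    ext x
    exact θ_lft F hθ i x
  have htop : e ∈ R := by
    suffices hle : _root_.commutator E ≤ R from hle (hperf ▸ mem_top e)
    rw [_root_.commutator_def, commutator_le]
    intro a _ b _
    obtain ⟨a', ha', ea⟩ : θ a ∈ R.map θ := hR ▸ mem_top _
    obtain ⟨b', hb', eb⟩ : θ b ∈ R.map θ := hR ▸ mem_top _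
    rw [Schur.commutator_congr hθ.ker_le ea.symm eb.symm, commutatorElement_def]
    exact mul_mem (mul_mem (mul_mem ha' hb') (inv_mem ha')) (inv_mem hb')
  suffices h : ∀ c ∈ cells F hθ, e * c ∈ cells F hθ ∧ e⁻¹ * c ∈ cells F hθ by
    simpa using (h 1 (one_mem_cells F hθ)).1
  induction htop using iSup_induction' with
  | hp i x hx => obtain ⟨y, rfl⟩ := hx; exact fun c hc => mem_range_cells F hθ y hc
  | h1 => simp
  | hmul a b _ _ iha ihb =>
    intro c hc
    refine ⟨?_, ?_⟩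
    · rw [mul_assoc]; exact (iha _ (ihb c hc).1).1
    · rw [mul_inv_rev, mul_assoc]; exact (ihb _ (iha c hc).2).2

omit hθ in
theorem θ_cell_mem (hθ : PCentral p θ) (L : List F.ι) {h : E} (hh : h ∈ HE F hθ) :
    θ (nW F hθ L * h) ∈ monoG F := by
  rw [map_mul]; exact mul_mem (θ_nW_mem F hθ L) (θ_HE_mem F hθ hh)

/-- The kernel lies in the torus. -/
theorem ker_le_HE (hperf : _root_.commutator E = ⊤) : θ.ker ≤ HE F hθ := by
  intro z hz
  obtain ⟨u, hu, L, h, hh, v, hv, e⟩ := mem_cells F hθ hperf z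
  have hzc := mem_center_iff.1 (hθ.ker_le hz)
  have hz1 := MonoidHom.mem_ker.1 hz
  rw [e, map_mul, map_mul] at hz1
  have hvu : θ (nW F hθ L * h) ∈ F.posSub := by
    have : θ (nW F hθ L * h) = (θ u)⁻¹ * (θ v)⁻¹ := by
      rw [← mul_right_inj (θ u), ← mul_left_inj (θ v), hz1]; group
    rw [this]
    exact mul_mem (inv_mem (θ_UE F hθ hu)) (inv_mem (θ_UE F hθ hv))
  have hm := F.mono _ (θ_cell_mem F hθ L hh) _ hvu 1 (one_mem _) (mul_one _).symm
  rw [hm, mul_one, ← map_mul] at hz1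
  have huv := eq_one_of_UE F hθ (mul_mem hu hv) hz1
  have hzm : z = nW F hθ L * h := by
    have h1 : u⁻¹ * z * u = z := by rw [mul_assoc, ← hzc u, inv_mul_cancel_left]
    rw [← h1, e, eq_inv_of_mul_eq_one_right huv]
    group
  have hw : Carries F.X (1 : G) (L.map F.w).prod := by
    have := (carries_nW F hθ L).mul (carries_HE F hθ hh)
    rwa [← map_mul, mul_one, hm] at this
  rw [hzm]
  refine mul_mem (nW_mem_HE F hθ L.length L rfl fun r hr => ?_) hh
  rw [Carries.unique F.X_inj hw (Carries.one (X := F.X))]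
  simpa using hr

end CfsgLib.SchurOrth
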