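import Mathlib
import Cfsg.Agent.SchurOrth.Decompose

/-!
The torus as a homomorphic image, the bound on the kernel and the Sylow `p`-subgroup of a frame.
-/

set_option autoImplicit false

namespace CfsgLib.SchurOrth

open Subgroup
open CfsgLib.SchurClassical (pElts)

universe u

variable {p : ℕ} {E G : Type u} [Group E] [Group G] (F : Frame G p)

/-- The abstract torus. -/
abbrev Frame.Torus (F : Frame G p) : Type u := (i : F.ι) → ↥(F.R i).D

/-- The torus is commutative. -/
theorem torus_mul_comm (a b : F.Torus) : a * b = b * a :=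
  funext fun i => Subtype.ext ((F.R i).D_comm _ (a i).2 _ (b i).2)

section

variable {θ : E →* G} [Finite E] [Fact p.Prime] (hθ : PCentral p θ)

/-- The torus of the extension as a homomorphism. -/
noncomputable def torE : F.Torus →* E :=
  MonoidHom.noncommPiCoprod (fun i => (lft F hθ i).comp (F.R i).D.subtype)
    fun _ _ _ a b => lft_D_commute F hθ a.2 b.2

theorem HE_le_range : HE F hθ ≤ (torE F hθ).range := by
  classical
  refine iSup_le fun i => ?_
  rintro _ ⟨d, hd, rfl⟩
  exact ⟨Pi.mulSingle i ⟨d, hd⟩, by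
    unfold torE; erw [MonoidHom.noncommPiCoprod_mulSingle]; rfl⟩

theorem θ_torE (t : F.Torus) (T : F.Torus →* G)
    (hT : ∀ i (d : ↥(F.R i).D), ∀ [DecidableEq F.ι], T (Pi.mulSingle i d) = (F.R i).φ d) :
    θ (torE F hθ t) = T t := by
  classical
  have h : θ.comp (torE F hθ) = T := MonoidHom.pi_ext fun i d => by
    rw [hT i d]
    simp only [MonoidHom.comp_apply, torE]
    erw [MonoidHom.noncommPiCoprod_mulSingle]
    exact θ_lft F hθ i _
  exact DFunLike.congr_fun h t

include hθ in
/-- The kernel is an image of the kernel of the torus map. -/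
theorem exists_ker_surj (hperf : _root_.commutator E = ⊤) (T : F.Torus →* G)
    (hT : ∀ i (d : ↥(F.R i).D), ∀ [DecidableEq F.ι], T (Pi.mulSingle i d) = (F.R i).φ d) :
    ∃ π : T.ker →* θ.ker, Function.Surjective π := by
  refine ⟨((torE F hθ).comp T.ker.subtype).codRestrict θ.ker fun x => ?_, fun ⟨z, hz⟩ => ?_⟩
  · rw [MonoidHom.mem_ker, MonoidHom.comp_apply, θ_torE F hθ _ T hT]
    exact x.2
  · obtain ⟨t, rfl⟩ := HE_le_range F hθ (ker_le_HE F hθ hperf hz)
    exact ⟨⟨t, by rw [MonoidHom.mem_ker, ← θ_torE F hθ t T hT]; exact hz⟩, rfl⟩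

end

variable [Fact p.Prime]

theorem pCentral_id : PCentral p (MonoidHom.id G) where
  surj := Function.surjective_id
  ker_le := by simp
  prime_to := fun a ha _ _ => ha

variable [Finite G]

theorem mem_posSub_of_UE {e : G} (he : e ∈ UE F (MonoidHom.id G)) : e ∈ F.posSub := by
  simpa using θ_UE F pCentral_id he

/-- A `p`-element normalising the positive subgroup lies in it. -/
theorem mem_posSub_of_normalizer (hperf : _root_.commutator G = ⊤) {g : G} (hg : g ∈ pElts p G)
    (hgn : g ∈ normalizer (F.posSub : Set G)) : g ∈ F.posSub := by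
  obtain ⟨u, hu, L, h, hh, v, hv, rfl⟩ := mem_cells F (pCentral_id (G := G)) hperf g
  have hu' := mem_posSub_of_UE F hu
  have hv' := mem_posSub_of_UE F hv
  have hmn : nW F pCentral_id L * h ∈ normalizer (F.posSub : Set G) := by
    have hun : u ∈ normalizer (F.posSub : Set G) := le_normalizer hu'
    have hvn : v ∈ normalizer (F.posSub : Set G) := le_normalizer hv'
    have := mul_mem (mul_mem (inv_mem hun) hgn) (inv_mem hvn)
    convert this using 1
    group
  have hcar : Carries F.X (nW F pCentral_id L * h) (L.map F.w).prod := by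
    simpa using (carries_nW F (pCentral_id (G := G)) L).mul (carries_HE F pCentral_id hh)
  have hL : nW F pCentral_id L ∈ HE F (pCentral_id (G := G)) := by
    refine nW_mem_HE F pCentral_id L.length L rfl fun r hr => ?_
    by_contra hc
    refine F.X_ne ((L.map F.w).prod r) (eq_bot_iff.2 fun x hx => mem_bot.2 ?_)
    have hxU : x ∈ F.posSub := by
      rw [← hcar r] at hx
      obtain ⟨y, hy, rfl⟩ := hx
      exact (mem_normalizer_iff.1 hmn y).1 (F.le_posSub hr hy)
    have : x ∈ F.posSub ⊓ F.negSub := ⟨hxU, F.le_negSub hc hx⟩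
    rwa [F.U_inf_V, mem_bot] at this
  obtain ⟨t, ht⟩ := HE_le_range F (pCentral_id (G := G)) (mul_mem hL hh)
  rw [← ht] at hmn hg ⊢
  obtain ⟨k, hk⟩ := hg
  let N : Subgroup G := normalizer (F.posSub : Set G)
  let U : Subgroup N := F.posSub.subgroupOf N
  haveI : U.Normal := normal_in_normalizer
  let a : N := ⟨torE F pCentral_id t, hmn⟩
  let g' : N := ⟨u, le_normalizer hu'⟩ * a * ⟨v, le_normalizer hv'⟩
  have hga : QuotientGroup.mk' U g' = QuotientGroup.mk' U a := by
    have h1 : QuotientGroup.mk' U ⟨u, le_normalizer hu'⟩ = 1 := (QuotientGroup.eq_one_iff _).2 hu'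
    have h2 : QuotientGroup.mk' U ⟨v, le_normalizer hv'⟩ = 1 := (QuotientGroup.eq_one_iff _).2 hv'
    simp only [g', map_mul, h1, h2, one_mul, mul_one]
  have hg1 : QuotientGroup.mk' U a ^ p ^ k = 1 := by
    rw [← hga, ← map_pow, show g' ^ p ^ k = 1 from Subtype.ext (by simpa [g'] using hk), map_one]
  obtain ⟨n, hn0, hn⟩ : ∃ n, p.Coprime n ∧ t ^ n = 1 := by
    refine ⟨orderOf t, (Nat.Prime.coprime_iff_not_dvd Fact.out).2 fun hd => ?_, pow_orderOf_eq_one t⟩
    obtain ⟨e, he⟩ := hd
    have hp : (t ^ e) ^ p = 1 := by rw [← pow_mul, mul_comm, ← he, pow_orderOf_eq_one]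
    have h1 : t ^ e = 1 := funext fun i => Subtype.ext
      ((F.R i).D_coprime _ ((t ^ e) i).2 1 (by
        rw [pow_one, ← SubmonoidClass.coe_pow, ← Pi.pow_apply, hp]; rfl))
    rw [← orderOf_dvd_iff_pow_eq_one, he] at h1
    have h2 : 0 < orderOf t := orderOf_pos t
    rw [he] at h2
    have := Nat.le_of_dvd (Nat.pos_of_mul_pos_left h2) h1
    have := (Fact.out : p.Prime).two_le
    nlinarith [Nat.pos_of_mul_pos_left h2]
  have ha : QuotientGroup.mk' U a = 1 := by
    refine SchurClassical.eq_one_of_pow_prime_pow hg1 ?_ hn0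
    rw [← map_pow, show a ^ n = 1 from Subtype.ext (by simp [a, ← map_pow, hn]), map_one]
  have hga' : QuotientGroup.mk' U g' = 1 := hga.trans ha
  exact (QuotientGroup.eq_one_iff g').1 hga'

/-- The positive subgroup has index prime to `p`. -/
theorem not_dvd_index_posSub (hperf : _root_.commutator G = ⊤) : ¬ p ∣ F.posSub.index := by
  obtain ⟨P, hP⟩ := F.U_p.exists_le_sylow
  rcases eq_or_lt_of_le hP with e | hlt
  · show ¬ p ∣ (⨆ r ∈ F.pos, F.X r : Subgroup G).index
    rw [e]; exact P.not_dvd_index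
  exfalso
  haveI : Group.IsNilpotent (P : Subgroup G) := P.isPGroup'.isNilpotent
  have hne : F.posSub.subgroupOf (P : Subgroup G) < ⊤ := lt_top_iff_ne_top.2 fun e => by
    rw [subgroupOf_eq_top] at e
    exact not_le_of_gt hlt e
  obtain ⟨x, hx, hxU⟩ := SetLike.exists_of_lt
    (Group.normalizerCondition_of_isNilpotent _ hne)
  refine hxU (mem_subgroupOf.2 (mem_posSub_of_normalizer F hperf
    (SchurClassical.mem_pElts_of_mem P.isPGroup' x.2) (mem_normalizer_iff.2 fun y => ?_)))
  constructor
  · intro hy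
    exact mem_subgroupOf.1 ((mem_normalizer_iff.1 hx ⟨y, hP hy⟩).1 (mem_subgroupOf.2 hy))
  · intro hy
    have hyP : y ∈ (P : Subgroup G) := by
      have := mul_mem (mul_mem (inv_mem x.2) (hP hy)) x.2
      convert this using 1
      group
    exact mem_subgroupOf.1 ((mem_normalizer_iff.1 hx ⟨y, hyP⟩).2 (mem_subgroupOf.2 hy))

end CfsgLib.SchurOrth
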