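import Mathlib
import Cfsg.Agent.SchurOrth.Omega
import Cfsg.Agent.SchurOrth.LongSL
import Cfsg.Agent.SchurOrth.ShortSL
import Cfsg.Agent.SchurOrth.Torus

/-!
The frame of `PΩ` given by a hyperbolic frame with simple nodes.
-/

set_option autoImplicit false
set_option linter.unusedSectionVars false
set_option maxHeartbeats 400000

namespace CfsgLib.SchurOrth

open Cfsg.Geo CfsgLib.OrthGeo Matrix
open scoped MatrixGroups

universe u

/-- The rank one datum of a homomorphism from `SL_2`. -/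
noncomputable def slRankOne {G : Type u} [Group G] (K : Type u) [Field K] [Finite K] (p : ℕ) [CharP K p]
    [Fact p.Prime] (φ : Matrix.SpecialLinearGroup (Fin 2) K →* G) : RankOne G p where
  L := Matrix.SpecialLinearGroup (Fin 2) K
  φ := φ
  U := slUsub K
  V := slLsub K
  D := (slD (K := K)).range
  W := {n | ∃ t : K, t ≠ 0 ∧ n = slW t}
  U_p := slUsub_isPGroup
  V_p := slLsub_isPGroup
  gen := sl_gen
  lower y hy hne := by
    obtain ⟨s, rfl⟩ := exists_of_mem_slL hy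
    have hs : s ≠ 0 := fun h => hne (by rw [h, slL_zero])
    exact ⟨_, slU_mem _, _, ⟨-s⁻¹, neg_ne_zero.2 (inv_ne_zero hs), rfl⟩, _, slU_mem _, slL_eq hs⟩
  mid := by
    rintro n ⟨t, -, rfl⟩
    exact ⟨_, slU_mem t, _, slL_mem (-t⁻¹), _, slU_mem t, rfl⟩
  W_ne := ⟨slW 1, 1, one_ne_zero, rfl⟩
  W_inv := by
    rintro n ⟨t, ht, rfl⟩
    exact ⟨-t, neg_ne_zero.2 ht, slW_inv ht⟩
  W_mul := by
    rintro n ⟨t, ht, rfl⟩ n' ⟨s, hs, rfl⟩
    exact ⟨_, (slW_mul ht hs).symm⟩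
  D_comm := by
    rintro _ ⟨a, rfl⟩ _ ⟨b, rfl⟩
    rw [← map_mul, ← map_mul, mul_comm]
  D_coprime := by
    rintro _ ⟨a, rfl⟩ k hk
    rw [← map_pow] at hk
    rw [units_pow_char_eq_one (slD_injective (hk.trans (map_one _).symm)), map_one]
  split θ h := sl_split θ h

variable {ι : Type} [Fintype ι] [DecidableEq ι] {F : Type u} [Field F] {Q : (ι → F) → F}
variable {hQ : IsNondegenerateQuadraticForm Q} {m : ℕ}

theorem Root.act_neg {sh : Prop} (π : Equiv.Perm (Fin m ⊕ Fin m)) (hπ : ∀ a, π a.swap = (π a).swap)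
    (s : Root m sh) : Root.act π hπ s.neg = (Root.act π hπ s).neg := Subtype.ext (by
  simp only [Root.act, Root.neg, Finset.map_map]
  congr 1
  ext x
  exact hπ x)

/-- The permutation of the roots. -/
def Root.actE {sh : Prop} (π : Equiv.Perm (Fin m ⊕ Fin m)) (hπ : ∀ a, π a.swap = (π a).swap) :
    Equiv.Perm (Root m sh) where
  toFun := Root.act π hπ
  invFun := Root.act π.symm fun a => π.injective (by rw [hπ, π.apply_symm_apply, π.apply_symm_apply])
  left_inv s := Subtype.ext (by simp [Root.act, Finset.map_map])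
  right_inv s := Subtype.ext (by simp [Root.act, Finset.map_map])

theorem Root.actE_apply {sh : Prop} (π : Equiv.Perm (Fin m ⊕ Fin m)) (hπ : ∀ a, π a.swap = (π a).swap)
    (s : Root m sh) : Root.actE π hπ s = Root.act π hπ s := rfl

/-- A simple node. -/
structure Node (P : Polar hQ m) (p : ℕ) (sh : Prop) where
  root : Root m sh
  pos : root.IsPos
  R : RankOne (GL ι F) p
  mem : ∀ l, R.φ l ∈ omegaGL Q
  π : Equiv.Perm (Fin m ⊕ Fin m)
  π_swap : ∀ a, π a.swap = (π a).swap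
  act_root : Root.act π π_swap root = root.neg
  map_U : R.U.map R.φ = P.rootGroup root.1
  map_V : R.V.map R.φ = P.rootGroup root.neg.1
  mono_W : ∀ n ∈ R.W, P.IsMono (R.φ n) π
  mono_D : ∀ d ∈ R.D, P.IsMono (R.φ d) 1
  w_pos : ∀ r : Root m sh, r.IsPos → r ≠ root → (Root.act π π_swap r).IsPos
  norm : ∀ r : Root m sh, r.IsPos → r ≠ root → ∀ a ∈ P.rootGroup root.1, ∀ x ∈ P.rootGroup r.1,
    a * x * a⁻¹ ∈ P.others sh root.1

/-- All the simple nodes of a frame. -/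
structure Nodes (P : Polar hQ m) (p : ℕ) (sh : Prop) where
  κ : Type
  [fintype : Fintype κ]
  node : κ → Node P p sh
  adj : ∀ i j, ∀ d ∈ (node i).R.D, ∃ c : (node j).R.L →* (node j).R.L, (∀ x ∈ (node j).R.D, c x = x) ∧
    (∀ n ∈ (node j).R.W, c n ∈ (node j).R.W) ∧
    ∀ l, (node i).R.φ d * (node j).R.φ l * ((node i).R.φ d)⁻¹ = (node j).R.φ (c l)
  gen : omegaGL Q ≤ ⨆ i, (node i).R.φ.range
  sh_ne : sh → ∃ w ∈ P.W, w ≠ 0
  dim : 5 ≤ Fintype.card ι

attribute [instance] Nodes.fintype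

namespace Polar

variable (P : Polar hQ m) {sh : Prop}

/-- A vector orthogonal to the root is fixed. -/
theorem rootGroup_fix {s : Finset (Fin m ⊕ Fin m)} {a : Fin m ⊕ Fin m} (ha : a.swap ∉ s) {g : GL ι F}
    (hg : g ∈ P.rootGroup s) : (g : Matrix ι ι F) *ᵥ P.b a = P.b a := by
  let H : Subgroup (GL ι F) :=
    { carrier := {g | (g : Matrix ι ι F) *ᵥ P.b a = P.b a}
      one_mem' := by simp
      mul_mem' := fun {g h} hg hh => by
        show ((g * h : GL ι F) : Matrix ι ι F) *ᵥ P.b a = _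
        rw [Units.val_mul, ← mulVec_mulVec, show (h : Matrix ι ι F) *ᵥ P.b a = P.b a from hh]
        exact hg
      inv_mem' := fun {g} hg => by
        show ((g⁻¹ : GL ι F) : Matrix ι ι F) *ᵥ P.b a = _
        conv_lhs => rw [← show (g : Matrix ι ι F) *ᵥ P.b a = P.b a from hg]
        rw [OrthGeo.inv_mulVec_cancel] }
  refine (P.rootGroup_le_of (H := H) fun c v h => ?_) hg
  show (eichler hQ (P.q_b c) h.bform_eq_zero : Matrix ι ι F) *ᵥ P.b a = P.b a
  rw [← sub_eq_zero, eichler_b_sub]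
  rcases h with ⟨e, hv⟩ | ⟨d, t, h1, h2, e, rfl⟩
  · have hca : c.swap ≠ a := fun h => ha (by rw [e, ← h, Sum.swap_swap]; exact Finset.mem_singleton_self _)
    rw [b_symm hQ v, P.bform_b_W hv, P.coord_b, if_neg hca]
    module
  · have hca : c.swap ≠ a := fun h => ha (by rw [e, ← h, Sum.swap_swap]; exact Finset.mem_insert_self _ _)
    have hda : d.swap ≠ a := fun h => ha (by
      rw [e, ← h, Sum.swap_swap]; exact Finset.mem_insert_of_mem (Finset.mem_singleton_self _))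
    rw [map_smul, LinearMap.smul_apply, P.bform_eq_coord, P.coord_b, P.coord_b, if_neg hda, if_neg hca]
    module

/-- The vectors opposite to the root are moved. -/
theorem rootGroup_move (hW : sh → ∃ w ∈ P.W, w ≠ 0) {s : Root m sh} {a : Fin m ⊕ Fin m} (ha : a.swap ∈ s.1) :
    ∃ g ∈ P.rootGroup s.1, (g : Matrix ι ι F) *ᵥ P.b a ≠ P.b a := by
  rcases s.2 with ⟨c, d, h1, h2, e⟩ | ⟨hs, c, e⟩
  · obtain ⟨c, d, h1, h2, e, rfl⟩ : ∃ c d, d ≠ c ∧ d ≠ c.swap ∧ s.1 = {c, d} ∧ c.swap = a := by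
      rw [e, Finset.mem_insert, Finset.mem_singleton] at ha
      rcases ha with h | h
      · exact ⟨c, d, h1, h2, e, by rw [← h, Sum.swap_swap]⟩
      · exact ⟨d, c, h1.symm, fun h' => h2 (by rw [h', Sum.swap_swap]), by rw [e, Finset.pair_comm],
          by rw [← h, Sum.swap_swap]⟩
    have hg : P.Gen s.1 c ((1 : F) • P.b d) := Or.inr ⟨d, 1, h1, h2, e, rfl⟩
    refine ⟨_, P.eichler_mem_rootGroup hg, fun h => P.b_ne_zero d ?_⟩
    have hne : d.swap ≠ c.swap := fun h' => h1 (by rw [← Sum.swap_swap d, h', Sum.swap_swap])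
    have h' := sub_eq_zero.2 h
    rw [eichler_b_sub, one_smul, P.bform_eq_coord, P.coord_b, P.coord_b, if_neg hne, if_pos rfl, P.q_b] at h'
    simpa using h'
  · obtain ⟨w, hw, hw0⟩ := hW hs
    have hca : c.swap = a := by
      rw [e, Finset.mem_singleton] at ha
      rw [← ha, Sum.swap_swap]
    subst hca
    have hg : P.Gen s.1 c w := Or.inl ⟨e, hw⟩
    refine ⟨_, P.eichler_mem_rootGroup hg, fun h => hw0 ?_⟩
    have h' := sub_eq_zero.2 h
    rw [eichler_b_sub, b_symm hQ w, P.bform_b_W hw, P.coord_b, if_pos rfl] at h'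
    have h'' := congrArg P.projW h'
    simpa [P.projW_b, P.projW_of_mem hw] using h''

theorem rootGroup_injective (hW : sh → ∃ w ∈ P.W, w ≠ 0) {r s : Root m sh}
    (h : P.rootGroup r.1 = P.rootGroup s.1) : r = s := by
  refine Subtype.ext (Finset.ext fun a => ?_)
  obtain ⟨a, rfl⟩ : ∃ b, Sum.swap b = a := ⟨a.swap, Sum.swap_swap a⟩
  constructor <;> intro ha <;> by_contra hb
  · obtain ⟨g, hg, hne⟩ := P.rootGroup_move hW ha
    exact hne (P.rootGroup_fix hb (h ▸ hg))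
  · obtain ⟨g, hg, hne⟩ := P.rootGroup_move hW ha
    exact hne (P.rootGroup_fix hb (h ▸ hg))

theorem rootGroup_ne_bot (hW : sh → ∃ w ∈ P.W, w ≠ 0) (s : Root m sh) : P.rootGroup s.1 ≠ ⊥ := by
  obtain ⟨a, ha⟩ : ∃ a : Fin m ⊕ Fin m, a.swap ∈ s.1 := by
    rcases s.2 with ⟨c, d, -, -, e⟩ | ⟨-, c, e⟩ <;> refine ⟨c.swap, ?_⟩ <;> rw [Sum.swap_swap, e] <;> simp
  obtain ⟨g, hg, hne⟩ := P.rootGroup_move hW ha
  intro h
  rw [h, Subgroup.mem_bot] at hg
  exact hne (by rw [hg]; simp)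

theorem flip_coord (a : Fin m ⊕ Fin m) (x : ι → F) : P.flip.coord a x = P.coord a.swap x := by
  simp [coord_apply, flip]

theorem flip_projW (x : ι → F) : P.flip.projW x = P.projW x := by
  rw [projW_apply, projW_apply]
  congr 1
  refine Fintype.sum_equiv (Equiv.sumComm _ _) _ _ fun a => ?_
  rw [flip_coord]
  rfl

theorem up_inf_flip_up [Finite F] {g : GL ι F} (h1 : g ∈ P.up) (h2 : g ∈ P.flip.up) : g = 1 := by
  refine P.gl_eq (fun a => ?_) fun w hw => ?_
  · rw [Units.val_one, one_mulVec, ← sub_eq_zero]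
    have u1 := h1.2 (deg a) (P.b a) (P.b_mem_lev (Nat.lt_succ_self _))
    have u2 := h2.2 (deg a.swap) (P.flip.b a.swap) (P.flip.b_mem_lev (Nat.lt_succ_self _))
    rw [show P.flip.b a.swap = P.b a by simp [flip]] at u2
    refine P.eq_zero_of_coord (fun c => ?_) ?_
    · by_cases h : deg a ≤ deg c
      · exact u1.1 c h
      · have := u2.1 c.swap (by rw [deg_swap, deg_swap]; omega)
        rwa [flip_coord, Sum.swap_swap] at this
    · by_cases h : deg a ≤ m
      · exact u1.2 h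
      · rw [← flip_projW]
        exact u2.2 (by rw [deg_swap]; omega)
  · rw [Units.val_one, one_mulVec, ← sub_eq_zero]
    have u1 := h1.2 m w (P.W_mem_lev hw (Nat.lt_succ_self _))
    have u2 := h2.2 m w (P.flip.W_mem_lev (by rwa [flip_W]) (Nat.lt_succ_self _))
    refine P.eq_zero_of_coord (fun c => ?_) (u1.2 le_rfl)
    by_cases h : m ≤ deg c
    · exact u1.1 c h
    · have := u2.1 c.swap (by rw [deg_swap]; omega)
      rwa [flip_coord, Sum.swap_swap] at this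

theorem others_le_omega (hn : 5 ≤ Fintype.card ι) (σ : Finset (Fin m ⊕ Fin m)) :
    P.others sh σ ≤ omegaGL Q :=
  iSup₂_le fun s _ => P.rootGroup_le_omega hn s.1

/-- The monomial elements of `Ω`. -/
def monoSub [Finite F] : Subgroup ↥(omegaGL Q) where
  carrier := {g | ∃ π, P.IsMono (g : GL ι F) π}
  one_mem' := ⟨1, IsMono.one P⟩
  mul_mem' := by
    rintro g h ⟨π, hg⟩ ⟨ρ, hh⟩
    exact ⟨π * ρ, hg.mul hh⟩
  inv_mem' := by
    rintro g ⟨π, hg⟩
    exact ⟨π⁻¹, hg.inv⟩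

end Polar

/-- Lift of a subgroup of `PΩ` to the matrices. -/
noncomputable def liftSub (Q : (ι → F) → F) (Y : Subgroup (Cfsg.POmega F Q)) : Subgroup (GL ι F) :=
  (Y.comap (prΩ Q)).map (omegaGL Q).subtype

theorem mem_of_liftSub {Y : Subgroup (Cfsg.POmega F Q)} {g : GL ι F} (hg : g ∈ omegaGL Q)
    (h : g ∈ liftSub Q Y) : prΩ Q ⟨g, hg⟩ ∈ Y := by
  obtain ⟨x, hx, e⟩ := h
  have : x = ⟨g, hg⟩ := Subtype.ext e
  exact this ▸ hx

theorem le_liftSub {H : Subgroup (GL ι F)} {Y : Subgroup (Cfsg.POmega F Q)} (hH : H ≤ omegaGL Q)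
    (h : projSub Q H ≤ Y) : H ≤ liftSub Q Y :=
  fun g hg => ⟨⟨g, hH hg⟩, h (mem_projSub (hH hg) hg), rfl⟩

namespace Nodes

variable [Finite F] {P : Polar hQ m} {p : ℕ} [CharP F p] [Fact p.Prime] {sh : Prop} (N : Nodes P p sh)

/-- The rank one subgroup in `PΩ`. -/
@[reducible]
noncomputable def projRank (i : N.κ) : RankOne (Cfsg.POmega F Q) p :=
  { (N.node i).R with φ := (prΩ Q).comp ((N.node i).R.φ.codRestrict (omegaGL Q) (N.node i).mem) }

theorem map_projRank (i : N.κ) (H : Subgroup (N.node i).R.L) :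
    H.map (N.projRank i).φ = projSub Q (H.map (N.node i).R.φ) := by
  show H.map ((prΩ Q).comp _) = _
  rw [← Subgroup.map_map, projSub]
  congr 1
  ext x
  simp only [Subgroup.mem_map, Subgroup.mem_subgroupOf]
  exact ⟨fun ⟨a, ha, e⟩ => ⟨a, ha, congrArg Subtype.val e⟩, fun ⟨a, ha, e⟩ => ⟨a, ha, Subtype.ext e⟩⟩

/-- The root groups in `PΩ`. -/
noncomputable def X (P : Polar hQ m) (r : Root m sh) : Subgroup (Cfsg.POmega F Q) :=
  projSub Q (P.rootGroup r.1)

include N in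
theorem X_le_pos {r : Root m sh} (hr : r.IsPos) : X P r ≤ projSub Q P.up :=
  projSub_mono (P.rootGroup_le_up hr)

include N in
theorem X_le_neg {r : Root m sh} (hr : ¬ r.IsPos) : X P r ≤ projSub Q P.flip.up :=
  projSub_mono (P.rootGroup_le_flip_up hr)

theorem projSub_isPGroup {H : Subgroup (GL ι F)} (h : IsPGroup p H) : IsPGroup p (projSub Q H) :=
  (h.comap_of_injective _ (omegaGL Q).subtype_injective).map _

theorem isMono_scalar {z : ↥(omegaGL Q)} {c : F}
    (h : ∀ x, ((z : GL ι F) : Matrix ι ι F) *ᵥ x = c • x) : P.IsMono (z : GL ι F) 1 :=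
  ⟨omegaGL_le z.2, fun a => ⟨c, by rw [h, Equiv.Perm.one_apply]⟩,
    fun w hw => by rw [h]; exact P.W.smul_mem c hw⟩

include N in
theorem eq_one_of_mono {n u v : ↥(omegaGL Q)} {π : Equiv.Perm (Fin m ⊕ Fin m)}
    (hn : P.IsMono (n : GL ι F) π) (hu : (u : GL ι F) ∈ P.up) (hv : (v : GL ι F) ∈ P.flip.up)
    (e : prΩ Q n = prΩ Q (u * v)) : u = 1 ∧ v = 1 := by
  have hz : n * (u * v)⁻¹ ∈ (prΩ Q).ker := by
    rw [MonoidHom.mem_ker, map_mul, map_inv, e, mul_inv_cancel]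
  rw [prΩ_ker] at hz
  obtain ⟨c, hc⟩ := exists_scalar hQ N.dim hz
  have h2 := ((isMono_scalar (P := P) hc).inv.mul hn)
  have e2 : ((n * (u * v)⁻¹ : ↥(omegaGL Q)) : GL ι F)⁻¹ * (n : GL ι F) = (u : GL ι F) * (v : GL ι F) := by
    simp only [Subgroup.coe_mul, Subgroup.coe_inv]
    group
  rw [e2] at h2
  have h3 := P.mono_eq_one h2 hu hv rfl
  have huv : (u : GL ι F) = (v : GL ι F)⁻¹ := mul_eq_one_iff_eq_inv.1 h3
  have hu1 : (u : GL ι F) = 1 := P.up_inf_flip_up hu (huv ▸ inv_mem hv)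
  exact ⟨Subtype.ext hu1, Subtype.ext (by rw [hu1] at huv; exact inv_eq_one.1 huv.symm)⟩

include N in
theorem inf_eq_bot : projSub Q P.up ⊓ projSub Q P.flip.up = ⊥ := by
  refine eq_bot_iff.2 ?_
  rintro x ⟨⟨u, hu, rfl⟩, ⟨v, hv, e⟩⟩
  have hu' : (u : GL ι F) ∈ P.up := hu
  have hv' : (v : GL ι F) ∈ P.flip.up := hv
  have h := N.eq_one_of_mono (n := (1 : ↥(omegaGL Q))) (u := u) (v := v⁻¹) (π := 1)
    (by simpa using Polar.IsMono.one P) hu' (by simpa using inv_mem hv') (by rw [map_one, map_mul, map_inv, e, mul_inv_cancel])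
  rw [Subgroup.mem_bot, h.1, map_one]

include N in
theorem X_inj {r s : Root m sh} (h : X P r = X P s) : r = s := by
  have hne : X P r ≠ ⊥ := fun h0 => P.rootGroup_ne_bot N.sh_ne r (eq_bot_iff.2 fun g hg => by
    have hg' := P.rootGroup_le_omega N.dim _ hg
    have h1 : prΩ Q ⟨g, hg'⟩ ∈ (⊥ : Subgroup (Cfsg.POmega F Q)) := h0 ▸ mem_projSub hg' hg
    rw [Subgroup.mem_bot, ← map_one (prΩ Q)] at h1
    rw [Subgroup.mem_bot]
    by_cases hr : r.IsPos
    · exact congrArg Subtype.val (prΩ_injOn hQ N.dim (P.up_isPGroup (p := p)) (P.rootGroup_le_up hr hg) (one_mem _) h1)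
    · exact congrArg Subtype.val (prΩ_injOn hQ N.dim (P.flip.up_isPGroup (p := p)) (P.rootGroup_le_flip_up hr hg) (one_mem _) h1))
  have key : ∀ (K : Subgroup (GL ι F)), IsPGroup p K → ∀ r s : Root m sh, P.rootGroup r.1 ≤ K →
      P.rootGroup s.1 ≤ K → X P r = X P s → P.rootGroup r.1 ≤ P.rootGroup s.1 := by
    intro K hK r s hr hs h g hg
    have hg' := P.rootGroup_le_omega N.dim _ hg
    obtain ⟨y, hy, e⟩ : prΩ Q ⟨g, hg'⟩ ∈ X P s := h ▸ mem_projSub hg' hg
    have := congrArg Subtype.val (prΩ_injOn hQ N.dim hK (hs hy) (hr hg) e)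
    have hy' : (y : GL ι F) ∈ P.rootGroup s.1 := hy
    rw [show (y : GL ι F) = g from this] at hy'
    exact hy'
  by_cases hr : r.IsPos <;> by_cases hs : s.IsPos
  · exact P.rootGroup_injective N.sh_ne (le_antisymm
      (key _ (P.up_isPGroup (p := p)) r s (P.rootGroup_le_up hr) (P.rootGroup_le_up hs) h)
      (key _ (P.up_isPGroup (p := p)) s r (P.rootGroup_le_up hs) (P.rootGroup_le_up hr) h.symm))
  · exact absurd (eq_bot_iff.2 ((le_inf (N.X_le_pos hr) (h ▸ N.X_le_neg hs)).trans N.inf_eq_bot.le)) hne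
  · exact absurd (eq_bot_iff.2 ((le_inf (h ▸ N.X_le_pos hs) (N.X_le_neg hr)).trans N.inf_eq_bot.le)) hne
  · exact P.rootGroup_injective N.sh_ne (le_antisymm
      (key _ (P.flip.up_isPGroup (p := p)) r s (P.rootGroup_le_flip_up hr) (P.rootGroup_le_flip_up hs) h)
      (key _ (P.flip.up_isPGroup (p := p)) s r (P.rootGroup_le_flip_up hs) (P.rootGroup_le_flip_up hr) h.symm))

theorem carries {n : ↥(omegaGL Q)} {π : Equiv.Perm (Fin m ⊕ Fin m)} (hn : P.IsMono (n : GL ι F) π)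
    (hπ : ∀ a, π a.swap = (π a).swap) :
    Carries (X (sh := sh) P) (prΩ Q n) (Root.actE π hπ) := fun r => by
  rw [X, projSub_conj, hn.map_rootGroup r]
  rfl

include N in
theorem iSup_pos_le : (⨆ r ∈ {r : Root m sh | r.IsPos}, X P r : Subgroup _) ≤ projSub Q P.up :=
  iSup_le fun _ => iSup_le fun hr => N.X_le_pos hr

include N in
theorem iSup_neg_le : (⨆ r ∈ {r : Root m sh | r.IsPos}ᶜ, X P r : Subgroup _) ≤ projSub Q P.flip.up :=
  iSup_le fun _ => iSup_le fun hr => N.X_le_neg hr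

/-- A simple root element normalises the other positive roots. -/
theorem frame_norm (i : N.κ) (r : Root m sh) (hr : r.IsPos) (hne : r ≠ (N.node i).root)
    (a : Cfsg.POmega F Q) (ha : a ∈ X P (N.node i).root) (x : Cfsg.POmega F Q) (hx : x ∈ X P r) :
    a * x * a⁻¹ ∈ (⨆ s ∈ {r : Root m sh | r.IsPos} \ {(N.node i).root}, X P s : Subgroup _) := by
  obtain ⟨a, ha', rfl⟩ := ha
  obtain ⟨x, hx', rfl⟩ := hx
  rw [← map_mul, ← map_inv, ← map_mul]
  show prΩ Q ⟨((a * x * a⁻¹ : ↥(omegaGL Q)) : GL ι F), (a * x * a⁻¹).2⟩ ∈ _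
  refine mem_of_liftSub _ ?_
  have hle : P.others sh (N.node i).root.1 ≤
      liftSub Q (⨆ s ∈ {r : Root m sh | r.IsPos} \ {(N.node i).root}, X P s) := by
    refine iSup_le fun s => iSup_le fun hs => le_liftSub (P.rootGroup_le_omega N.dim _) ?_
    exact le_iSup_of_le s (le_iSup_of_le
      (⟨hs.1, fun h => hs.2 (congrArg Subtype.val h)⟩ : s ∈ {r : Root m sh | r.IsPos} \ {(N.node i).root}) le_rfl)
  exact hle ((N.node i).norm r hr hne _ ha' _ hx')

theorem frame_mono (g : Cfsg.POmega F Q)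
    (hg : g ∈ Subgroup.closure (⋃ i, (N.projRank i).φ '' ((N.projRank i).W ∪ (N.projRank i).D)))
    (x : Cfsg.POmega F Q) (hx : x ∈ (⨆ r ∈ {r : Root m sh | r.IsPos}, X P r : Subgroup _))
    (y : Cfsg.POmega F Q) (hy : y ∈ (⨆ r ∈ {r : Root m sh | r.IsPos}ᶜ, X P r : Subgroup _))
    (e : g = x * y) : g = 1 := by
  have h1 : g ∈ P.monoSub.map (prΩ Q) := by
    refine (Subgroup.closure_le _).2 ?_ hg
    intro z hz
    obtain ⟨i, hz⟩ := Set.mem_iUnion.1 hz
    obtain ⟨l, hl, rfl⟩ := hz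
    refine ⟨⟨_, (N.node i).mem l⟩, ?_, rfl⟩
    rcases hl with hl | hl
    · exact ⟨_, (N.node i).mono_W l hl⟩
    · exact ⟨_, (N.node i).mono_D l hl⟩
  obtain ⟨n, ⟨π, hn⟩, rfl⟩ := h1
  obtain ⟨u, hu, rfl⟩ := N.iSup_pos_le hx
  obtain ⟨v, hv, rfl⟩ := N.iSup_neg_le hy
  obtain ⟨h2, h3⟩ := N.eq_one_of_mono hn hu hv (by rw [e, map_mul])
  rw [e, h2, h3, map_one, mul_one]

theorem frame_gen : ⨆ i, (N.projRank i).φ.range = ⊤ := by
  rw [eq_top_iff]
  intro x _
  obtain ⟨g, rfl⟩ := prΩ_surjective x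
  refine mem_of_liftSub g.2 ?_
  refine (iSup_le fun i => ?_ : (⨆ i, (N.node i).R.φ.range) ≤ _) (N.gen g.2)
  rintro _ ⟨l, rfl⟩
  exact ⟨⟨_, (N.node i).mem l⟩, Subgroup.mem_iSup_of_mem i ⟨l, rfl⟩, rfl⟩

/-- The frame. -/
noncomputable def frame : Frame (Cfsg.POmega F Q) p where
  Φ := Root m sh
  X := X P
  X_p r := by
    by_cases hr : r.IsPos
    · exact (projSub_isPGroup (P.up_isPGroup (p := p))).to_le (N.X_le_pos hr)
    · exact (projSub_isPGroup (P.flip.up_isPGroup (p := p))).to_le (N.X_le_neg hr)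
  X_inj _ _ := N.X_inj
  X_ne r h := P.rootGroup_ne_bot N.sh_ne r (eq_bot_iff.2 fun g hg => by
    have hg' := P.rootGroup_le_omega N.dim _ hg
    have h1 : prΩ Q ⟨g, hg'⟩ ∈ (⊥ : Subgroup (Cfsg.POmega F Q)) := h ▸ mem_projSub hg' hg
    rw [Subgroup.mem_bot, ← map_one (prΩ Q)] at h1
    rw [Subgroup.mem_bot]
    by_cases hr : r.IsPos
    · exact congrArg Subtype.val (prΩ_injOn hQ N.dim (P.up_isPGroup (p := p)) (P.rootGroup_le_up hr hg) (one_mem _) h1)
    · exact congrArg Subtype.val (prΩ_injOn hQ N.dim (P.flip.up_isPGroup (p := p)) (P.rootGroup_le_flip_up hr hg) (one_mem _) h1))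
  pos := {r | r.IsPos}
  neg := Root.neg
  neg_neg := Root.neg_neg
  pos_neg r := Root.isPos_neg r
  ι := N.κ
  simple i := (N.node i).root
  simple_pos i := (N.node i).pos
  R := N.projRank
  w i := Root.actE (N.node i).π (N.node i).π_swap
  w_simple i := (N.node i).act_root
  w_neg i r := Root.act_neg (N.node i).π (N.node i).π_swap r
  w_pos i r hr hne := (N.node i).w_pos r hr hne
  map_U i := (N.map_projRank i _).trans (by rw [X, (N.node i).map_U])
  map_V i := (N.map_projRank i _).trans (by rw [X, (N.node i).map_V])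
  carries_W i n hn := carries (n := ⟨_, (N.node i).mem n⟩) ((N.node i).mono_W n hn) (N.node i).π_swap
  carries_D i d hd := by
    have e : (1 : Equiv.Perm (Root m sh)) = Root.actE 1 (fun _ => rfl) :=
      Equiv.ext fun r => Subtype.ext (by
        show r.1 = r.1.map (1 : Equiv.Perm (Fin m ⊕ Fin m)).toEmbedding
        exact Finset.map_refl.symm)
    rw [e]
    exact carries (n := ⟨_, (N.node i).mem d⟩) ((N.node i).mono_D d hd) (fun _ => rfl)
  adj i j d hd := by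
    obtain ⟨c, h1, h2, h3⟩ := N.adj i j d hd
    refine ⟨c, h1, h2, fun l => ?_⟩
    show prΩ Q _ * prΩ Q _ * (prΩ Q _)⁻¹ = prΩ Q _
    rw [← map_mul, ← map_inv, ← map_mul]
    exact congrArg _ (Subtype.ext (h3 l))
  U_p := (projSub_isPGroup (P.up_isPGroup (p := p))).to_le N.iSup_pos_le
  norm_simple := N.frame_norm
  U_inf_V := eq_bot_iff.2 ((inf_le_inf N.iSup_pos_le N.iSup_neg_le).trans N.inf_eq_bot.le)
  mono := N.frame_mono
  gen := N.frame_gen

include N in
theorem commute_D {i j : N.κ} (a : ↥(N.node i).R.D) (b : ↥(N.node j).R.D) :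
    Commute (⟨_, (N.node i).mem a⟩ : ↥(omegaGL Q)) ⟨_, (N.node j).mem b⟩ := by
  obtain ⟨c, h1, -, h3⟩ := N.adj i j a a.2
  refine Subtype.ext ?_
  have h4 := h3 (b : (N.node j).R.L)
  rw [h1 _ b.2] at h4
  exact mul_inv_eq_iff_eq_mul.1 h4

/-- The torus in `Ω`. -/
noncomputable def torΩ : ((i : N.κ) → ↥(N.node i).R.D) →* ↥(omegaGL Q) :=
  MonoidHom.noncommPiCoprod
    (fun i => ((N.node i).R.φ.codRestrict (omegaGL Q) (N.node i).mem).comp (N.node i).R.D.subtype)
    fun _ _ _ a b => N.commute_D a b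

theorem torΩ_single [DecidableEq N.κ] (i : N.κ) (d : ↥(N.node i).R.D) :
    N.torΩ (Pi.mulSingle i d) = ⟨_, (N.node i).mem d⟩ := by
  unfold torΩ
  erw [MonoidHom.noncommPiCoprod_mulSingle]
  rfl

/-- The kernel is an image of the preimage of the centre in the abstract torus. -/
theorem exists_ker_surj {E : Type u} [Group E] [Finite E] {θ : E →* Cfsg.POmega F Q} (hθ : PCentral p θ)
    (hperf : _root_.commutator E = ⊤) :
    ∃ π : ((Subgroup.center ↥(omegaGL Q)).comap N.torΩ) →* θ.ker, Function.Surjective π := by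
  classical
  let T : N.frame.Torus →* Cfsg.POmega F Q := MonoidHom.mk'
    (fun t => prΩ Q (N.torΩ t)) fun a b => by
      exact (congrArg (prΩ Q) (map_mul N.torΩ a b)).trans (map_mul (prΩ Q) _ _)
  have hT : ∀ i (d : ↥(N.frame.R i).D), ∀ [DecidableEq N.frame.ι], T (Pi.mulSingle i d) = (N.frame.R i).φ d := by
    intro i d dec
    have := congrArg (prΩ Q) (@torΩ_single ι _ _ F _ Q hQ m _ P p _ _ sh N dec i d)
    exact this
  obtain ⟨π, hπ⟩ := SchurOrth.exists_ker_surj N.frame hθ hperf T hT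
  refine ⟨π.comp (MonoidHom.mk' (fun z => (⟨z.1, ?_⟩ : T.ker)) fun _ _ => rfl), fun k => ?_⟩
  · show prΩ Q (N.torΩ z.1) = 1
    rw [← MonoidHom.mem_ker, prΩ_ker]
    exact z.2
  · obtain ⟨⟨t, ht⟩, rfl⟩ := hπ k
    refine ⟨⟨t, ?_⟩, rfl⟩
    show N.torΩ t ∈ Subgroup.center ↥(omegaGL Q)
    rw [← prΩ_ker, MonoidHom.mem_ker]
    exact ht

end Nodes

end CfsgLib.SchurOrth
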