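import Mathlib
import Cfsg.Agent.SchurOrth.PolarFrame
import Cfsg.Agent.OrthGeo.RootLines

/-!
Simple nodes of types `B` and `D` for a hyperbolic frame, and generation of `Ω` by their subgroups.
-/

set_option autoImplicit false
set_option linter.unusedSectionVars false
set_option maxHeartbeats 400000

namespace CfsgLib.SchurOrth

open Cfsg.Geo CfsgLib.OrthGeo Matrix
open scoped MatrixGroups

universe u

variable {ι : Type} [Fintype ι] [DecidableEq ι] {F : Type u} [Field F] {Q : (ι → F) → F}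
variable {hQ : IsNondegenerateQuadraticForm Q} {m : ℕ}

namespace Polar

variable (P : Polar hQ m)

/-- A long root group has one parameter. -/
theorem rootGroup_long_le {α γ : Fin m ⊕ Fin m} (h2 : γ ≠ α.swap) {H : Subgroup (GL ι F)}
    (hH : ∀ t, eichler hQ (P.q_b α) (show bform hQ (P.b α) (t • P.b γ) = 0 by
      rw [map_smul, P.b_b, if_neg h2, smul_zero]) ∈ H)
    (h1 : γ ≠ α) : P.rootGroup {α, γ} ≤ H := by
  refine P.rootGroup_le_of fun a v h => ?_
  rcases h with ⟨e, -⟩ | ⟨c, t, hca, -, e, rfl⟩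
  · have h2 := congrArg Finset.card e
    rw [Finset.card_singleton, Finset.card_pair (Ne.symm h1)] at h2
    omega
  have ha : a = α ∧ c = γ ∨ a = γ ∧ c = α := by
    have hα : α ∈ ({a, c} : Finset _) := e ▸ Finset.mem_insert_self _ _
    have hγ : γ ∈ ({a, c} : Finset _) := e ▸ Finset.mem_insert_of_mem (Finset.mem_singleton_self _)
    simp only [Finset.mem_insert, Finset.mem_singleton] at hα hγ
    rcases hα with rfl | rfl
    · exact Or.inl ⟨rfl, (hγ.resolve_left h1).symm⟩
    · exact Or.inr ⟨(hγ.resolve_right h1).symm, rfl⟩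
  rcases ha with ⟨rfl, rfl⟩ | ⟨rfl, rfl⟩
  · exact hH t
  · convert hH (-t) using 1
    exact Units.ext (eMat_swap hQ (P.q_b _) (P.q_b _) t)

end Polar

namespace LongPair

variable (P : Polar hQ m) (r : LongPair m) (sh : Prop)

theorem map_slU : (slUsub F).map (r.hom P) = P.rootGroup (r.root sh).1 := by
  refine le_antisymm ?_ (P.rootGroup_long_le r.ne_swap (fun t => ⟨_, slU_mem t, r.hom_slU P t⟩) r.ne)
  rintro _ ⟨x, hx, rfl⟩
  obtain ⟨t, rfl⟩ := exists_of_mem_slU hx
  rw [hom_slU]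
  exact P.eichler_mem_rootGroup (s := (r.root sh).1) (Or.inr ⟨r.γ, t, r.ne, r.ne_swap, rfl, rfl⟩)

theorem map_slL : (slLsub F).map (r.hom P) = P.rootGroup (r.root sh).neg.1 := by
  have e : (r.root sh).neg.1 = {r.α.swap, r.γ.swap} := by simp [Root.neg, Root.act, root]
  have h2 : r.γ.swap ≠ r.α.swap.swap := by rw [Sum.swap_swap]; exact r.swap_ne'
  rw [e]
  refine le_antisymm ?_ (P.rootGroup_long_le h2 (fun t => ?_) r.swap_ne_swap)
  · rintro _ ⟨x, hx, rfl⟩
    obtain ⟨t, rfl⟩ := exists_of_mem_slL hx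
    rw [hom_slL]
    exact P.eichler_mem_rootGroup (s := {r.α.swap, r.γ.swap})
      (Or.inr ⟨r.γ.swap, -t, r.swap_ne_swap, h2, rfl, rfl⟩)
  · refine ⟨slL (-t), slL_mem _, ?_⟩
    rw [hom_slL]
    simp only [neg_neg]

/-- The action on positions. -/
def degF (d : ℕ) : ℕ :=
  if d = deg r.α then deg r.γ.swap else if d = deg r.γ.swap then deg r.α
    else if d = deg r.α.swap then deg r.γ else if d = deg r.γ then deg r.α.swap else d

theorem degF_cases (d : ℕ) :
    (d = deg r.α ∧ r.degF d = deg r.γ.swap) ∨ (d ≠ deg r.α ∧ d = deg r.γ.swap ∧ r.degF d = deg r.α) ∨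
    (d ≠ deg r.α ∧ d ≠ deg r.γ.swap ∧ d = deg r.α.swap ∧ r.degF d = deg r.γ) ∨
    (d ≠ deg r.α ∧ d ≠ deg r.γ.swap ∧ d ≠ deg r.α.swap ∧ d = deg r.γ ∧ r.degF d = deg r.α.swap) ∨
    (d ≠ deg r.α ∧ d ≠ deg r.γ.swap ∧ d ≠ deg r.α.swap ∧ d ≠ deg r.γ ∧ r.degF d = d) := by
  simp only [degF]
  by_cases h1 : d = deg r.α <;> by_cases h2 : d = deg r.γ.swap <;> by_cases h3 : d = deg r.α.swap <;>
    by_cases h4 : d = deg r.γ <;> simp_all

theorem deg_perm (x : Fin m ⊕ Fin m) : deg (r.perm x) = r.degF (deg x) := by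
  rw [perm_apply]
  simp only [degF, deg_injective.eq_iff]
  split_ifs <;> rfl

variable [Finite F] (p : ℕ) [CharP F p] [Fact p.Prime]

/-- The node of a long simple root. -/
noncomputable def node (hn : 5 ≤ Fintype.card ι) (hpos : deg r.α + deg r.γ < 2 * m)
    (hw : ∀ s : Root m sh, s.IsPos → s ≠ r.root sh → (Root.act r.perm r.perm_swap s).IsPos) :
    Node P p sh where
  root := r.root sh
  pos := by
    show ∑ x ∈ ({r.α, r.γ} : Finset _), deg x < ({r.α, r.γ} : Finset _).card * m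
    rw [Finset.sum_pair (Ne.symm r.ne), Finset.card_pair (Ne.symm r.ne)]
    exact hpos
  R := slRankOne F p (r.hom P)
  mem := r.hom_mem_omega P hn
  π := r.perm
  π_swap := r.perm_swap
  act_root := r.act_root sh
  map_U := r.map_slU P sh
  map_V := r.map_slL P sh
  mono_W := by
    rintro _ ⟨t, ht, rfl⟩
    exact r.isMono_W P ht
  mono_D := by
    rintro _ ⟨t, rfl⟩
    exact r.isMono_D P t
  w_pos := hw
  norm s hs hne a ha x hx := by
    rw [← r.map_slU P sh] at ha
    obtain ⟨_, hy, rfl⟩ := ha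
    obtain ⟨t, rfl⟩ := exists_of_mem_slU hy
    rw [hom_slU]
    exact P.long_norm sh r.ne r.ne_swap t hpos _ hs (fun h => hne (Subtype.ext h)) hx

end LongPair

namespace ShortData

variable {P : Polar hQ m} (S : ShortData P) (α : Fin m ⊕ Fin m)

/-- The root as a set. -/
def root (_S : ShortData P) (α : Fin m ⊕ Fin m) : Root m True := ⟨{α}, Or.inr ⟨trivial, α, rfl⟩⟩

theorem map_slU : (slUsub S.K).map (S.hom α) = P.rootGroup (S.root α).1 := by
  refine le_antisymm ?_ (P.rootGroup_le_of fun a v h => ?_)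
  · rintro _ ⟨x, hx, rfl⟩
    obtain ⟨t, rfl⟩ := exists_of_mem_slU hx
    rw [hom_slU]
    exact P.eichler_mem_rootGroup (s := (S.root α).1) (Or.inl ⟨rfl, Submodule.coe_mem _⟩)
  · rcases h with ⟨e, hv⟩ | ⟨c, t, hca, -, e, -⟩
    · obtain rfl : α = a := Finset.singleton_inj.1 e
      refine ⟨slU (S.ψ ⟨v, hv⟩), slU_mem _, ?_⟩
      rw [hom_slU]
      refine Units.ext ?_
      show eichlerMat Q (P.b α) _ = eichlerMat Q (P.b α) v
      rw [LinearEquiv.symm_apply_apply]
    · exfalso
      have h2 := congrArg Finset.card e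
      simp only [root] at h2
      rw [Finset.card_singleton, Finset.card_pair (Ne.symm hca)] at h2
      omega

theorem map_slL : (slLsub S.K).map (S.hom α) = P.rootGroup (S.root α).neg.1 := by
  have e : (S.root α).neg.1 = {α.swap} := by simp [Root.neg, Root.act, root]
  rw [e]
  refine le_antisymm ?_ (P.rootGroup_le_of fun a v h => ?_)
  · rintro _ ⟨x, hx, rfl⟩
    obtain ⟨t, rfl⟩ := exists_of_mem_slL hx
    rw [hom_slL]
    exact P.eichler_mem_rootGroup (s := {α.swap}) (Or.inl ⟨rfl, Submodule.coe_mem _⟩)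
  · rcases h with ⟨e, hv⟩ | ⟨c, t, hca, -, e, -⟩
    · obtain rfl : α.swap = a := Finset.singleton_inj.1 e
      refine ⟨slL (-S.σ (S.ψ ⟨v, hv⟩)), slL_mem _, ?_⟩
      rw [hom_slL]
      refine Units.ext ?_
      show eichlerMat Q (P.b α.swap) _ = eichlerMat Q (P.b α.swap) v
      simp [S.σσ]
    · exfalso
      have h2 := congrArg Finset.card e
      rw [Finset.card_singleton, Finset.card_pair (Ne.symm hca)] at h2
      omega

/-- The action on positions. -/
def degF (α : Fin m ⊕ Fin m) (d : ℕ) : ℕ :=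
  if d = deg α then deg α.swap else if d = deg α.swap then deg α else d

theorem degF_cases (d : ℕ) :
    (d = deg α ∧ degF α d = deg α.swap) ∨ (d ≠ deg α ∧ d = deg α.swap ∧ degF α d = deg α) ∨
    (d ≠ deg α ∧ d ≠ deg α.swap ∧ degF α d = d) := by
  simp only [degF]
  by_cases h1 : d = deg α <;> by_cases h2 : d = deg α.swap <;> simp_all

theorem deg_perm (x : Fin m ⊕ Fin m) : deg (perm α x) = degF α (deg x) := by
  rw [perm, Equiv.swap_apply_def]
  simp only [degF, deg_injective.eq_iff]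
  split_ifs <;> rfl

theorem act_root : Root.act (perm α) (perm_swap α) (S.root α) = (S.root α).neg := by
  refine Subtype.ext ?_
  simp only [Root.act, Root.neg, root, Finset.map_singleton]
  show ({perm α α} : Finset _) = {α.swap}
  rw [perm, Equiv.swap_apply_left]

theorem exists_W (_S : ShortData P) : ∃ w ∈ P.W, w ≠ 0 :=
  ⟨_, (_S.ψ.symm 1).2, fun h => one_ne_zero (α := _S.K) (by
    rw [← _S.ψ.apply_symm_apply 1, show _S.ψ.symm 1 = 0 from Subtype.ext h, map_zero])⟩

variable [Finite F] (p : ℕ) [CharP F p] [Fact p.Prime]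

instance charP_K : CharP S.K p := charP_of_injective_algebraMap (algebraMap F S.K).injective p

/-- The node of a short simple root. -/
noncomputable def node (hn : 5 ≤ Fintype.card ι) (hpos : deg α < m)
    (hw : ∀ s : Root m True, s.IsPos → s ≠ S.root α → (Root.act (perm α) (perm_swap α) s).IsPos) :
    Node P p True where
  root := S.root α
  pos := by simpa [Root.IsPos, root] using hpos
  R := slRankOne S.K p (S.hom α)
  mem := S.hom_mem_omega α hn
  π := perm α
  π_swap := perm_swap α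
  act_root := S.act_root α
  map_U := S.map_slU α
  map_V := S.map_slL α
  mono_W := by
    rintro _ ⟨t, ht, rfl⟩
    exact S.isMono_W α ht
  mono_D := by
    rintro _ ⟨t, rfl⟩
    exact S.isMono_D α t
  w_pos := hw
  norm s hs hne a ha x hx := by
    rw [← S.map_slU α] at ha
    obtain ⟨_, hy, rfl⟩ := ha
    obtain ⟨t, rfl⟩ := exists_of_mem_slU hy
    rw [hom_slU]
    exact P.short_norm True trivial (Submodule.coe_mem _) hpos _ hs (fun h => hne (Subtype.ext h)) hx

end ShortData

/-- The long simple root between two consecutive indices. -/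
def adjPair {n : ℕ} (i : Fin n) : LongPair (n + 1) where
  α := Sum.inl i.castSucc
  γ := Sum.inr i.succ
  ne := Sum.inr_ne_inl
  ne_swap h := by simp [Fin.ext_iff] at h

theorem adjPair_perm {n : ℕ} (i : Fin n) :
    (adjPair i).perm = Equiv.sumCongr (Equiv.swap i.castSucc i.succ) (Equiv.swap i.castSucc i.succ) := by
  refine Equiv.ext fun x => ?_
  rw [LongPair.perm_apply]
  rcases x with x | x <;>
    simp only [LongPair.degF, adjPair, Sum.swap_inl, Sum.swap_inr, Sum.inl.injEq, Sum.inr.injEq, reduceCtorEq, if_false,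
      Equiv.sumCongr_apply, Sum.map_inl, Sum.map_inr, Equiv.swap_apply_def] <;>
    split_ifs <;> simp_all

theorem Root.sum_act {sh : Prop} (π : Equiv.Perm (Fin m ⊕ Fin m)) (hπ : ∀ a, π a.swap = (π a).swap)
    (s : Root m sh) (f : ℕ → ℕ) (hf : ∀ x, deg (π x) = f (deg x)) :
    ∑ x ∈ (Root.act π hπ s).1, deg x = ∑ x ∈ s.1, f (deg x) := by
  simp [Root.act, hf]

theorem Root.sum_cases {sh : Prop} (s : Root m sh) :
    (∃ a c, s.1 = {a, c} ∧ deg a ≠ deg c ∧ deg a + deg c ≠ 2 * m ∧ s.1.card = 2 ∧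
        ∀ f : ℕ → ℕ, ∑ x ∈ s.1, f (deg x) = f (deg a) + f (deg c)) ∨
      (sh ∧ ∃ a, s.1 = {a} ∧ deg a ≠ m ∧ s.1.card = 1 ∧ ∀ f : ℕ → ℕ, ∑ x ∈ s.1, f (deg x) = f (deg a)) := by
  rcases s.2 with ⟨a, c, h1, h2, e⟩ | ⟨h, a, e⟩
  · refine Or.inl ⟨a, c, e, fun h => h1 (deg_injective h).symm, fun h => h2 (deg_injective ?_),
      by rw [e, Finset.card_pair (Ne.symm h1)], fun f => by rw [e, Finset.sum_pair (Ne.symm h1)]⟩
    rw [deg_swap]
    omega
  · exact Or.inr ⟨h, a, e, deg_ne a, by rw [e, Finset.card_singleton], fun f => by rw [e, Finset.sum_singleton]⟩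

theorem adjPair_w_pos {n : ℕ} (i : Fin n) {sh : Prop} (s : Root (n + 1) sh) (hs : s.IsPos)
    (hne : s ≠ (adjPair i).root sh) :
    (Root.act (adjPair i).perm (adjPair i).perm_swap s).IsPos := by
  have hcard : (Root.act (adjPair i).perm (adjPair i).perm_swap s).1.card = s.1.card := Finset.card_map _
  rw [Root.IsPos, hcard, Root.sum_act _ _ _ (adjPair i).degF (adjPair i).deg_perm]
  rw [Root.IsPos] at hs
  have hi := i.isLt
  rcases s.sum_cases with ⟨a, c, e, h1, h2, hk, hf⟩ | ⟨-, a, e, h1, hk, hf⟩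
  · have hs' := hs
    rw [hk, show ∑ x ∈ s.1, deg x = deg a + deg c from hf id] at hs'
    rw [hk, hf]
    have h3 : ¬ (deg a = deg (adjPair i).α ∧ deg c = deg (adjPair i).γ) := fun h =>
      hne (Subtype.ext (by rw [e, deg_injective h.1, deg_injective h.2]; rfl))
    have h4 : ¬ (deg c = deg (adjPair i).α ∧ deg a = deg (adjPair i).γ) := fun h =>
      hne (Subtype.ext (by rw [e, deg_injective h.1, deg_injective h.2, Finset.pair_comm]; rfl))
    have hA := (adjPair i).degF_cases (deg a)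
    have hC := (adjPair i).degF_cases (deg c)
    generalize (adjPair i).degF (deg a) = fA at *
    generalize (adjPair i).degF (deg c) = fC at *
    generalize deg a = A at *
    generalize deg c = C at *
    simp only [adjPair, Sum.swap_inl, Sum.swap_inr, deg, Fin.val_castSucc, Fin.val_succ] at *
    omega
  · rw [hk, show ∑ x ∈ s.1, deg x = deg a from hf id] at hs
    rw [hk, hf]
    have hA := (adjPair i).degF_cases (deg a)
    generalize (adjPair i).degF (deg a) = fA at *
    generalize deg a = A at *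
    simp only [adjPair, Sum.swap_inl, Sum.swap_inr, deg, Fin.val_castSucc, Fin.val_succ] at *
    omega

theorem last_w_pos_short {n : ℕ} {P : Polar hQ (n + 1)} (S : ShortData P) (s : Root (n + 1) True)
    (hs : s.IsPos) (hne : s ≠ S.root (Sum.inl (Fin.last n))) :
    (Root.act (ShortData.perm (Sum.inl (Fin.last n))) (ShortData.perm_swap _) s).IsPos := by
  have hcard : (Root.act (ShortData.perm (Sum.inl (Fin.last n))) (ShortData.perm_swap _) s).1.card = s.1.card :=
    Finset.card_map _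
  rw [Root.IsPos, hcard, Root.sum_act _ _ _ (ShortData.degF _) (ShortData.deg_perm _)]
  rw [Root.IsPos] at hs
  rcases s.sum_cases with ⟨a, c, e, h1, h2, hk, hf⟩ | ⟨-, a, e, h1, hk, hf⟩
  · rw [hk, show ∑ x ∈ s.1, deg x = deg a + deg c from hf id] at hs
    rw [hk, hf]
    have hA := (ShortData.degF_cases (Sum.inl (Fin.last n) : Fin (n + 1) ⊕ Fin (n + 1))) (deg a)
    have hC := (ShortData.degF_cases (Sum.inl (Fin.last n) : Fin (n + 1) ⊕ Fin (n + 1))) (deg c)
    generalize (ShortData.degF (Sum.inl (Fin.last n) : Fin (n + 1) ⊕ Fin (n + 1))) (deg a) = fA at *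
    generalize (ShortData.degF (Sum.inl (Fin.last n) : Fin (n + 1) ⊕ Fin (n + 1))) (deg c) = fC at *
    have ha := deg_ne a
    have hc := deg_ne c
    generalize deg a = A at *
    generalize deg c = C at *
    simp only [Sum.swap_inl, deg, Fin.val_last] at *
    omega
  · rw [hk, show ∑ x ∈ s.1, deg x = deg a from hf id] at hs
    rw [hk, hf]
    have h3 : deg a ≠ deg (Sum.inl (Fin.last n) : Fin (n + 1) ⊕ Fin (n + 1)) := fun h =>
      hne (Subtype.ext (by rw [e, deg_injective h]; rfl))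
    have hA := (ShortData.degF_cases (Sum.inl (Fin.last n) : Fin (n + 1) ⊕ Fin (n + 1))) (deg a)
    generalize (ShortData.degF (Sum.inl (Fin.last n) : Fin (n + 1) ⊕ Fin (n + 1))) (deg a) = fA at *
    generalize deg a = A at *
    simp only [Sum.swap_inl, deg, Fin.val_last] at *
    omega

/-- The last simple root in type `D`. -/
def lastPair (n : ℕ) : LongPair (n + 2) where
  α := Sum.inl (Fin.last n).castSucc
  γ := Sum.inl (Fin.last (n + 1))
  ne h := by simp [Fin.ext_iff] at h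
  ne_swap := Sum.inl_ne_inr

theorem last_w_pos_long (n : ℕ) (s : Root (n + 2) False) (hs : s.IsPos) (hne : s ≠ (lastPair n).root False) :
    (Root.act (lastPair n).perm (lastPair n).perm_swap s).IsPos := by
  have hcard : (Root.act (lastPair n).perm (lastPair n).perm_swap s).1.card = s.1.card := Finset.card_map _
  rw [Root.IsPos, hcard, Root.sum_act _ _ _ (lastPair n).degF (lastPair n).deg_perm]
  rw [Root.IsPos] at hs
  rcases s.sum_cases with ⟨a, c, e, h1, h2, hk, hf⟩ | ⟨h, -⟩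
  · rw [hk, show ∑ x ∈ s.1, deg x = deg a + deg c from hf id] at hs
    rw [hk, hf]
    have h3 : ¬ (deg a = deg (lastPair n).α ∧ deg c = deg (lastPair n).γ) := fun h =>
      hne (Subtype.ext (by rw [e, deg_injective h.1, deg_injective h.2]; rfl))
    have ha := deg_ne a
    have hc := deg_ne c
    have h4 : ¬ (deg c = deg (lastPair n).α ∧ deg a = deg (lastPair n).γ) := fun h =>
      hne (Subtype.ext (by rw [e, deg_injective h.1, deg_injective h.2, Finset.pair_comm]; rfl))
    have hA := (lastPair n).degF_cases (deg a)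
    have hC := (lastPair n).degF_cases (deg c)
    generalize (lastPair n).degF (deg a) = fA at *
    generalize (lastPair n).degF (deg c) = fC at *
    generalize deg a = A at *
    generalize deg c = C at *
    simp only [lastPair, Sum.swap_inl, deg, Fin.val_castSucc, Fin.val_last] at *
    omega
  · exact h.elim

namespace Polar

variable [Finite F] (P : Polar hQ m) {sh : Prop} {H : Subgroup (GL ι F)}

/-- Root groups move under monomial elements of the subgroup. -/
theorem rootGroup_act_le {g : GL ι F} {π : Equiv.Perm (Fin m ⊕ Fin m)} (hg : P.IsMono g π) (hgH : g ∈ H)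
    {s t : Root m sh} (hs : P.rootGroup s.1 ≤ H) (e : s.1.map π.toEmbedding = t.1) :
    P.rootGroup t.1 ≤ H := by
  rw [← e, show s.1.map π.toEmbedding = (Root.act π hg.swap s).1 from rfl, ← hg.map_rootGroup s]
  rintro _ ⟨x, hx, rfl⟩
  exact mul_mem (mul_mem hgH (hs hx)) (inv_mem hgH)

/-- A subgroup with all root groups contains `Ω`. -/
theorem omega_le_of_roots (hn : 5 ≤ Fintype.card ι) (hH : H ≤ Cfsg.isometryGroup F Q)
    (hroot : ∀ s : Root m sh, P.rootGroup s.1 ≤ H) (hW : sh ∨ ∀ w ∈ P.W, w = 0) :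
    omegaGL Q ≤ H := by
  refine omega_le_of_root_vectors hQ hn hH (Set.range P.b) ?_ fun u hu hu0 => ?_
  · rintro _ ⟨a, rfl⟩
    refine ⟨P.q_b a, fun w hw => ?_⟩
    have hterm : ∀ c, bform hQ (P.b a) (P.coord c w • P.b c) = 0 ∧ EIn Q H (P.b a) (P.coord c w • P.b c) := by
      intro c
      by_cases h1 : c = a.swap
      · subst h1
        rw [← P.bform_eq_coord, hw, zero_smul]
        exact ⟨map_zero _, 1, one_mem _, (eichlerMat_zero hQ _).symm⟩
      have hb : bform hQ (P.b a) (P.coord c w • P.b c) = 0 := by rw [map_smul, P.b_b, if_neg h1, smul_zero]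
      refine ⟨hb, eIn_of_mem hQ (P.q_b a) hb ?_⟩
      by_cases h2 : c = a
      · subst h2
        rw [eichler_self_smul hQ]
        exact one_mem _
      exact hroot ⟨{a, c}, Or.inl ⟨a, c, h2, h1, rfl⟩⟩
        (P.eichler_mem_rootGroup (Or.inr ⟨c, _, h2, h1, rfl, rfl⟩))
    have hsum : ∀ S : Finset (Fin m ⊕ Fin m), bform hQ (P.b a) (∑ c ∈ S, P.coord c w • P.b c) = 0 ∧
        EIn Q H (P.b a) (∑ c ∈ S, P.coord c w • P.b c) := by
      intro S
      induction S using Finset.induction_on with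
      | empty =>
        rw [Finset.sum_empty]
        exact ⟨map_zero _, 1, one_mem _, (eichlerMat_zero hQ _).symm⟩
      | insert b S hb ih =>
        rw [Finset.sum_insert hb]
        exact ⟨by rw [map_add, (hterm b).1, ih.1, add_zero],
          (hterm b).2.add hQ ih.2 (P.q_b a) (hterm b).1 ih.1⟩
    have hp : EIn Q H (P.b a) (P.projW w) := by
      rcases hW with h | h
      · exact eIn_of_mem hQ (P.q_b a) (P.bform_b_W (P.projW_mem w) a)
          (hroot ⟨{a}, Or.inr ⟨h, a, rfl⟩⟩ (P.eichler_mem_rootGroup (Or.inl ⟨rfl, P.projW_mem w⟩)))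
      · rw [h _ (P.projW_mem w)]
        exact ⟨1, one_mem _, (eichlerMat_zero hQ _).symm⟩
    rw [P.decomp w]
    exact (hsum Finset.univ).2.add hQ hp (P.q_b a) (hsum Finset.univ).1 (P.bform_b_W (P.projW_mem w) a)
  · obtain ⟨a, ha⟩ : ∃ a, P.coord a u ≠ 0 := by
      by_contra h
      push Not at h
      exact hu0 (P.eq_zero_of_W (P.mem_W.2 h) hu)
    refine ⟨P.b a.swap, ⟨_, rfl⟩, P.b a, ⟨_, rfl⟩, ?_, ?_⟩
    · rw [P.b_b, Sum.swap_swap, if_pos rfl]; exact one_ne_zero
    · rwa [P.bform_eq_coord, Sum.swap_swap]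

end Polar

theorem exists_perm_pair {α : Type*} [DecidableEq α] {x y i j : α} (hxy : x ≠ y) (hij : i ≠ j) :
    ∃ σ : Equiv.Perm α, σ x = i ∧ σ y = j := by
  refine ⟨Equiv.swap (Equiv.swap x i y) j * Equiv.swap x i, ?_, ?_⟩
  · rw [Equiv.Perm.mul_apply, Equiv.swap_apply_left, Equiv.swap_apply_of_ne_of_ne _ hij]
    intro h
    exact hxy ((Equiv.swap x i).injective ((Equiv.swap_apply_left x i).trans h))
  · rw [Equiv.Perm.mul_apply, Equiv.swap_apply_left]

variable [Finite F] {p : ℕ} [CharP F p] [Fact p.Prime]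

theorem exists_mono_sumCongr {n : ℕ} (P : Polar hQ (n + 1)) {H : Subgroup (GL ι F)}
    (hW : ∀ i : Fin n, (adjPair i).hom P (slW 1) ∈ H) (σ : Equiv.Perm (Fin (n + 1))) :
    ∃ g ∈ H, P.IsMono g (Equiv.sumCongr σ σ) := by
  have hσ : σ ∈ Submonoid.closure (Set.range fun i : Fin n => Equiv.swap i.castSucc i.succ) := by
    rw [Equiv.Perm.mclosure_swap_castSucc_succ]
    exact Submonoid.mem_top _
  refine Submonoid.closure_induction
    (motive := fun σ _ => ∃ g ∈ H, P.IsMono g (Equiv.sumCongr σ σ)) ?_ ?_ ?_ hσ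
  · rintro _ ⟨i, rfl⟩
    exact ⟨_, hW i, adjPair_perm i ▸ (adjPair i).isMono_W P one_ne_zero⟩
  · exact ⟨1, one_mem _, by rw [show Equiv.sumCongr (1 : Equiv.Perm (Fin (n + 1))) 1 = 1 from
      Equiv.ext fun x => by cases x <;> rfl]; exact Polar.IsMono.one P⟩
  · rintro a b - - ⟨g, hg, hga⟩ ⟨h, hh, hhb⟩
    refine ⟨g * h, mul_mem hg hh, ?_⟩
    rw [show Equiv.sumCongr (a * b) (a * b) = Equiv.sumCongr a a * Equiv.sumCongr b b from
      Equiv.ext fun x => by cases x <;> rfl]
    exact hga.mul hhb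

/-- The node list of type `B` or twisted `D`. -/
noncomputable def shortNodeFun {n : ℕ} {P : Polar hQ (n + 1)} (S : ShortData P) (p : ℕ) [CharP F p]
    [Fact p.Prime] (hn : 5 ≤ Fintype.card ι) : Option (Fin n) → Node P p True
  | none => S.node (Sum.inl (Fin.last n)) p hn (by simp [deg]) fun s hs hne => last_w_pos_short S s hs hne
  | some i => (adjPair i).node P True p hn
      (by simp only [adjPair, deg, Fin.val_castSucc, Fin.val_succ]; omega) fun s hs hne => adjPair_w_pos i s hs hne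

/-- The node list of type `D`. -/
noncomputable def longNodeFun {n : ℕ} (P : Polar hQ (n + 2)) (p : ℕ) [CharP F p]
    [Fact p.Prime] (hn : 5 ≤ Fintype.card ι) : Option (Fin (n + 1)) → Node P p False
  | none => (lastPair n).node P False p hn
      (by simp only [lastPair, deg, Fin.val_castSucc, Fin.val_last]; omega) fun s hs hne => last_w_pos_long n s hs hne
  | some i => (adjPair i).node P False p hn
      (by simp only [adjPair, deg, Fin.val_castSucc, Fin.val_succ]; omega) fun s hs hne => adjPair_w_pos i s hs hne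

theorem long_adj {P : Polar hQ m} (r : LongPair m) {h : GL ι F} (hh : P.IsMono h 1) :
    ∃ c : Matrix.SpecialLinearGroup (Fin 2) F →* Matrix.SpecialLinearGroup (Fin 2) F,
      (∀ x ∈ (slD (K := F)).range, c x = x) ∧
      (∀ n ∈ {n | ∃ t : F, t ≠ 0 ∧ n = slW t}, c n ∈ {n | ∃ t : F, t ≠ 0 ∧ n = slW t}) ∧
      ∀ l, h * r.hom P l * h⁻¹ = r.hom P (c l) := by
  obtain ⟨κ, hκ⟩ := r.conj_hom P hh
  refine ⟨slScale κ, ?_, ?_, hκ⟩
  · rintro _ ⟨t, rfl⟩; exact slScale_slD κ t
  · rintro _ ⟨t, ht, rfl⟩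
    exact ⟨(κ : F) * t, mul_ne_zero κ.ne_zero ht, slScale_slW κ ht⟩

theorem short_adj_long {P : Polar hQ m} (S : ShortData P) (α : Fin m ⊕ Fin m) (r : LongPair m) (t : Fˣ) :
    ∃ c : Matrix.SpecialLinearGroup (Fin 2) S.K →* Matrix.SpecialLinearGroup (Fin 2) S.K,
      (∀ x ∈ (slD (K := S.K)).range, c x = x) ∧
      (∀ n ∈ {n | ∃ t : S.K, t ≠ 0 ∧ n = slW t}, c n ∈ {n | ∃ t : S.K, t ≠ 0 ∧ n = slW t}) ∧
      ∀ l, r.hom P (slD t) * S.hom α l * (r.hom P (slD t))⁻¹ = S.hom α (c l) := by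
  obtain ⟨κ, hκ⟩ := S.conj_hom α (r.isMono_D P t) fun w hw => by
    rw [LongPair.hom_mulVec, LongPair.lin_apply]
    simp [P.coord_W hw]
  refine ⟨slScale κ, ?_, ?_, hκ⟩
  · rintro _ ⟨t, rfl⟩; exact slScale_slD κ t
  · rintro _ ⟨t, ht, rfl⟩
    exact ⟨(κ : S.K) * t, mul_ne_zero κ.ne_zero ht, slScale_slW κ ht⟩

theorem short_adj_self {P : Polar hQ m} (S : ShortData P) (α : Fin m ⊕ Fin m) (t : S.Kˣ) :
    ∃ c : Matrix.SpecialLinearGroup (Fin 2) S.K →* Matrix.SpecialLinearGroup (Fin 2) S.K,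
      (∀ x ∈ (slD (K := S.K)).range, c x = x) ∧
      (∀ n ∈ {n | ∃ t : S.K, t ≠ 0 ∧ n = slW t}, c n ∈ {n | ∃ t : S.K, t ≠ 0 ∧ n = slW t}) ∧
      ∀ l, S.hom α (slD t) * S.hom α l * (S.hom α (slD t))⁻¹ = S.hom α (c l) := by
  refine ⟨(MulAut.conj (slD t)).toMonoidHom, ?_, ?_, fun l => ?_⟩
  · rintro _ ⟨s, rfl⟩
    rw [MulEquiv.coe_toMonoidHom, MulAut.conj_apply, ← map_mul, mul_comm t s, map_mul, mul_inv_cancel_right]
  · rintro _ ⟨s, hs, rfl⟩
    refine ⟨(t : S.K) * t * s, mul_ne_zero (mul_ne_zero t.ne_zero t.ne_zero) hs, ?_⟩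
    rw [MulEquiv.coe_toMonoidHom, MulAut.conj_apply, ← map_inv]
    refine Subtype.ext ?_
    show (slD t : Matrix (Fin 2) (Fin 2) S.K) * (slW s : Matrix (Fin 2) (Fin 2) S.K) *
      (slD t⁻¹ : Matrix (Fin 2) (Fin 2) S.K) = _
    rw [slD_coe, slW_coe hs, slD_coe, slW_coe (mul_ne_zero (mul_ne_zero t.ne_zero t.ne_zero) hs)]
    ext i j
    fin_cases i <;> fin_cases j <;> simp [Matrix.mul_apply, Fin.sum_univ_two] <;> ring
  · simp

theorem adj_roots {n : ℕ} (P : Polar hQ (n + 1)) {sh : Prop} {H : Subgroup (GL ι F)}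
    (hσ : ∀ σ : Equiv.Perm (Fin (n + 1)), ∃ g ∈ H, P.IsMono g (Equiv.sumCongr σ σ))
    {x y : Fin (n + 1)} (hxy : x ≠ y)
    (base : ∀ (f g : Fin (n + 1) → Fin (n + 1) ⊕ Fin (n + 1)), (f = Sum.inl ∨ f = Sum.inr) →
      (g = Sum.inl ∨ g = Sum.inr) → ∀ s : Root (n + 1) sh, s.1 = {f x, g y} → P.rootGroup s.1 ≤ H)
    {a c : Fin (n + 1) ⊕ Fin (n + 1)} (h1 : c ≠ a) (h2 : c ≠ a.swap) (s : Root (n + 1) sh) (e : s.1 = {a, c}) :
    P.rootGroup s.1 ≤ H := by
  have key : ∀ (f g : Fin (n + 1) → Fin (n + 1) ⊕ Fin (n + 1)), (f = Sum.inl ∨ f = Sum.inr) →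
      (g = Sum.inl ∨ g = Sum.inr) → ∀ i j, i ≠ j → a = f i → c = g j → P.rootGroup s.1 ≤ H := by
    intro f g hf hg i j hij ea ec
    obtain ⟨σ, hσx, hσy⟩ := exists_perm_pair hxy hij
    obtain ⟨w, hw, hm⟩ := hσ σ
    have hroot : IsRoot sh ({f x, g y} : Finset (Fin (n + 1) ⊕ Fin (n + 1))) := by
      refine Or.inl ⟨f x, g y, ?_, ?_, rfl⟩ <;> rcases hf with rfl | rfl <;> rcases hg with rfl | rfl <;>
        simp [hxy, Ne.symm hxy]
    refine P.rootGroup_act_le hm hw (s := ⟨_, hroot⟩) (base f g hf hg ⟨_, hroot⟩ rfl) ?_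
    rw [e, ea, ec]
    rcases hf with rfl | rfl <;> rcases hg with rfl | rfl <;> simp [hσx, hσy]
  rcases a with i | i <;> rcases c with j | j
  · exact key _ _ (Or.inl rfl) (Or.inl rfl) i j (fun h => h1 (by rw [h])) rfl rfl
  · exact key _ _ (Or.inl rfl) (Or.inr rfl) i j (fun h => h2 (by rw [h]; rfl)) rfl rfl
  · exact key _ _ (Or.inr rfl) (Or.inl rfl) i j (fun h => h2 (by rw [h]; rfl)) rfl rfl
  · exact key _ _ (Or.inr rfl) (Or.inr rfl) i j (fun h => h1 (by rw [h])) rfl rfl

theorem node_root_le {P : Polar hQ m} {sh : Prop} (N : Node P p sh) {H : Subgroup (GL ι F)}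
    (h : N.R.φ.range ≤ H) : P.rootGroup N.root.1 ≤ H ∧ P.rootGroup N.root.neg.1 ≤ H := by
  constructor
  · rw [← N.map_U]; exact (Subgroup.map_mono le_top).trans (MonoidHom.range_eq_map N.R.φ ▸ h)
  · rw [← N.map_V]; exact (Subgroup.map_mono le_top).trans (MonoidHom.range_eq_map N.R.φ ▸ h)

theorem short_gen {n : ℕ} (hn1 : 1 ≤ n) {P : Polar hQ (n + 1)} (S : ShortData P) (hn : 5 ≤ Fintype.card ι) :
    omegaGL Q ≤ ⨆ i, (shortNodeFun S p hn i).R.φ.range := by
  obtain ⟨k, rfl⟩ : ∃ k, n = k + 1 := ⟨n - 1, by omega⟩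
  set H := ⨆ i, (shortNodeFun S p hn i).R.φ.range with hH
  have hle : ∀ i, (shortNodeFun S p hn i).R.φ.range ≤ H := fun i =>
    le_iSup (fun i => (shortNodeFun S p hn i).R.φ.range) i
  have hσ := exists_mono_sumCongr P (H := H) fun i => hle (some i) ⟨slW 1, rfl⟩
  have hflip : (S.hom (Sum.inl (Fin.last (k + 1))) (slW 1)) ∈ H := hle none ⟨slW 1, rfl⟩
  have hfm := S.isMono_W (Sum.inl (Fin.last (k + 1))) (one_ne_zero (α := S.K))
  refine P.omega_le_of_roots (sh := True) hn (iSup_le fun i => ?_) (fun s => ?_) (Or.inl trivial)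
  · rintro _ ⟨l, rfl⟩
    exact omegaGL_le ((shortNodeFun S p hn i).mem l)
  rcases s.2 with ⟨a, c, h1, h2, e⟩ | ⟨-, a, e⟩
  · refine adj_roots P hσ (x := (Fin.last k).castSucc) (y := (Fin.last k).succ) (by simp [Fin.ext_iff]) ?_
      h1 h2 s e
    intro f g hf hg t et
    -- the base pairs
    have hsucc : (Fin.last k).succ = Fin.last (k + 1) := rfl
    have hb := node_root_le _ (hle (some (Fin.last k)))
    have hb1 : ∀ t : Root (k + 2) True, t.1 = {Sum.inl (Fin.last k).castSucc, Sum.inr (Fin.last k).succ} →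
        P.rootGroup t.1 ≤ H := fun t et => by rw [et]; exact hb.1
    have hb2 : ∀ t : Root (k + 2) True, t.1 = {Sum.inr (Fin.last k).castSucc, Sum.inl (Fin.last k).succ} →
        P.rootGroup t.1 ≤ H := fun t et => by
      rw [et]
      convert hb.2
      simp [shortNodeFun, LongPair.node, LongPair.root, adjPair, Root.neg, Root.act]
    have hflipmap : ∀ (u v : Fin (k + 2) ⊕ Fin (k + 2)), u ≠ Sum.inl (Fin.last (k + 1)) →
        u ≠ Sum.inr (Fin.last (k + 1)) → ({u, v} : Finset _).map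
          (ShortData.perm (Sum.inl (Fin.last (k + 1)))).toEmbedding =
        {u, ShortData.perm (Sum.inl (Fin.last (k + 1))) v} := fun u v h1 h2 => by
      rw [Finset.map_insert, Finset.map_singleton]
      simp [ShortData.perm, Equiv.swap_apply_of_ne_of_ne h1 h2]
    rcases hf with rfl | rfl <;> rcases hg with rfl | rfl
    · refine P.rootGroup_act_le hfm hflip (s := (adjPair (Fin.last k)).root True) (hb1 _ rfl) ?_
      rw [et, show ((adjPair (Fin.last k)).root True).1 =
        {Sum.inl (Fin.last k).castSucc, Sum.inr (Fin.last k).succ} from rfl]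
      refine (hflipmap _ _ (by simp [Fin.ext_iff]) (by simp)).trans ?_
      simp [ShortData.perm, hsucc]
    · exact hb1 t et
    · exact hb2 t et
    · refine P.rootGroup_act_le hfm hflip (s := ((adjPair (Fin.last k)).root True).neg) (hb2 _ ?_) ?_
      · simp [LongPair.root, adjPair, Root.neg, Root.act]
      rw [et]
      have : ((adjPair (Fin.last k)).root True).neg.1 =
          {Sum.inr (Fin.last k).castSucc, Sum.inl (Fin.last k).succ} := by
        simp [LongPair.root, adjPair, Root.neg, Root.act]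
      rw [this]
      refine (hflipmap _ _ (by simp) (by simp [Fin.ext_iff])).trans ?_
      simp [ShortData.perm, hsucc]
  · have hb := node_root_le _ (hle none)
    rcases a with i | i <;>
      obtain ⟨σ, hσi⟩ : ∃ σ : Equiv.Perm (Fin (k + 2)), σ (Fin.last (k + 1)) = i :=
        ⟨Equiv.swap (Fin.last (k + 1)) i, Equiv.swap_apply_left _ _⟩ <;>
      obtain ⟨w, hw, hm⟩ := hσ σ
    · refine P.rootGroup_act_le hm hw (s := S.root (Sum.inl (Fin.last (k + 1)))) hb.1 ?_
      rw [e]; simp [ShortData.root, hσi]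
    · refine P.rootGroup_act_le hm hw (s := (S.root (Sum.inl (Fin.last (k + 1)))).neg) hb.2 ?_
      rw [e]; simp [ShortData.root, Root.neg, Root.act, hσi]

theorem long_gen {n : ℕ} (P : Polar hQ (n + 2)) (hW : ∀ w ∈ P.W, w = 0) (hn : 5 ≤ Fintype.card ι) :
    omegaGL Q ≤ ⨆ i, (longNodeFun P p hn i).R.φ.range := by
  set H := ⨆ i, (longNodeFun P p hn i).R.φ.range with hH
  have hle : ∀ i, (longNodeFun P p hn i).R.φ.range ≤ H := fun i =>
    le_iSup (fun i => (longNodeFun P p hn i).R.φ.range) i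
  have hσ := exists_mono_sumCongr P (H := H) fun i => hle (some i) ⟨slW 1, rfl⟩
  refine P.omega_le_of_roots (sh := False) hn (iSup_le fun i => ?_) (fun s => ?_) (Or.inr hW)
  · rintro _ ⟨l, rfl⟩
    exact omegaGL_le ((longNodeFun P p hn i).mem l)
  rcases s.2 with ⟨a, c, h1, h2, e⟩ | ⟨h, -⟩
  · refine adj_roots P hσ (x := (Fin.last n).castSucc) (y := (Fin.last n).succ) (by simp [Fin.ext_iff]) ?_
      h1 h2 s e
    intro f g hf hg t et
    have hl := node_root_le _ (hle none)
    have hb := node_root_le _ (hle (some (Fin.last n)))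
    have hsucc : (Fin.last n).succ = Fin.last (n + 1) := rfl
    rw [et]
    rcases hf with rfl | rfl <;> rcases hg with rfl | rfl
    · exact hl.1
    · exact hb.1
    · convert hb.2
      simp [longNodeFun, LongPair.node, LongPair.root, adjPair, Root.neg, Root.act]
    · convert hl.2
      simp [longNodeFun, LongPair.node, LongPair.root, lastPair, Root.neg, Root.act, hsucc]
  · exact h.elim

/-- The nodes of type `B` and twisted `D`. -/
noncomputable def shortNodes {n : ℕ} (hn1 : 1 ≤ n) {P : Polar hQ (n + 1)} (S : ShortData P) (p : ℕ) [CharP F p]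
    [Fact p.Prime] (hn : 5 ≤ Fintype.card ι) : Nodes P p True where
  κ := Option (Fin n)
  node := shortNodeFun S p hn
  adj i j d hd := by
    rcases j with - | j
    · rcases i with - | i
      · obtain ⟨t, rfl⟩ := hd
        exact short_adj_self S _ t
      · obtain ⟨t, rfl⟩ := hd
        exact short_adj_long S _ (adjPair i) t
    · exact long_adj (adjPair j) ((shortNodeFun S p hn i).mono_D d hd)
  gen := short_gen hn1 S hn
  sh_ne _ := S.exists_W
  dim := hn

/-- The nodes of type `D`. -/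
noncomputable def longNodes {n : ℕ} (P : Polar hQ (n + 2)) (hW : ∀ w ∈ P.W, w = 0) (p : ℕ) [CharP F p]
    [Fact p.Prime] (hn : 5 ≤ Fintype.card ι) : Nodes P p False where
  κ := Option (Fin (n + 1))
  node := longNodeFun P p hn
  adj i j d hd := by
    rcases j with - | j
    · exact long_adj (lastPair n) ((longNodeFun P p hn i).mono_D d hd)
    · exact long_adj (adjPair j) ((longNodeFun P p hn i).mono_D d hd)
  gen := long_gen P hW hn
  sh_ne h := h.elim
  dim := hn

end CfsgLib.SchurOrth
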