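import Mathlib
import Cfsg.Agent.SchurOrth.StdNodes

/-!
Heights of positive roots, commutators of root elements and separation of root groups.
-/

set_option autoImplicit false
set_option linter.unusedSectionVars false

namespace CfsgLib.SchurOrth

open Cfsg.Geo CfsgLib.OrthGeo Matrix
open scoped MatrixGroups commutatorElement

variable {ι : Type} [Fintype ι] [DecidableEq ι] {F : Type*} [Field F] {Q : (ι → F) → F}
variable {hQ : IsNondegenerateQuadraticForm Q} {m : ℕ}

/-- The height of a root. -/
def Root.height {sh : Prop} (s : Root m sh) : ℕ := s.1.card * m - ∑ x ∈ s.1, deg x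

theorem Root.height_pos {sh : Prop} {s : Root m sh} (h : s.IsPos) : 1 ≤ s.height := by
  rw [Root.IsPos] at h
  rw [Root.height]
  omega

theorem Root.height_short {sh : Prop} {s : Root m sh} {a : Fin m ⊕ Fin m} (e : s.1 = {a}) :
    s.height = m - deg a := by simp [Root.height, e]

theorem Root.height_long {sh : Prop} {s : Root m sh} {a c : Fin m ⊕ Fin m} (h : c ≠ a) (e : s.1 = {a, c}) :
    s.height = 2 * m - (deg a + deg c) := by
  rw [Root.height, e, Finset.sum_pair (Ne.symm h), Finset.card_pair (Ne.symm h)]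

namespace Polar

variable (P : Polar hQ m) (sh : Prop)

/-- The root groups of height at least `k`. -/
noncomputable def high (k : ℕ) : Subgroup (GL ι F) :=
  ⨆ (s : Root m sh) (_ : s.IsPos ∧ k ≤ s.height), P.rootGroup s.1

theorem high_anti {k l : ℕ} (h : k ≤ l) : P.high sh l ≤ P.high sh k :=
  iSup₂_le fun s hs => le_iSup₂_of_le (f := fun (s : Root m sh) (_ : s.IsPos ∧ k ≤ s.height) => P.rootGroup s.1)
    s ⟨hs.1, h.trans hs.2⟩ le_rfl

theorem high_long {a y : Fin m ⊕ Fin m} (t : F) {k : ℕ} (hk : 1 ≤ k) (h : deg a + deg y + k ≤ 2 * m) :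
    MatIn (eichlerMat Q (P.b a) (t • P.b y)) (P.high sh k) := by
  by_cases hya : y = a
  · refine ⟨1, one_mem _, ?_⟩
    subst hya
    refine Matrix.ext_of_mulVec_single fun i => ?_
    generalize (Pi.single i 1 : ι → F) = x
    rw [eichlerMat_mulVec hQ, map_smul, LinearMap.smul_apply, q_smul hQ, P.q_b, Units.val_one,
      one_mulVec, smul_eq_mul]
    module
  have h1 : y ≠ a.swap := fun h' => by
    rw [h', deg_swap] at h
    have := deg_le a
    omega
  have hg : P.Gen {a, y} a (t • P.b y) := Or.inr ⟨y, t, hya, h1, rfl, rfl⟩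
  let s : Root m sh := ⟨{a, y}, Or.inl ⟨a, y, hya, h1, rfl⟩⟩
  have hs : s.IsPos ∧ k ≤ s.height := by
    rw [Root.height_long hya rfl, Root.IsPos]
    show ∑ x ∈ ({a, y} : Finset _), deg x < ({a, y} : Finset _).card * m ∧ _
    rw [Finset.sum_pair (Ne.symm hya), Finset.card_pair (Ne.symm hya)]
    omega
  exact ⟨_, le_iSup₂_of_le (f := fun (s : Root m sh) (_ : s.IsPos ∧ k ≤ s.height) => P.rootGroup s.1) s hs
    le_rfl (P.eichler_mem_rootGroup hg), rfl⟩

theorem high_short {a : Fin m ⊕ Fin m} {w : ι → F} (hsh : sh) (hw : w ∈ P.W) {k : ℕ} (hk : 1 ≤ k)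
    (h : deg a + k ≤ m) : MatIn (eichlerMat Q (P.b a) w) (P.high sh k) := by
  have hg : P.Gen {a} a w := Or.inl ⟨rfl, hw⟩
  let s : Root m sh := ⟨{a}, Or.inr ⟨hsh, a, rfl⟩⟩
  have hs : s.IsPos ∧ k ≤ s.height := by
    rw [Root.height_short (a := a) rfl]
    exact ⟨by simp [Root.IsPos, s]; omega, by omega⟩
  exact ⟨_, le_iSup₂_of_le (f := fun (s : Root m sh) (_ : s.IsPos ∧ k ≤ s.height) => P.rootGroup s.1) s hs
    le_rfl (P.eichler_mem_rootGroup hg), rfl⟩

variable {sh}

/-- Elements of a short root group. -/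
theorem mem_rootGroup_short {a : Fin m ⊕ Fin m} {g : GL ι F} (hg : g ∈ P.rootGroup {a}) :
    ∃ v ∈ P.W, (g : Matrix ι ι F) = eichlerMat Q (P.b a) v := by
  induction hg using Subgroup.closure_induction with
  | mem g hg =>
    obtain ⟨c, v, h, e⟩ := hg
    rcases h with ⟨e', hv⟩ | ⟨d, t, hdc, -, e', -⟩
    · obtain rfl : a = c := Finset.singleton_inj.1 e'
      exact ⟨v, hv, e⟩
    · have := congrArg Finset.card e'
      rw [Finset.card_singleton, Finset.card_pair (Ne.symm hdc)] at this
      omega
  | one => exact ⟨0, P.W.zero_mem, by rw [eichlerMat_zero hQ]; rfl⟩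
  | mul g h _ _ hg hh =>
    obtain ⟨v, hv, e⟩ := hg
    obtain ⟨w, hw, e'⟩ := hh
    exact ⟨v + w, P.W.add_mem hv hw, by
      rw [Units.val_mul, e, e', eichlerMat_mul hQ (P.q_b a) (P.bform_b_W hv a) (P.bform_b_W hw a)]⟩
  | inv g _ hg =>
    obtain ⟨v, hv, e⟩ := hg
    exact ⟨-v, P.W.neg_mem hv, by
      rw [show g = eichler hQ (P.q_b a) (P.bform_b_W hv a) from Units.ext e]; rfl⟩

/-- Elements of a long root group. -/
theorem mem_rootGroup_long {a c : Fin m ⊕ Fin m} (h1 : c ≠ a) (h2 : c ≠ a.swap) {g : GL ι F}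
    (hg : g ∈ P.rootGroup {a, c}) : ∃ t : F, (g : Matrix ι ι F) = eichlerMat Q (P.b a) (t • P.b c) := by
  let r : LongPair m := ⟨a, c, h1, h2⟩
  have e : P.rootGroup {a, c} = (slUsub F).map (r.hom P) := (r.map_slU P True).symm
  rw [e] at hg
  obtain ⟨x, hx, rfl⟩ := hg
  obtain ⟨t, rfl⟩ := exists_of_mem_slU hx
  exact ⟨t, by rw [r.hom_slU]; rfl⟩

theorem comm_of_mat {g : GL ι F} {H : Subgroup (GL ι F)} {a : Fin m ⊕ Fin m} {v : ι → F}
    (hv : bform hQ (P.b a) v = 0) {M : Matrix ι ι F} (hM : MatIn M H)
    (hgI : g ∈ Cfsg.isometryGroup F Q)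
    (e : eichlerMat Q ((g : Matrix ι ι F) *ᵥ P.b a) ((g : Matrix ι ι F) *ᵥ v) = M * eichlerMat Q (P.b a) v) :
    ⁅g, eichler hQ (P.q_b a) hv⁆ ∈ H := by
  obtain ⟨k, hk, ek⟩ := hM
  have : g * eichler hQ (P.q_b a) hv * g⁻¹ = k * eichler hQ (P.q_b a) hv := by
    rw [conj_eichler hQ hgI (P.q_b a) hv (by rw [mem_isometryGroup.1 hgI, P.q_b])
      (by rw [isometry_b hQ hgI, hv]) rfl rfl]
    refine Units.ext ?_
    rw [Units.val_mul, ek]
    exact e
  rw [commutatorElement_def, this, mul_inv_cancel_right]
  exact hk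

variable (sh)

theorem long_comm [Finite F] {α γ : Fin m ⊕ Fin m} (h1 : γ ≠ α) (h2 : γ ≠ α.swap) (t : F)
    (hpos : deg α + deg γ < 2 * m) (hv : bform hQ (P.b α) (t • P.b γ) = 0) {s : Root m sh}
    (hs : s.IsPos) {h : GL ι F} (hh : h ∈ P.rootGroup s.1) :
    ⁅eichler hQ (P.q_b α) hv, h⁆ ∈ P.high sh (2 * m - (deg α + deg γ) + s.height) := by
  set g := eichler hQ (P.q_b α) hv with hg
  set k := 2 * m - (deg α + deg γ) + s.height with hkdef
  have hgI : g ∈ Cfsg.isometryGroup F Q := eichler_mem_isometryGroup hQ _ _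
  have hs1 := Root.height_pos hs
  rcases s.2 with ⟨a, c, hca, hcb, e⟩ | ⟨hsh, a, e⟩
  · rw [e] at hh
    obtain ⟨u, hu⟩ := P.mem_rootGroup_long hca hcb hh
    have hb : bform hQ (P.b a) (u • P.b c) = 0 := by rw [map_smul, P.b_b, if_neg hcb, smul_zero]
    rw [show h = eichler hQ (P.q_b a) hb from Units.ext hu]
    rw [Root.height_long hca e] at hkdef hs1
    obtain ⟨y, i, ey, hi0, hi⟩ := P.long_conj h1 h2 t hpos hv a
    obtain ⟨z, l, ez, hl0, hl⟩ := P.long_conj h1 h2 t hpos hv c
    rw [← hg] at ey ez
    -- the positions of the moved vectors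
    have hdy : i ≠ 0 → deg y + (2 * m - (deg α + deg γ)) = deg a := fun h => by
      rcases (hi h).2 with ⟨rfl, rfl⟩ | ⟨rfl, rfl⟩ <;> rw [deg_swap] <;> omega
    have hdz : l ≠ 0 → deg z + (2 * m - (deg α + deg γ)) = deg c := fun h => by
      rcases (hl h).2 with ⟨rfl, rfl⟩ | ⟨rfl, rfl⟩ <;> rw [deg_swap] <;> omega
    have hcases : i = 0 ∨ l = 0 := by
      by_contra hc
      push Not at hc
      have hpos' : deg a + deg c < 2 * m := by omega
      rcases (hi hc.1).2 with ⟨rfl, rfl⟩ | ⟨rfl, rfl⟩ <;> rcases (hl hc.2).2 with ⟨rfl, rfl⟩ | ⟨rfl, rfl⟩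
      · exact hca rfl
      · rw [deg_swap, deg_swap] at hpos'; omega
      · rw [deg_swap, deg_swap] at hpos'; omega
      · exact hca rfl
    rcases hcases with hz | hz
    · by_cases hl' : l = 0
      · refine P.comm_of_mat hb ⟨1, one_mem _, Units.val_one⟩ hgI ?_
        rw [mulVec_smul, ey, ez, hz, hl', zero_smul, add_zero, zero_smul, add_zero, one_mul]
      have hdz' := hdz hl'
      have hzb : bform hQ (P.b a) ((u * l) • P.b z) = 0 := by
        rw [map_smul, P.b_b, if_neg, smul_zero]
        rintro rfl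
        rw [deg_swap] at hdz'
        omega
      refine P.comm_of_mat hb (P.high_long sh (a := a) (y := z) (u * l) (k := k) (by omega) (by omega)) hgI ?_
      rw [mulVec_smul, ey, ez, hz, zero_smul, add_zero, smul_add, smul_smul, eichlerMat_mul hQ (P.q_b a) hzb hb,
        add_comm]
    · by_cases hi' : i = 0
      · refine P.comm_of_mat hb ⟨1, one_mem _, Units.val_one⟩ hgI ?_
        rw [mulVec_smul, ey, ez, hz, hi', zero_smul, add_zero, zero_smul, add_zero, one_mul]
      have hdy' := hdy hi'
      have hyb : y ≠ a.swap := by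
        rcases (hi hi').2 with ⟨rfl, rfl⟩ | ⟨rfl, rfl⟩ <;> rw [Sum.swap_swap]
        exacts [Ne.symm h1, h1]
      have hcy : c ≠ y.swap := fun h => by rw [h, deg_swap] at hs1; omega
      refine P.comm_of_mat hb (P.high_long sh (a := y) (y := c) (i * u) (k := k) (by omega) (by omega)) hgI ?_
      rw [mulVec_smul, ey, ez, hz, zero_smul, add_zero, add_comm (P.b a),
        eMat_add_left hQ (by rw [q_smul hQ, P.q_b, mul_zero]) (P.q_b a)
          (by rw [map_smul, LinearMap.smul_apply, P.b_b, if_neg, smul_zero]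
              exact fun h => hyb (by rw [h, Sum.swap_swap]))
          (P.q_b c) (by rw [map_smul, LinearMap.smul_apply, P.b_b, if_neg hcy, smul_zero])
          (by rw [P.b_b, if_neg hcb]),
        eMat_smul_left hQ i (P.b y), smul_smul]
  · rw [e] at hh
    obtain ⟨w, hw, hw'⟩ := P.mem_rootGroup_short hh
    rw [show h = eichler hQ (P.q_b a) (P.bform_b_W hw a) from Units.ext hw']
    rw [Root.height_short e] at hkdef hs1
    obtain ⟨y, i, ey, hi0, hi⟩ := P.long_conj h1 h2 t hpos hv a
    rw [← hg] at ey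
    have hgw : (g : Matrix ι ι F) *ᵥ w = w := by
      rw [hg, long_apply, P.coord_W hw, P.coord_W hw]; module
    by_cases hi' : i = 0
    · refine P.comm_of_mat _ ⟨1, one_mem _, Units.val_one⟩ hgI ?_
      rw [hgw, ey, hi', zero_smul, add_zero, one_mul]
    have hdy : deg y + (2 * m - (deg α + deg γ)) = deg a := by
      rcases (hi hi').2 with ⟨rfl, rfl⟩ | ⟨rfl, rfl⟩ <;> rw [deg_swap] <;> omega
    have hys : y ≠ a.swap := by
      rcases (hi hi').2 with ⟨rfl, rfl⟩ | ⟨rfl, rfl⟩ <;> rw [Sum.swap_swap]
      exacts [Ne.symm h1, h1]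
    have hiy : bform hQ (i • P.b y) (P.b a) = 0 := by
      rw [map_smul, LinearMap.smul_apply, P.b_b, if_neg, smul_zero]
      exact fun h => hys (by rw [h, Sum.swap_swap])
    refine P.comm_of_mat _ ?_ hgI (M := eichlerMat Q (P.b y) (i • (Q w • P.b a)) * eichlerMat Q (P.b y) (i • w)) ?_
    · refine MatIn.mul ?_ (P.high_short sh hsh (P.W.smul_mem i hw) (by omega) (by omega))
      rw [smul_smul]
      exact P.high_long sh (a := y) (y := a) _ (by omega) (by omega)
    · rw [hgw, ey, add_comm (P.b a), eMat_add_left_aniso hQ (by rw [q_smul hQ, P.q_b, mul_zero]) (P.q_b a) hiy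
        (by rw [map_smul, LinearMap.smul_apply, P.bform_b_W hw, smul_zero]) (P.bform_b_W hw a),
        eMat_smul_left hQ i (P.b y) (Q w • P.b a), eMat_smul_left hQ i (P.b y) w, mul_assoc]

theorem short_comm [Finite F] {α : Fin m ⊕ Fin m} {u : ι → F} (hsh : sh) (hu : u ∈ P.W)
    (hα : deg α < m) (hv : bform hQ (P.b α) u = 0) {s : Root m sh}
    (hs : s.IsPos) {h : GL ι F} (hh : h ∈ P.rootGroup s.1) :
    ⁅eichler hQ (P.q_b α) hv, h⁆ ∈ P.high sh (m - deg α + s.height) := by
  set g := eichler hQ (P.q_b α) hv with hg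
  set k := m - deg α + s.height with hkdef
  have hgI : g ∈ Cfsg.isometryGroup F Q := eichler_mem_isometryGroup hQ _ _
  have hs1 := Root.height_pos hs
  have hgb := P.short_apply_b hu hv
  rw [← hg] at hgb
  rcases s.2 with ⟨a, c, hca, hcb, e⟩ | ⟨-, a, e⟩
  · rw [Root.height_long hca e] at hkdef hs1
    -- put the moved vector second
    obtain ⟨a, c, hca, hcb, e, ha, hkdef, hs1⟩ : ∃ a c, c ≠ a ∧ c ≠ a.swap ∧ s.1 = {a, c} ∧ a ≠ α.swap ∧
        k = m - deg α + (2 * m - (deg a + deg c)) ∧ 1 ≤ 2 * m - (deg a + deg c) := by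
      by_cases has : a = α.swap
      · refine ⟨c, a, Ne.symm hca, fun h => hcb (by rw [h, Sum.swap_swap]), by rw [e, Finset.pair_comm],
          fun h => hca (h.trans has.symm), by omega, by omega⟩
      · exact ⟨a, c, hca, hcb, e, has, by omega, by omega⟩
    rw [e] at hh
    obtain ⟨t, ht⟩ := P.mem_rootGroup_long hca hcb hh
    have hb : bform hQ (P.b a) (t • P.b c) = 0 := by rw [map_smul, P.b_b, if_neg hcb, smul_zero]
    rw [show h = eichler hQ (P.q_b a) hb from Units.ext ht]
    by_cases hc' : c = α.swap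
    swap
    · refine P.comm_of_mat hb ⟨1, one_mem _, Units.val_one⟩ hgI ?_
      rw [mulVec_smul, hgb a, if_neg ha, hgb c, if_neg hc', one_mul]
    subst hc'
    rw [deg_swap] at hs1 hkdef
    have hαa : α ≠ a.swap := fun h => hca (by rw [h, Sum.swap_swap])
    have b1 : bform hQ (P.b a) ((-t) • u) = 0 := by rw [map_smul, P.bform_b_W hu, smul_zero]
    have b2 : bform hQ (P.b a) ((-(t * Q u)) • P.b α) = 0 := by
      rw [map_smul, P.b_b, if_neg hαa, smul_zero]
    refine P.comm_of_mat hb
      (M := eichlerMat Q (P.b a) ((-t) • u) * eichlerMat Q (P.b a) ((-(t * Q u)) • P.b α)) ?_ hgI ?_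
    · exact MatIn.mul (P.high_short sh hsh (P.W.smul_mem _ hu) (by omega) (by omega))
        (P.high_long sh (a := a) (y := α) _ (by omega) (by omega))
    · have e1 : t • (P.b α.swap - u - Q u • P.b α) =
          ((-t) • u + (-(t * Q u)) • P.b α) + t • P.b α.swap := by module
      rw [mulVec_smul, hgb a, if_neg ha, hgb, if_pos rfl, e1,
        ← eichlerMat_mul hQ (P.q_b a) (by rw [map_add, b1, b2, add_zero]) hb,
        ← eichlerMat_mul hQ (P.q_b a) b1 b2]
  · rw [e] at hh
    obtain ⟨w, hw, hw'⟩ := P.mem_rootGroup_short hh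
    rw [show h = eichler hQ (P.q_b a) (P.bform_b_W hw a) from Units.ext hw']
    rw [Root.height_short e] at hkdef hs1
    have has : a ≠ α.swap := fun h => by rw [h, deg_swap] at hs1; omega
    have hαa : α ≠ a.swap := fun h => has (by rw [h, Sum.swap_swap])
    refine P.comm_of_mat _ (P.high_long sh (a := a) (y := α) (bform hQ u w) (k := k) (by omega) (by omega)) hgI ?_
    rw [hgb, if_neg has, hg, short_apply_W _ hv hw, add_comm w, ← eichlerMat_mul hQ (P.q_b a)
      (by rw [map_smul, P.b_b, if_neg hαa, smul_zero]) (P.bform_b_W hw a)]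

/-- Commutators of positive root elements. -/
theorem root_comm [Finite F] {r s : Root m sh} (hr : r.IsPos) (hs : s.IsPos) {g h : GL ι F}
    (hg : g ∈ P.rootGroup r.1) (hh : h ∈ P.rootGroup s.1) :
    ⁅g, h⁆ ∈ P.high sh (r.height + s.height) := by
  rcases r.2 with ⟨a, c, h1, h2, e⟩ | ⟨hsh, a, e⟩
  · rw [e] at hg
    obtain ⟨t, ht⟩ := P.mem_rootGroup_long h1 h2 hg
    have hb : bform hQ (P.b a) (t • P.b c) = 0 := by rw [map_smul, P.b_b, if_neg h2, smul_zero]
    have hp := Root.height_pos hr
    rw [Root.height_long h1 e] at hp ⊢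
    rw [show g = eichler hQ (P.q_b a) hb from Units.ext ht]
    exact P.long_comm sh h1 h2 t (by omega) hb hs hh
  · rw [e] at hg
    obtain ⟨w, hw, hw'⟩ := P.mem_rootGroup_short hg
    have hp := Root.height_pos hr
    rw [Root.height_short e] at hp ⊢
    rw [show g = eichler hQ (P.q_b a) (P.bform_b_W hw a) from Units.ext hw']
    exact P.short_comm sh hsh hw (by omega) (P.bform_b_W hw a) hs hh

/-- The separating subgroup. -/
theorem root_sep [Finite F] {r : Root m sh} (hr : r.IsPos) {g : GL ι F}
    (hg : g ∈ P.rootGroup r.1)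
    (hg' : g ∈ ⨆ (s : Root m sh) (_ : s.IsPos ∧ s ≠ r ∧ r.height ≤ s.height), P.rootGroup s.1) : g = 1 := by
  classical
  obtain ⟨a, x₀, j, π, hother, hself⟩ : ∃ (_a : Fin m ⊕ Fin m) (x₀ : Fin m ⊕ Fin m) (j : ℕ)
      (π : (ι → F) →ₗ[F] (ι → F)),
      (∀ s : Root m sh, s.IsPos → s ≠ r → r.height ≤ s.height → ∀ h ∈ P.rootGroup s.1,
        (h : Matrix ι ι F) *ᵥ P.b x₀ - P.b x₀ ∈ P.lev j ∧
        π ((h : Matrix ι ι F) *ᵥ P.b x₀ - P.b x₀) = 0 ∧
        ∀ y ∈ P.lev j, π ((h : Matrix ι ι F) *ᵥ y - y) = 0) ∧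
      ∀ h ∈ P.rootGroup r.1, π ((h : Matrix ι ι F) *ᵥ P.b x₀ - P.b x₀) = 0 → h = 1 := by
    rcases r.2 with ⟨a, c, h1, h2, e⟩ | ⟨hsh, a, e⟩
    · have hp := Root.height_pos hr
      rw [Root.height_long h1 e] at hp
      refine ⟨a, c.swap, deg a + 1, (P.coord a).smulRight (P.b a), fun s hs hsr hle h hh => ?_, fun h hh h0 => ?_⟩
      · rw [Root.height_long h1 e] at hle
        rcases s.2 with ⟨p, q, h3, h4, e'⟩ | ⟨hsh, p, e'⟩
        · rw [Root.height_long h3 e'] at hle
          rw [e'] at hh
          obtain ⟨t, ht⟩ := P.mem_rootGroup_long h3 h4 hh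
          have hb : bform hQ (P.b p) (t • P.b q) = 0 := by rw [map_smul, P.b_b, if_neg h4, smul_zero]
          rw [show h = eichler hQ (P.q_b p) hb from Units.ext ht]
          have hform : ∀ y, (eichler hQ (P.q_b p) hb : Matrix ι ι F) *ᵥ y - y =
              (t * P.coord q.swap y) • P.b p - (t * P.coord p.swap y) • P.b q := fun y => by
            rw [P.long_apply]; module
          simp only [hform, map_sub, map_smul, LinearMap.smulRight_apply, P.coord_b]
          have hpos' : deg p + deg q < 2 * m := by omega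
          refine ⟨Submodule.sub_mem _ ?_ ?_, ?_, fun y hy => ?_⟩
          · by_cases hh' : q.swap = c.swap
            · refine Submodule.smul_mem _ _ (P.b_mem_lev ?_)
              have : q = c := by rw [← Sum.swap_swap q, hh', Sum.swap_swap]
              subst this; omega
            · rw [if_neg hh', mul_zero, zero_smul]; exact Submodule.zero_mem _
          · by_cases hh' : p.swap = c.swap
            · refine Submodule.smul_mem _ _ (P.b_mem_lev ?_)
              have : p = c := by rw [← Sum.swap_swap p, hh', Sum.swap_swap]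
              subst this; omega
            · rw [if_neg hh', mul_zero, zero_smul]; exact Submodule.zero_mem _
          · have n1 : ¬ (q.swap = c.swap ∧ a = p) := fun ⟨e1, e2⟩ => hsr (Subtype.ext (by
              rw [e', e, e2, ← Sum.swap_swap q, e1, Sum.swap_swap]))
            have n2 : ¬ (p.swap = c.swap ∧ a = q) := fun ⟨e1, e2⟩ => hsr (Subtype.ext (by
              rw [e', e, e2, ← Sum.swap_swap p, e1, Sum.swap_swap, Finset.pair_comm]))
            by_cases e1 : q.swap = c.swap <;> by_cases e2 : p.swap = c.swap <;>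
              by_cases e3 : a = p <;> by_cases e4 : a = q <;> simp_all
          · have z1 : a = p → P.coord q.swap y = 0 := fun h => by
              subst h; exact hy.1 _ (by rw [deg_swap]; omega)
            have z2 : a = q → P.coord p.swap y = 0 := fun h => by
              subst h; exact hy.1 _ (by rw [deg_swap]; omega)
            by_cases e3 : a = p <;> by_cases e4 : a = q <;> simp_all
        · rw [Root.height_short e'] at hle
          rw [e'] at hh
          obtain ⟨w, hw, hw'⟩ := P.mem_rootGroup_short hh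
          rw [show h = eichler hQ (P.q_b p) (P.bform_b_W hw p) from Units.ext hw']
          have hpp : deg p < m := by omega
          simp only [eichler_b_sub, map_sub, map_smul, LinearMap.smulRight_apply, P.coord_b, P.coord_W hw,
            zero_smul, smul_zero, sub_zero]
          refine ⟨Submodule.sub_mem _ ?_ ?_, ?_, fun y hy => ?_⟩
          · by_cases hh' : p.swap = c.swap
            · refine Submodule.smul_mem _ _ (P.b_mem_lev ?_)
              have : p = c := by rw [← Sum.swap_swap p, hh', Sum.swap_swap]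
              subst this; omega
            · rw [if_neg hh', b_symm hQ w, P.bform_b_W hw, mul_zero, sub_zero, zero_smul]
              exact Submodule.zero_mem _
          · by_cases hh' : p.swap = c.swap
            · rw [if_pos hh', one_smul]
              refine P.W_mem_lev hw ?_
              have : p = c := by rw [← Sum.swap_swap p, hh', Sum.swap_swap]
              subst this; omega
            · rw [if_neg hh', zero_smul]; exact Submodule.zero_mem _
          · by_cases hh' : p.swap = c.swap
            · have hpc : p = c := by rw [← Sum.swap_swap p, hh', Sum.swap_swap]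
              have hap : a ≠ p := fun h => h1 (by rw [← hpc, h])
              simp [hap]
            · rw [if_neg hh', b_symm hQ w, P.bform_b_W hw, mul_zero, sub_zero, zero_smul]
          · by_cases hap : a = p
            · subst hap
              have hj : deg a + 1 ≤ m := by omega
              rw [hy.1 a.swap (by rw [deg_swap]; omega), mul_zero, sub_zero]
              have : bform hQ w y = 0 := by
                rw [P.decomp y, hy.2 hj, add_zero, map_sum, Finset.sum_eq_zero]
                intro z _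
                rw [map_smul, b_symm hQ w, P.bform_b_W hw, smul_zero]
              rw [this, zero_smul]
            · rw [if_neg hap, zero_smul, smul_zero]
      · rw [e] at hh
        obtain ⟨t, ht⟩ := P.mem_rootGroup_long h1 h2 hh
        have hb : bform hQ (P.b a) (t • P.b c) = 0 := by rw [map_smul, P.b_b, if_neg h2, smul_zero]
        rw [show h = eichler hQ (P.q_b a) hb from Units.ext ht, P.long_apply, map_sub] at h0
        have hne : a.swap ≠ c.swap := fun h => h1 (by rw [← Sum.swap_swap c, ← h, Sum.swap_swap])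
        simp only [map_add, map_sub, map_smul, LinearMap.smulRight_apply, P.coord_b, if_neg hne, if_true,
          mul_zero, zero_smul, sub_zero, mul_one, one_smul] at h0
        by_cases hac : a = c.swap
        · exact absurd (by rw [hac, Sum.swap_swap]) h2
        rw [if_neg hac] at h0
        have ht0 : t = 0 := (smul_eq_zero.1 (by simpa using h0)).resolve_right (P.b_ne_zero a)
        refine Units.ext ?_
        rw [ht, ht0, zero_smul, eichlerMat_zero hQ]
        rfl
    · have hp := Root.height_pos hr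
      rw [Root.height_short e] at hp
      refine ⟨a, a.swap, m + 1, P.projW, fun s hs hsr hle h hh => ?_, fun h hh h0 => ?_⟩
      · rw [Root.height_short e] at hle
        rcases s.2 with ⟨p, q, h3, h4, e'⟩ | ⟨-, p, e'⟩
        · rw [Root.height_long h3 e'] at hle
          rw [e'] at hh
          obtain ⟨t, ht⟩ := P.mem_rootGroup_long h3 h4 hh
          have hb : bform hQ (P.b p) (t • P.b q) = 0 := by rw [map_smul, P.b_b, if_neg h4, smul_zero]
          rw [show h = eichler hQ (P.q_b p) hb from Units.ext ht]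
          have hform : ∀ y, (eichler hQ (P.q_b p) hb : Matrix ι ι F) *ᵥ y - y =
              (t * P.coord q.swap y) • P.b p - (t * P.coord p.swap y) • P.b q := fun y => by
            rw [P.long_apply]; module
          simp only [hform, map_sub, map_smul, P.projW_b, smul_zero, sub_zero, P.coord_b, implies_true, and_true]
          refine Submodule.sub_mem _ ?_ ?_
          · by_cases hh' : q.swap = a.swap
            · refine Submodule.smul_mem _ _ (P.b_mem_lev ?_)
              have : q = a := by rw [← Sum.swap_swap q, hh', Sum.swap_swap]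
              subst this; omega
            · rw [if_neg hh', mul_zero, zero_smul]; exact Submodule.zero_mem _
          · by_cases hh' : p.swap = a.swap
            · refine Submodule.smul_mem _ _ (P.b_mem_lev ?_)
              have : p = a := by rw [← Sum.swap_swap p, hh', Sum.swap_swap]
              subst this; omega
            · rw [if_neg hh', mul_zero, zero_smul]; exact Submodule.zero_mem _
        · rw [Root.height_short e'] at hle
          rw [e'] at hh
          obtain ⟨w, hw, hw'⟩ := P.mem_rootGroup_short hh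
          rw [show h = eichler hQ (P.q_b p) (P.bform_b_W hw p) from Units.ext hw']
          have hpa : p.swap ≠ a.swap := fun h => hsr (Subtype.ext (by
            rw [e', e, ← Sum.swap_swap p, h, Sum.swap_swap]))
          simp only [eichler_b_sub, map_sub, map_smul, P.projW_b, smul_zero, zero_sub, P.coord_b, if_neg hpa,
            zero_smul, neg_zero, sub_zero, mul_zero, b_symm hQ w (P.b a.swap), P.bform_b_W hw]
          refine ⟨Submodule.zero_mem _, map_zero _, fun y hy => ?_⟩
          rw [hy.1 p.swap (by rw [deg_swap]; omega), zero_smul, neg_zero]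
      · rw [e] at hh
        obtain ⟨w, hw, hw'⟩ := P.mem_rootGroup_short hh
        rw [show h = eichler hQ (P.q_b a) (P.bform_b_W hw a) from Units.ext hw', eichler_b_sub] at h0
        simp only [map_sub, map_smul, P.projW_b, smul_zero, zero_sub, P.coord_b, if_true, one_smul,
          P.projW_of_mem hw, neg_eq_zero] at h0
        refine Units.ext ?_
        rw [hw', h0, eichlerMat_zero hQ]
        rfl
  refine hself g hg ?_
  let Mo : Submonoid (GL ι F) :=
    { carrier := {h | h ∈ P.up ∧ (h : Matrix ι ι F) *ᵥ P.b x₀ - P.b x₀ ∈ P.lev j ∧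
        π ((h : Matrix ι ι F) *ᵥ P.b x₀ - P.b x₀) = 0 ∧
        ∀ y ∈ P.lev j, π ((h : Matrix ι ι F) *ᵥ y - y) = 0}
      one_mem' := ⟨one_mem _, by simp, by simp, fun y _ => by simp⟩
      mul_mem' := by
        rintro g h ⟨g1, g2, g3, g4⟩ ⟨h1, h2, h3, h4⟩
        have hlev : ∀ h ∈ P.up, ∀ y ∈ P.lev j, (h : Matrix ι ι F) *ᵥ y ∈ P.lev j := fun h hh y hy => by
          have := Submodule.add_mem _ (hh.2 j y (P.lev_mono (Nat.le_succ j) hy)) hy
          rwa [sub_add_cancel] at this
        have e : ∀ y, ((g * h : GL ι F) : Matrix ι ι F) *ᵥ y - y =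
            ((g : Matrix ι ι F) *ᵥ ((h : Matrix ι ι F) *ᵥ y - y) - ((h : Matrix ι ι F) *ᵥ y - y)) +
              ((g : Matrix ι ι F) *ᵥ y - y) + ((h : Matrix ι ι F) *ᵥ y - y) := fun y => by
          rw [Units.val_mul, ← mulVec_mulVec, mulVec_sub]; abel
        refine ⟨mul_mem g1 h1, ?_, ?_, fun y hy => ?_⟩
        · rw [e]
          exact Submodule.add_mem _ (Submodule.add_mem _
            (Submodule.sub_mem _ (hlev g g1 _ h2) h2) g2) h2
        · rw [e, map_add, map_add, g4 _ h2, g3, h3, add_zero, add_zero]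
        · rw [e, map_add, map_add, g4 _ (Submodule.sub_mem _ (hlev h h1 y hy) hy), g4 y hy, h4 y hy,
            add_zero, add_zero] }
  let K : Subgroup (GL ι F) :=
    { Mo with
      inv_mem' := fun {x} hx => by
        have : x⁻¹ ∈ Submonoid.powers x := by
          rw [(isOfFinOrder_of_finite x).mem_powers_iff_mem_zpowers]
          exact inv_mem (Subgroup.mem_zpowers x)
        obtain ⟨n, hn⟩ := this
        show x⁻¹ ∈ Mo
        rw [← hn]
        exact pow_mem (show x ∈ Mo from hx) n }
  have hle : (⨆ (s : Root m sh) (_ : s.IsPos ∧ s ≠ r ∧ r.height ≤ s.height), P.rootGroup s.1) ≤ K :=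
    iSup₂_le fun s hs h hh => ⟨P.rootGroup_le_up hs.1 hh, hother s hs.1 hs.2.1 hs.2.2 h hh⟩
  exact (hle hg').2.2.1

end Polar

end CfsgLib.SchurOrth
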