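import Mathlib
import Cfsg.Agent.SchurOrth.Height
import Cfsg.Agent.SchurOrth.Grade
import Cfsg.Agent.SchurClassical.NoMult

/-!
The part of the multiplier of `PΩ` at the characteristic: root groups of the positive system and
diagonal elements.
-/

set_option autoImplicit false
set_option linter.unusedSectionVars false
set_option maxHeartbeats 400000

namespace CfsgLib.SchurOrth

open Cfsg.Geo CfsgLib.OrthGeo Matrix
open scoped MatrixGroups commutatorElement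

universe u

section Abstract

variable {Γ G : Type u} [Group Γ] [Group G] {σ : Γ →* G}

/-- An element centralising two others modulo the kernel commutes with their commutator. -/
theorem commute_commutator (hc : σ.ker ≤ Subgroup.center Γ) {a x y : Γ} (hx : Commute (σ a) (σ x))
    (hy : Commute (σ a) (σ y)) : a * ⁅x, y⁆ = ⁅x, y⁆ * a := by
  have hx' : σ (a * x * a⁻¹) = σ x := by rw [map_mul, map_mul, map_inv, hx.eq, mul_inv_cancel_right]
  have hy' : σ (a * y * a⁻¹) = σ y := by rw [map_mul, map_mul, map_inv, hy.eq, mul_inv_cancel_right]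
  have h : a * ⁅x, y⁆ * a⁻¹ = ⁅x, y⁆ := by
    rw [show a * ⁅x, y⁆ * a⁻¹ = ⁅a * x * a⁻¹, a * y * a⁻¹⁆ by simp only [commutatorElement_def]; group]
    exact Schur.commutator_congr hc hx' hy'
  exact mul_inv_eq_iff_eq_mul.1 h

theorem pair_pow (hc : σ.ker ≤ Subgroup.center Γ) {x y : Γ} (h : Commute (σ x) (σ y)) :
    ⁅x, y⁆ ∈ Subgroup.center Γ :=
  hc (by rw [MonoidHom.mem_ker, map_commutatorElement, commutatorElement_eq_one_iff_mul_comm]; exact h)

variable {F : Type*} [Field F] {V : Type*} [AddCommGroup V] [Module F V] (φ : V → G)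

/-- A parametrised abelian group invariant under all scalars has commutative preimage. -/
theorem commute_of_scalars [Finite F] (hs : Function.Surjective σ) (hc : σ.ker ≤ Subgroup.center Γ)
    (hq : 5 ≤ Nat.card F) (hadd : ∀ v w, φ (v + w) = φ v * φ w)
    (hscale : ∀ c : F, c ≠ 0 → ∃ g : G, ∀ v, g * φ v * g⁻¹ = φ (c • v))
    {a b : Γ} {v w : V} (ha : σ a = φ v) (hb : σ b = φ w) : a * b = b * a := by
  classical
  choose L hL using fun v => hs (φ v)
  have hcen : ∀ v w, ⁅L v, L w⁆ ∈ Subgroup.center Γ := fun v w => pair_pow hc (by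
    rw [hL, hL, Commute, SemiconjBy, ← hadd, ← hadd, add_comm])
  have hl : ∀ v v' w, ⁅L (v + v'), L w⁆ = ⁅L v, L w⁆ * ⁅L v', L w⁆ := fun v v' w => by
    rw [Schur.commutator_congr hc (g' := L v * L v') (by rw [map_mul, hL, hL, hL, hadd]) rfl,
      Schur.commutator_mul_left' (Subgroup.mem_center_iff.1 (hcen v' w) (L v))]
    exact Subgroup.mem_center_iff.1 (hcen v w) _
  have hr : ∀ v w w', ⁅L v, L (w + w')⁆ = ⁅L v, L w⁆ * ⁅L v, L w'⁆ := fun v w w' => by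
    rw [Schur.commutator_congr hc (h' := L w * L w') rfl (by rw [map_mul, hL, hL, hL, hadd]),
      Schur.commutator_mul_right' (Subgroup.mem_center_iff.1 (hcen v w') (L w))]
  have hinv : ∀ c : F, c ≠ 0 → ∀ v w, ⁅L (c • v), L (c • w)⁆ = ⁅L v, L w⁆ := fun c hc0 v w => by
    obtain ⟨g, hg⟩ := hscale c hc0
    obtain ⟨γ, rfl⟩ := hs g
    have e : ∀ v, σ (γ * L v * γ⁻¹) = σ (L (c • v)) := fun v => by
      rw [map_mul, map_mul, map_inv, hL, hL, hg]
    rw [← Schur.commutator_congr hc (e v) (e w),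
      show ⁅γ * L v * γ⁻¹, γ * L w * γ⁻¹⁆ = γ * ⁅L v, L w⁆ * γ⁻¹ by simp only [commutatorElement_def]; group,
      Subgroup.mem_center_iff.1 (hcen v w), mul_inv_cancel_right]
  have hM : ∀ c : F, c ≠ 0 → c + 1 ≠ 0 →
      ⁅L v, L (c • w)⁆ * ⁅L (c • v), L w⁆ = (⁅L v, L w⁆)⁻¹ := by
    intro c hc0 hc1
    have h := hinv (c + 1) hc1 v w
    rw [add_smul, one_smul, add_smul, one_smul, hl, hr, hr, hinv c hc0] at h
    have c1 := Subgroup.mem_center_iff.1 (hcen (c • v) w) ⁅L v, L (c • w)⁆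
    rw [mul_assoc] at h
    have h' := mul_eq_left.1 h
    refine eq_inv_of_mul_eq_one_left ?_
    rw [c1, mul_assoc]
    exact h'
  obtain ⟨c, hc0, hc1⟩ : ∃ c : F, c ≠ 0 ∧ c + 1 ≠ 0 := by
    haveI := Fintype.ofFinite F
    rw [Nat.card_eq_fintype_card] at hq
    by_contra h
    push Not at h
    have := (Finset.card_le_card (s := (Finset.univ : Finset F)) (t := {0, -1}) fun x _ => by
      by_cases hx : x = 0
      · simp [hx]
      · simp [eq_neg_of_add_eq_zero_left (h x hx)]).trans Finset.card_le_two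
    rw [Finset.card_univ] at this
    omega
  obtain ⟨d, hd0, hd1, hd2, hd3⟩ : ∃ d : F, d ≠ 0 ∧ d + 1 ≠ 0 ∧ c + d ≠ 0 ∧ c + d + 1 ≠ 0 := by
    haveI := Fintype.ofFinite F
    rw [Nat.card_eq_fintype_card] at hq
    by_contra h
    push Not at h
    have := (Finset.card_le_card (s := (Finset.univ : Finset F)) (t := {0, -1, -c, -c - 1}) fun x _ => by
      simp only [Finset.mem_insert, Finset.mem_singleton]
      by_contra hne
      push Not at hne
      exact hne.2.2.2 (eq_sub_of_add_eq (by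
        linear_combination h x hne.1 (fun e => hne.2.1 (eq_neg_of_add_eq_zero_left e))
          (fun e => hne.2.2.1 (eq_neg_of_add_eq_zero_right e))))).trans Finset.card_le_four
    rw [Finset.card_univ] at this
    omega
  have h := hM (c + d) hd2 hd3
  rw [add_smul, add_smul, hl, hr] at h
  have c2 := Subgroup.mem_center_iff.1 (hcen (c • v) w) ⁅L v, L (d • w)⁆
  have h2 : (⁅L v, L w⁆)⁻¹ * (⁅L v, L w⁆)⁻¹ = (⁅L v, L w⁆)⁻¹ := by
    conv_rhs => rw [← h]
    rw [← hM c hc0 hc1]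
    conv_lhs => arg 2; rw [hM c hc0 hc1, ← hM d hd0 hd1]
    calc ⁅L v, L (c • w)⁆ * ⁅L (c • v), L w⁆ * (⁅L v, L (d • w)⁆ * ⁅L (d • v), L w⁆)
        = ⁅L v, L (c • w)⁆ * (⁅L (c • v), L w⁆ * ⁅L v, L (d • w)⁆) * ⁅L (d • v), L w⁆ := by group
      _ = ⁅L v, L (c • w)⁆ * (⁅L v, L (d • w)⁆ * ⁅L (c • v), L w⁆) * ⁅L (d • v), L w⁆ := by rw [c2]
      _ = _ := by group
  have h3 : ⁅L v, L w⁆ = 1 := inv_eq_one.1 (mul_eq_left.1 h2)
  rw [← commutatorElement_eq_one_iff_mul_comm, ← h3]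
  exact Schur.commutator_congr hc (by rw [ha, hL]) (by rw [hb, hL])

/-- A parametrised cyclic group has commutative preimage. -/
theorem commute_of_prime {p : ℕ} [CharP F p] [Fact p.Prime] [Finite F] (hc : σ.ker ≤ Subgroup.center Γ)
    (hs : Function.Surjective σ)
    (hF : Nat.card F = p) (hone : φ 0 = 1) (hadd : ∀ v w, φ (v + w) = φ v * φ w)
    (hdim : ∀ v w : V, v ≠ 0 → ∃ c : F, w = c • v)
    {a b : Γ} {v w : V} (ha : σ a = φ v) (hb : σ b = φ w) : a * b = b * a := by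
  by_cases hv : v = 0
  · rw [hv, hone] at ha
    exact ((Subgroup.mem_center_iff.1 (hc (MonoidHom.mem_ker.2 ha))) b).symm
  obtain ⟨c, rfl⟩ := hdim v w hv
  have hbij := (ZMod.castHom (dvd_refl p) F).injective.bijective_of_nat_card_le (by rw [Nat.card_zmod, hF])
  obtain ⟨z, rfl⟩ := hbij.surjective c
  have hn : ∀ n : ℕ, φ ((n : F) • v) = σ (a ^ n) := by
    intro n
    induction n with
    | zero => rw [Nat.cast_zero, zero_smul, hone, pow_zero, map_one]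
    | succ n ih => rw [Nat.cast_succ, add_smul, one_smul, hadd, ih, pow_succ, map_mul, ha]
  have e : σ b = σ (a ^ z.val) := by
    rw [hb, ← hn, ← map_natCast (ZMod.castHom (dvd_refl p) F), ZMod.natCast_zmod_val]
  rw [← commutatorElement_eq_one_iff_mul_comm, Schur.commutator_congr hc (g' := a) rfl e]
  exact commutatorElement_eq_one_iff_mul_comm.2 ((Commute.refl a).pow_right _).eq

end Abstract

variable {ι : Type} [Fintype ι] [DecidableEq ι] {F : Type u} [Field F] {Q : (ι → F) → F}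
variable {hQ : IsNondegenerateQuadraticForm Q} {m : ℕ} (P : Polar hQ m) {sh : Prop}

namespace Polar

/-- Diagonal with the given eigenvalues, trivial on the anisotropic part. -/
def IsDiag (g : GL ι F) (χ : Fin m ⊕ Fin m → F) : Prop :=
  g ∈ Cfsg.isometryGroup F Q ∧ (∀ a, (g : Matrix ι ι F) *ᵥ P.b a = χ a • P.b a) ∧
    ∀ w ∈ P.W, (g : Matrix ι ι F) *ᵥ w = w

theorem IsDiag.mul {P : Polar hQ m} {g h : GL ι F} {χ ψ : Fin m ⊕ Fin m → F} (hg : P.IsDiag g χ)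
    (hh : P.IsDiag h ψ) : P.IsDiag (g * h) (χ * ψ) := by
  refine ⟨mul_mem hg.1 hh.1, fun a => ?_, fun w hw => ?_⟩
  · rw [Units.val_mul, ← mulVec_mulVec, hh.2.1, mulVec_smul, hg.2.1, smul_smul, Pi.mul_apply, mul_comm]
  · rw [Units.val_mul, ← mulVec_mulVec, hh.2.2 w hw, hg.2.2 w hw]

theorem IsDiag.commute {P : Polar hQ m} {g h : GL ι F} {χ ψ : Fin m ⊕ Fin m → F} (hg : P.IsDiag g χ)
    (hh : P.IsDiag h ψ) : g * h = h * g := by
  refine P.gl_eq (fun a => ?_) fun w hw => ?_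
  · rw [(hg.mul hh).2.1, (hh.mul hg).2.1, mul_comm χ]
  · rw [(hg.mul hh).2.2 w hw, (hh.mul hg).2.2 w hw]

theorem IsDiag.isMono {P : Polar hQ m} {g : GL ι F} {χ : Fin m ⊕ Fin m → F} (hg : P.IsDiag g χ) :
    P.IsMono g 1 :=
  ⟨hg.1, fun a => ⟨χ a, by rw [Equiv.Perm.one_apply, hg.2.1]⟩, fun w hw => by rw [hg.2.2 w hw]; exact hw⟩

/-- The weight of a root. -/
def wt (χ : Fin m ⊕ Fin m → F) (s : Finset (Fin m ⊕ Fin m)) : F := ∏ x ∈ s, χ x

theorem IsDiag.conj {P : Polar hQ m} {g : GL ι F} {χ : Fin m ⊕ Fin m → F} (hg : P.IsDiag g χ)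
    {s : Finset (Fin m ⊕ Fin m)} {a : Fin m ⊕ Fin m} {v : ι → F} (h : P.Gen s a v)
    {e : GL ι F} (he : (e : Matrix ι ι F) = eichlerMat Q (P.b a) v) :
    ((g * e * g⁻¹ : GL ι F) : Matrix ι ι F) = eichlerMat Q (P.b a) (wt χ s • v) := by
  rw [show e = eichler hQ (P.q_b a) h.bform_eq_zero from Units.ext he,
    conj_eichler hQ hg.1 (P.q_b a) h.bform_eq_zero (by rw [mem_isometryGroup.1 hg.1, P.q_b])
      (by rw [isometry_b hQ hg.1, h.bform_eq_zero]) rfl rfl]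
  show eichlerMat Q _ _ = _
  rw [hg.2.1, eMat_smul_left hQ]
  rcases h with ⟨e', hv⟩ | ⟨c, t, h1, -, e', rfl⟩
  · rw [hg.2.2 v hv, e', wt, Finset.prod_singleton]
  · rw [mulVec_smul, hg.2.1, e', wt, Finset.prod_pair (Ne.symm h1), smul_smul, smul_smul, smul_smul]
    congr 2
    ring

theorem eMat_eq_one {s : Finset (Fin m ⊕ Fin m)} {a : Fin m ⊕ Fin m} {v : ι → F} (h : P.Gen s a v)
    (e : eichlerMat Q (P.b a) v = 1) : v = 0 := by
  have h' : (bform hQ v (P.b a.swap) - Q v * 1) • P.b a - (1 : F) • v = 0 := by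
    have := P.eichler_b_sub h.bform_eq_zero (P.b a.swap)
    rw [show ((eichler hQ (P.q_b a) h.bform_eq_zero : GL ι F) : Matrix ι ι F) = 1 from e, one_mulVec,
      sub_self, P.coord_b, if_pos rfl] at this
    exact this.symm
  rcases h with ⟨-, hv⟩ | ⟨c, t, h1, h2, -, rfl⟩
  · have := congrArg P.projW h'
    simpa [P.projW_b, P.projW_of_mem hv] using this
  · have := congrArg (P.coord c) h'
    have ht : t = 0 := by simpa [P.coord_b, h1] using this
    rw [ht, zero_smul]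

theorem exists_form {s : Root m sh} {g : GL ι F} (hg : g ∈ P.rootGroup s.1) :
    ∃ a v, P.Gen s.1 a v ∧ (g : Matrix ι ι F) = eichlerMat Q (P.b a) v := by
  rcases s.2 with ⟨a, c, h1, h2, e⟩ | ⟨-, a, e⟩
  · rw [e] at hg ⊢
    obtain ⟨t, ht⟩ := P.mem_rootGroup_long h1 h2 hg
    exact ⟨a, _, Or.inr ⟨c, t, h1, h2, rfl, rfl⟩, ht⟩
  · rw [e] at hg ⊢
    obtain ⟨v, hv, ht⟩ := P.mem_rootGroup_short hg
    exact ⟨a, v, Or.inl ⟨rfl, hv⟩, ht⟩

theorem Gen.smul {P : Polar hQ m} {s : Finset (Fin m ⊕ Fin m)} {a : Fin m ⊕ Fin m} {v : ι → F}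
    (h : P.Gen s a v) (k : F) : P.Gen s a (k • v) := by
  rcases h with ⟨e, hv⟩ | ⟨c, t, h1, h2, e, rfl⟩
  · exact Or.inl ⟨e, P.W.smul_mem k hv⟩
  · exact Or.inr ⟨c, k * t, h1, h2, e, by rw [smul_smul]⟩

theorem conj_rootGroup {g : GL ι F} {χ : Fin m ⊕ Fin m → F} (hg : P.IsDiag g χ) (s : Root m sh) {e : GL ι F}
    (he : e ∈ P.rootGroup s.1) : g * e * g⁻¹ ∈ P.rootGroup s.1 := by
  obtain ⟨a, v, h, hev⟩ := P.exists_form he
  exact Subgroup.subset_closure ⟨a, _, h.smul _, hg.conj h hev⟩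

/-- The eigenvalues of a diagonal element of a long `SL_2`. -/
def dchi (r : LongPair m) (t : Fˣ) (x : Fin m ⊕ Fin m) : F :=
  if x = r.α ∨ x = r.γ then (t : F) else if x = r.α.swap ∨ x = r.γ.swap then (t : F)⁻¹ else 1

theorem isDiag_long (r : LongPair m) (t : Fˣ) : P.IsDiag (r.hom P (slD t)) (dchi r t) := by
  refine ⟨r.hom_mem_isometry P _, fun a => ?_, fun w hw => ?_⟩
  · rw [LongPair.hom_mulVec, LongPair.lin_apply, slD_coe]
    simp only [P.coord_b, of_apply, cons_val', cons_val_zero, cons_val_one, cons_val_fin_one, empty_val', dchi]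
    have h1 := r.swap_ne'
    have h2 := r.swap_ne_swap
    have h3 := r.ne
    have h4 := r.ne_swap
    have h5 := swap_ne r.α
    have h6 := swap_ne r.γ
    by_cases ha : a = r.α
    · subst ha; simp [h1, h3, h5, Ne.symm h4]; module
    by_cases hb : a = r.γ
    · subst hb; simp [h3, h4, h6, Ne.symm h3, Ne.symm h4]; module
    by_cases hc : a = r.α.swap
    · subst hc; simp [h4, h2, h5, Ne.symm h5, Ne.symm h2, Ne.symm h4]; module
    by_cases hd : a = r.γ.swap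
    · subst hd; simp [h1, h2, Ne.symm h6, Ne.symm h1, Ne.symm h2, h6]; module
    simp [ha, hb, hc, hd, Ne.symm ha, Ne.symm hb, Ne.symm hc, Ne.symm hd]
  · rw [LongPair.hom_mulVec, LongPair.lin_apply]
    simp [P.coord_W hw]

variable [Finite F]

/-- The diagonal elements of `Ω`. -/
def diagSub : Subgroup ↥(omegaGL Q) where
  carrier := {g | ∃ χ, P.IsDiag (g : GL ι F) χ}
  one_mem' := ⟨fun _ => 1, one_mem _, fun a => by simp, fun w _ => by simp⟩
  mul_mem' := by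
    rintro g h ⟨χ, hg⟩ ⟨ψ, hh⟩
    exact ⟨χ * ψ, hg.mul hh⟩
  inv_mem' := by
    rintro g ⟨χ, hg⟩
    refine ⟨fun a => (χ a)⁻¹, inv_mem hg.1, fun a => ?_, fun w hw => ?_⟩
    · have hχ : χ a ≠ 0 := hg.isMono.ne_zero (by rw [Equiv.Perm.one_apply, hg.2.1])
      have h := congrArg ((((g⁻¹ : ↥(omegaGL Q)) : GL ι F) : Matrix ι ι F) *ᵥ ·) (hg.2.1 a)
      simp only [Subgroup.coe_inv, OrthGeo.inv_mulVec_cancel, mulVec_smul] at h
      rw [Subgroup.coe_inv]
      conv_rhs => rw [h, smul_smul, inv_mul_cancel₀ hχ, one_smul]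
    · conv_lhs => rw [← hg.2.2 w hw]
      rw [Subgroup.coe_inv, OrthGeo.inv_mulVec_cancel]

end Polar

namespace Nodes

variable [Finite F] {P} {p : ℕ} [CharP F p] [Fact p.Prime] (N : Nodes P p sh)

/-- The positive roots. -/
abbrev PosRoot (m : ℕ) (sh : Prop) : Type := {r : Root m sh // r.IsPos}

include N in
theorem lift_eq {k : ℕ} {g : GL ι F} (hg : g ∈ P.high sh k) (hgΩ : g ∈ omegaGL Q) :
    prΩ Q ⟨g, hgΩ⟩ ∈ (⨆ t : {t : PosRoot m sh // k ≤ t.1.height}, X P t.1.1 : Subgroup _) := by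
  refine mem_of_liftSub hgΩ ?_
  refine (iSup_le fun s => iSup_le fun hs => ?_ : P.high sh k ≤ _) hg
  refine le_liftSub (P.rootGroup_le_omega N.dim _) ?_
  exact le_iSup (fun t : {t : PosRoot m sh // k ≤ t.1.height} => X P t.1.1) ⟨⟨s, hs.1⟩, hs.2⟩

include N in
theorem sep_pos (r : PosRoot m sh) (x : Cfsg.POmega F Q) (hx : x ∈ X P r.1)
    (h : x ∈ (⨆ t : {t : PosRoot m sh // t ≠ r ∧ r.1.height ≤ t.1.height}, X P t.1.1 : Subgroup _)) : x = 1 := by
  obtain ⟨g, hg, rfl⟩ := hx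
  have hle : (⨆ t : {t : PosRoot m sh // t ≠ r ∧ r.1.height ≤ t.1.height}, X P t.1.1 : Subgroup _) ≤
      projSub Q (⨆ (s : Root m sh) (_ : s.IsPos ∧ s ≠ r.1 ∧ r.1.height ≤ s.height), P.rootGroup s.1) :=
    iSup_le fun t => projSub_mono (le_iSup₂_of_le
      (f := fun (s : Root m sh) (_ : s.IsPos ∧ s ≠ r.1 ∧ r.1.height ≤ s.height) => P.rootGroup s.1) t.1.1
      ⟨t.1.2, fun h => t.2.1 (Subtype.ext h), t.2.2⟩ le_rfl)
  obtain ⟨h', hh', e⟩ := hle h
  have hup : (⨆ (s : Root m sh) (_ : s.IsPos ∧ s ≠ r.1 ∧ r.1.height ≤ s.height), P.rootGroup s.1) ≤ P.up :=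
    iSup₂_le fun s hs => P.rootGroup_le_up hs.1
  have e' := prΩ_injOn hQ N.dim (P.up_isPGroup (p := p)) (hup hh') (P.rootGroup_le_up r.2 hg) e
  have h1 : (g : GL ι F) = 1 := P.root_sep sh r.2 hg (by rw [← e']; exact hh')
  rw [show g = 1 from Subtype.ext h1, map_one]

include N in
theorem free_of_wt {g : GL ι F} (hgΩ : g ∈ omegaGL Q) {χ : Fin m ⊕ Fin m → F} (hg : P.IsDiag g χ)
    (r : PosRoot m sh) (hw : Polar.wt χ r.1.1 ≠ 1) (x : Cfsg.POmega F Q) (hx : x ∈ X P r.1)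
    (h : prΩ Q ⟨g, hgΩ⟩ * x = x * prΩ Q ⟨g, hgΩ⟩) : x = 1 := by
  obtain ⟨e, he, rfl⟩ := hx
  have he' : (e : GL ι F) ∈ P.rootGroup r.1.1 := he
  rw [← mul_inv_eq_iff_eq_mul, ← map_mul, ← map_inv, ← map_mul] at h
  have hc := prΩ_injOn hQ N.dim (P.up_isPGroup (p := p)) (P.rootGroup_le_up r.2 (P.conj_rootGroup hg r.1 he'))
    (P.rootGroup_le_up r.2 he') h
  obtain ⟨a, v, hv, hev⟩ := P.exists_form he'
  have h1 := hg.conj hv hev
  rw [show g * (e : GL ι F) * g⁻¹ = (e : GL ι F) from congrArg Subtype.val hc, hev] at h1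
  have h2 : eichlerMat Q (P.b a) ((Polar.wt χ r.1.1 - 1) • v) = 1 := by
    have hb : bform hQ (P.b a) ((-1 : F) • v) = 0 := (hv.smul _).bform_eq_zero
    rw [sub_smul, one_smul, sub_eq_add_neg, ← neg_one_smul F v,
      ← eichlerMat_mul hQ (P.q_b a) (hv.smul _).bform_eq_zero hb, ← h1,
      eichlerMat_mul hQ (P.q_b a) hv.bform_eq_zero hb, neg_one_smul, add_neg_cancel, eichlerMat_zero hQ]
  have hv0 : v = 0 := (smul_eq_zero.1 (P.eMat_eq_one (hv.smul _) h2)).resolve_left (sub_ne_zero.2 hw)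
  have : (e : GL ι F) = 1 := Units.ext (by rw [hev, hv0, eichlerMat_zero hQ]; rfl)
  rw [show e = 1 from Subtype.ext this, map_one]

include N in
theorem fixes_of_wt {g : GL ι F} (hgΩ : g ∈ omegaGL Q) {χ : Fin m ⊕ Fin m → F} (hg : P.IsDiag g χ)
    (r : PosRoot m sh) (hw : Polar.wt χ r.1.1 = 1) (x : Cfsg.POmega F Q) (hx : x ∈ X P r.1) :
    prΩ Q ⟨g, hgΩ⟩ * x = x * prΩ Q ⟨g, hgΩ⟩ := by
  obtain ⟨e, he, rfl⟩ := hx
  rw [← map_mul, ← map_mul]
  congr 1
  refine Subtype.ext ?_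
  show g * (e : GL ι F) = (e : GL ι F) * g
  obtain ⟨a, v, hv, hev⟩ := P.exists_form (show (e : GL ι F) ∈ P.rootGroup r.1.1 from he)
  rw [← mul_inv_eq_iff_eq_mul]
  refine Units.ext ?_
  rw [hg.conj hv hev, hw, one_smul, hev]

theorem exists_tau (hm : 3 ≤ m) {t : Fˣ} (ht : t ≠ 1) (r : Root m sh) :
    ∃ d : LongPair m, Polar.wt (Polar.dchi d t) r.1 = t := by
  rcases r.2 with ⟨a, c, h1, h2, e⟩ | ⟨-, a, e⟩
  · obtain ⟨k, hk⟩ : ∃ k : Fin m, Sum.inl k ∉ ({a, a.swap, c, c.swap} : Finset (Fin m ⊕ Fin m)) := by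
      let f : Fin m ⊕ Fin m → Fin m := Sum.elim id id
      obtain ⟨k, -, hk⟩ := Finset.exists_mem_notMem_of_card_lt_card (s := ({f a, f c} : Finset (Fin m)))
        (t := Finset.univ) (Finset.card_le_two.trans_lt (by simp; omega))
      refine ⟨k, ?_⟩
      rcases a with a | a <;> rcases c with c | c <;>
        simp_all [f]
    simp only [Finset.mem_insert, Finset.mem_singleton, not_or] at hk
    refine ⟨⟨a, Sum.inl k, hk.1, hk.2.1⟩, ?_⟩
    rw [e, Polar.wt, Finset.prod_pair (Ne.symm h1)]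
    have hcs : c ≠ Sum.swap (Sum.inl k) := fun h => hk.2.2.2 (by rw [h, Sum.swap_swap])
    simp [Polar.dchi, h1, h2, Ne.symm hk.2.2.1, hcs, show c ≠ Sum.inr k from hcs]
  · obtain ⟨k, hk⟩ : ∃ k : Fin m, Sum.inl k ∉ ({a, a.swap} : Finset (Fin m ⊕ Fin m)) := by
      let f : Fin m ⊕ Fin m → Fin m := Sum.elim id id
      obtain ⟨k, -, hk⟩ := Finset.exists_mem_notMem_of_card_lt_card (s := ({f a} : Finset (Fin m)))
        (t := Finset.univ) (by simp; omega)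
      refine ⟨k, ?_⟩
      rcases a with a | a <;> simp_all [f]
    simp only [Finset.mem_insert, Finset.mem_singleton, not_or] at hk
    refine ⟨⟨a, Sum.inl k, hk.1, hk.2⟩, ?_⟩
    rw [e, Polar.wt, Finset.prod_singleton]
    simp [Polar.dchi]

include N in
theorem mem_projDiag {g : GL ι F} (hgΩ : g ∈ omegaGL Q) {χ : Fin m ⊕ Fin m → F} (hg : P.IsDiag g χ) :
    prΩ Q ⟨g, hgΩ⟩ ∈ P.diagSub.map (prΩ Q) :=
  ⟨⟨g, hgΩ⟩, ⟨χ, hg⟩, rfl⟩

/-- The graded unipotent group of `PΩ`. -/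
noncomputable def graded (hm : 3 ≤ m) {t : Fˣ} (ht : t ≠ 1) : Graded (Cfsg.POmega F Q) where
  Φ := PosRoot m sh
  finite := by
    haveI : Finite (Root m sh) :=
      inferInstanceAs (Finite {s : Finset (Fin m ⊕ Fin m) // IsRoot sh s})
    infer_instance
  X r := X P r.1
  ht r := r.1.height
  ht_pos r := Root.height_pos r.2
  comm r s x hx y hy := by
    obtain ⟨x, hx, rfl⟩ := hx
    obtain ⟨y, hy, rfl⟩ := hy
    rw [← map_commutatorElement]
    exact N.lift_eq (P.root_comm sh r.2 s.2 hx hy) (⁅x, y⁆).2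
  sep := N.sep_pos
  T := P.diagSub.map (prΩ Q)
  T_comm := by
    rintro _ ⟨a, ⟨χ, ha⟩, rfl⟩ _ ⟨b, ⟨ψ, hb⟩, rfl⟩
    rw [← map_mul, ← map_mul]
    exact congrArg _ (Subtype.ext (ha.commute hb))
  T_mem := by
    rintro _ ⟨a, ⟨χ, ha⟩, rfl⟩ r _ ⟨e, he, rfl⟩
    rw [← map_mul, ← map_inv, ← map_mul]
    exact ⟨_, P.conj_rootGroup ha r.1 he, rfl⟩
  tau r := prΩ Q ⟨_, (exists_tau hm ht r.1).choose.hom_mem_omega P N.dim (slD t)⟩
  tau_mem r := N.mem_projDiag _ (P.isDiag_long _ t)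
  tau_free r := N.free_of_wt _ (P.isDiag_long _ t) r (by
    rw [(exists_tau hm ht r.1).choose_spec, ne_eq, Units.val_eq_one]
    exact ht)

/-- The cases of a pair of positive roots. -/
def Separated (P : Polar hQ m) (r s : Root m sh) : Prop :=
  ∃ g : GL ι F, g ∈ omegaGL Q ∧ ∃ χ, P.IsDiag g χ ∧ Polar.wt χ r.1 = 1 ∧ Polar.wt χ s.1 ≠ 1

theorem pair_of_separated (hm : 3 ≤ m) {t : Fˣ} (ht : t ≠ 1) {r s : PosRoot m sh}
    (h : Separated P r.1 s.1) :
    ∃ a ∈ (N.graded hm ht).T, (N.graded hm ht).Fixes a r ∧ (N.graded hm ht).Free a s := by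
  obtain ⟨g, hgΩ, χ, hg, h1, h2⟩ := h
  exact ⟨prΩ Q ⟨g, hgΩ⟩, N.mem_projDiag hgΩ hg, N.fixes_of_wt hgΩ hg r h1, N.free_of_wt hgΩ hg s h2⟩

include N in
/-- Parametrisation of a root group. -/
theorem exists_param (r : PosRoot m sh) :
    ∃ (V : Submodule F (ι → F)) (φ : V → Cfsg.POmega F Q),
      φ 0 = 1 ∧ (∀ v w, φ (v + w) = φ v * φ w) ∧ (∀ x ∈ X P r.1, ∃ v, φ v = x) ∧
      (∀ (g : GL ι F) (hgΩ : g ∈ omegaGL Q) (χ : Fin m ⊕ Fin m → F), P.IsDiag g χ → ∀ v,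
        prΩ Q ⟨g, hgΩ⟩ * φ v * (prΩ Q ⟨g, hgΩ⟩)⁻¹ = φ (Polar.wt χ r.1.1 • v)) ∧
      ((∀ v w : P.W, v ≠ 0 → ∃ c : F, w = c • v) → ∀ v w : V, v ≠ 0 → ∃ c : F, w = c • v) := by
  obtain ⟨a, V, hgen, hsurj, hdim⟩ : ∃ (a : Fin m ⊕ Fin m) (V : Submodule F (ι → F)),
      (∀ v ∈ V, P.Gen r.1.1 a v) ∧
      (∀ g ∈ P.rootGroup r.1.1, ∃ v ∈ V, (g : Matrix ι ι F) = eichlerMat Q (P.b a) v) ∧
      ((∀ v w : P.W, v ≠ 0 → ∃ c : F, w = c • v) → ∀ v w : V, v ≠ 0 → ∃ c : F, w = c • v) := by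
    rcases r.1.2 with ⟨a, c, h1, h2, e⟩ | ⟨-, a, e⟩
    · refine ⟨a, Submodule.span F {P.b c}, fun v hv => ?_, fun g hg => ?_, fun _ v w hv => ?_⟩
      · obtain ⟨t, rfl⟩ := Submodule.mem_span_singleton.1 hv
        exact Or.inr ⟨c, t, h1, h2, e, rfl⟩
      · rw [e] at hg
        obtain ⟨t, ht⟩ := P.mem_rootGroup_long h1 h2 hg
        exact ⟨_, Submodule.mem_span_singleton.2 ⟨t, rfl⟩, ht⟩
      · obtain ⟨s, hs⟩ := Submodule.mem_span_singleton.1 v.2
        obtain ⟨t, ht⟩ := Submodule.mem_span_singleton.1 w.2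
        have hs0 : s ≠ 0 := fun h => hv (Subtype.ext (by rw [← hs, h, zero_smul]; rfl))
        exact ⟨t * s⁻¹, Subtype.ext (by
          rw [Submodule.coe_smul, ← hs, smul_smul, mul_assoc, inv_mul_cancel₀ hs0, mul_one, ht])⟩
    · refine ⟨a, P.W, fun v hv => Or.inl ⟨e, hv⟩, fun g hg => ?_, fun h => h⟩
      rw [e] at hg
      exact P.mem_rootGroup_short hg
  refine ⟨V, fun v => prΩ Q ⟨eichler hQ (P.q_b a) (hgen v v.2).bform_eq_zero,
    eichler_mem_omega hQ N.dim _ _⟩, ?_, fun v w => ?_, fun x hx => ?_, fun g hgΩ χ hg v => ?_, hdim⟩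
  · rw [← map_one (prΩ Q)]
    refine congrArg _ (Subtype.ext (Units.ext ?_))
    show eichlerMat Q _ ((0 : V) : ι → F) = _
    rw [Submodule.coe_zero, eichlerMat_zero hQ]
    rfl
  · rw [← map_mul]
    refine congrArg _ (Subtype.ext (Units.ext ?_))
    show eichlerMat Q _ ((v + w : V) : ι → F) = eichlerMat Q _ _ * eichlerMat Q _ _
    rw [Submodule.coe_add, eichlerMat_mul hQ (P.q_b a) (hgen v v.2).bform_eq_zero (hgen w w.2).bform_eq_zero]
  · obtain ⟨g, hg, rfl⟩ := hx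
    obtain ⟨v, hv, e⟩ := hsurj _ hg
    exact ⟨⟨v, hv⟩, congrArg _ (Subtype.ext (Units.ext e.symm))⟩
  · rw [← map_mul, ← map_inv, ← map_mul]
    exact congrArg _ (Subtype.ext (Units.ext (hg.conj (hgen v v.2)
      (e := eichler hQ (P.q_b a) (hgen v v.2).bform_eq_zero) rfl)))

variable {Γ : Type u} [Group Γ] [Finite Γ] {σ : Γ →* Cfsg.POmega F Q} (hs : Function.Surjective σ)
  (hc : σ.ker ≤ Subgroup.center Γ)

include N hs hc in
theorem abelian_preimage (hm : 3 ≤ m) (hq : 5 ≤ Nat.card F ∨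
      (Nat.card F = p ∧ ∀ v w : P.W, v ≠ 0 → ∃ c : F, w = c • v))
    (r : PosRoot m sh) (a b : Γ) (ha : σ a ∈ X P r.1) (hb : σ b ∈ X P r.1) : a * b = b * a := by
  obtain ⟨V, φ, h0, hadd, hsurj, hconj, hdim⟩ := N.exists_param r
  obtain ⟨v, hv⟩ := hsurj _ ha
  obtain ⟨w, hw⟩ := hsurj _ hb
  rcases hq with hq | ⟨hF, hW⟩
  · refine commute_of_scalars φ hs hc hq hadd (fun c hc0 => ?_) hv.symm hw.symm
    by_cases hc1 : c = 1
    · exact ⟨1, fun v => by simp [hc1]⟩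
    obtain ⟨d, hd⟩ := exists_tau hm (t := Units.mk0 c hc0) (fun h => hc1 (congrArg Units.val h)) r.1
    exact ⟨prΩ Q ⟨_, d.hom_mem_omega P N.dim _⟩, fun v => by
      rw [hconj _ _ _ (P.isDiag_long d _), hd, Units.val_mk0]⟩
  · exact commute_of_prime φ hc hs hF h0 hadd (hdim hW) hv.symm hw.symm

include N hs hc in
/-- No part at the characteristic. -/
theorem ker_inf_commutator_p (hm : 3 ≤ m) {t : Fˣ} (ht : t ≠ 1) (hA : IsPGroup p σ.ker)
    (hperf : _root_.commutator (Cfsg.POmega F Q) = ⊤)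
    (hab : ∀ (r : PosRoot m sh) (a b : Γ), σ a ∈ X P r.1 → σ b ∈ X P r.1 → a * b = b * a)
    (hpair : ∀ r s : PosRoot m sh, r ≠ s → Separated P r.1 s.1 ∨ Separated P s.1 r.1 ∨
      ∀ a b : Γ, σ a ∈ X P r.1 → σ b ∈ X P s.1 → a * b = b * a) :
    σ.ker ⊓ _root_.commutator Γ = ⊥ := by
  haveI : Finite (Cfsg.POmega F Q) := Finite.of_surjective σ hs
  have h := Graded.ker_inf_commutator (D := N.graded hm ht) hs hc hab fun r s hrs => by
    rcases hpair r s hrs with h | h | h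
    · exact Or.inl (N.pair_of_separated hm ht h)
    · exact Or.inr (Or.inl (N.pair_of_separated hm ht h))
    · exact Or.inr (Or.inr h)
  have hU : N.frame.posSub = (N.graded hm ht).upper 1 := by
    refine le_antisymm (iSup₂_le fun r hr => ?_) (iSup_le fun t => ?_)
    · exact (N.graded hm ht).X_le_upper (r := ⟨r, hr⟩) (Root.height_pos hr)
    · exact N.frame.le_posSub t.1.2
  refine SchurClassical.ker_inf_commutator_of_index (Fact.out) hs hc hA _ (SchurOrth.not_dvd_index_posSub N.frame hperf) ?_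
  rw [hU]
  exact h

end Nodes

end CfsgLib.SchurOrth
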