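import Mathlib
import Cfsg.Agent.SchurOrth.PPart

/-!
Separating pairs of positive roots by diagonal elements, and the remaining pairs over three elements.
-/

set_option autoImplicit false
set_option linter.unusedSectionVars false
set_option maxHeartbeats 400000

namespace CfsgLib.SchurOrth

open Cfsg.Geo CfsgLib.OrthGeo Matrix
open scoped MatrixGroups commutatorElement

universe u

variable {ι : Type} [Fintype ι] [DecidableEq ι] {F : Type u} [Field F] {Q : (ι → F) → F}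
variable {hQ : IsNondegenerateQuadraticForm Q} {m : ℕ} {P : Polar hQ m} {sh : Prop}

/-- The index of a frame vector. -/
def idx {m : ℕ} : Fin m ⊕ Fin m → Fin m := Sum.elim id id

theorem idx_eq {a b : Fin m ⊕ Fin m} : idx a = idx b ↔ a = b ∨ a = b.swap := by
  rcases a with a | a <;> rcases b with b | b <;> simp [idx]

theorem idx_inl (k : Fin m) : idx (Sum.inl k : Fin m ⊕ Fin m) = k := rfl

theorem idx_inr (k : Fin m) : idx (Sum.inr k : Fin m ⊕ Fin m) = k := rfl

/-- A pair with a given index outside. -/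
def pairWith (a : Fin m ⊕ Fin m) (k : Fin m) (h : k ≠ idx a) : LongPair m where
  α := a
  γ := Sum.inl k
  ne e := h (by rw [← e, idx_inl])
  ne_swap e := h (by rw [← idx_inl k, e]; cases a <;> rfl)

/-- A pair with a given index outside, the other half. -/
def pairWith' (a : Fin m ⊕ Fin m) (k : Fin m) (h : k ≠ idx a) : LongPair m where
  α := a
  γ := Sum.inr k
  ne e := h (by rw [← e, idx_inr])
  ne_swap e := h (by rw [← idx_inr k, e]; cases a <;> rfl)

theorem dchi_of_idx_ne (r : LongPair m) (t : Fˣ) {x : Fin m ⊕ Fin m} (h1 : idx x ≠ idx r.α)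
    (h2 : idx x ≠ idx r.γ) : Polar.dchi r t x = 1 := by
  rw [ne_eq, idx_eq, not_or] at h1 h2
  simp [Polar.dchi, h1.1, h1.2, h2.1, h2.2]

theorem dchi_α (r : LongPair m) (t : Fˣ) : Polar.dchi r t r.α = (t : F) := by simp [Polar.dchi]

theorem wt_eq_one {χ : Fin m ⊕ Fin m → F} {s : Finset (Fin m ⊕ Fin m)} (h : ∀ x ∈ s, χ x = 1) :
    Polar.wt χ s = 1 := Finset.prod_eq_one h

theorem wt_eq_single {χ : Fin m ⊕ Fin m → F} {s : Finset (Fin m ⊕ Fin m)} {a : Fin m ⊕ Fin m} (ha : a ∈ s)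
    (h : ∀ x ∈ s, x ≠ a → χ x = 1) : Polar.wt χ s = χ a :=
  Finset.prod_eq_single a h fun h' => absurd ha h'

theorem Root.idx_injOn (s : Root m sh) {x y : Fin m ⊕ Fin m} (hx : x ∈ s.1) (hy : y ∈ s.1)
    (h : idx x = idx y) : x = y := by
  rcases s.2 with ⟨a, c, h1, h2, e⟩ | ⟨-, a, e⟩
  · rw [e, Finset.mem_insert, Finset.mem_singleton] at hx hy
    rcases hx with rfl | rfl <;> rcases hy with rfl | rfl <;> try rfl
    all_goals rcases idx_eq.1 h with e' | e'
    exacts [absurd e'.symm h1, absurd (by rw [e', Sum.swap_swap]) h2, absurd e' h1, absurd e' h2]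
  · rw [e, Finset.mem_singleton] at hx hy
    rw [hx, hy]

theorem Root.card_idx (s : Root m sh) : (s.1.image idx).card ≤ 2 := by
  refine (Finset.card_image_le).trans ?_
  rcases s.2 with ⟨a, c, -, -, e⟩ | ⟨-, a, e⟩ <;> rw [e]
  · exact Finset.card_le_two
  · simp

/-- Two positive roots with the same indices. -/
theorem same_indices {r s : Root m sh} (hr : r.IsPos) (hs : s.IsPos) (hne : r ≠ s)
    (h1 : ∀ x ∈ s.1, ∃ y ∈ r.1, idx x = idx y) (h2 : ∀ x ∈ r.1, ∃ y ∈ s.1, idx x = idx y) :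
    ∃ a c, c ≠ a ∧ c ≠ a.swap ∧ r.1 = {a, c} ∧ s.1 = {a, c.swap} := by
  rcases r.2 with ⟨a, c, hca, hcb, e⟩ | ⟨-, a, e⟩
  · have hs2 : ∀ x ∈ s.1, x ∈ ({a, a.swap, c, c.swap} : Finset (Fin m ⊕ Fin m)) := fun x hx => by
      obtain ⟨y, hy, hxy⟩ := h1 x hx
      rw [e, Finset.mem_insert, Finset.mem_singleton] at hy
      rcases hy with rfl | rfl <;> rcases idx_eq.1 hxy with rfl | rfl <;> simp
    obtain ⟨x, hx, hxa⟩ := h2 a (by rw [e]; simp)
    obtain ⟨y, hy, hyc⟩ := h2 c (by rw [e]; simp)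
    have hxy : x ≠ y := fun h => by
      rw [← h, ← hxa] at hyc
      rcases idx_eq.1 hyc with h' | h'
      exacts [hca h', hcb h']
    have hse : s.1 = {x, y} := by
      refine (Finset.eq_of_subset_of_card_le (fun z hz => ?_) ?_).symm
      · rw [Finset.mem_insert, Finset.mem_singleton] at hz
        rcases hz with rfl | rfl <;> assumption
      · rw [Finset.card_pair hxy]
        rcases s.2 with ⟨p, q, -, -, e'⟩ | ⟨-, p, e'⟩ <;> rw [e']
        · exact Finset.card_le_two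
        · simp
    rcases idx_eq.1 hxa with e1 | e1 <;> rcases idx_eq.1 hyc with e2 | e2
    · exact absurd (Subtype.ext (by rw [e, hse, e1, e2])) hne
    · exact ⟨a, c, hca, hcb, e, by rw [hse, e1, e2, Sum.swap_swap]⟩
    · refine ⟨c, a, Ne.symm hca, fun h => hcb (by rw [h, Sum.swap_swap]), by rw [e, Finset.pair_comm], ?_⟩
      rw [hse, e1, e2, Sum.swap_swap, Finset.pair_comm]
    · exfalso
      refine (Root.isPos_neg r).1 hr ?_
      rw [show r.neg = s from Subtype.ext (by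
        rw [hse]
        show r.1.map _ = _
        rw [e, e1, e2]
        simp)]
      exact hs
  · exfalso
    obtain ⟨x, hx, hxa⟩ := h2 a (by rw [e]; simp)
    have hse : s.1 = {x} := Finset.eq_singleton_iff_unique_mem.2 ⟨hx, fun z hz => s.idx_injOn hz hx (by
      obtain ⟨y, hy, hzy⟩ := h1 z hz
      rw [e, Finset.mem_singleton] at hy
      rw [hzy, hy, hxa])⟩
    rcases idx_eq.1 hxa with rfl | rfl
    · exact hne (Subtype.ext (e.trans hse.symm))
    · refine (Root.isPos_neg r).1 hr ?_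
      rw [show r.neg = s from Subtype.ext (by
        rw [hse]
        show r.1.map _ = _
        rw [e]
        simp)]
      exact hs

/-- Two positive roots have an index not shared, or the same indices. -/
theorem pair_cases {r s : Root m sh} (hr : r.IsPos) (hs : s.IsPos) (hne : r ≠ s) :
    (∃ a ∈ s.1, ∀ x ∈ r.1, idx x ≠ idx a) ∨ (∃ a ∈ r.1, ∀ x ∈ s.1, idx x ≠ idx a) ∨
      ∃ a c, c ≠ a ∧ c ≠ a.swap ∧ r.1 = {a, c} ∧ s.1 = {a, c.swap} := by
  by_cases h1 : ∃ a ∈ s.1, ∀ x ∈ r.1, idx x ≠ idx a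
  · exact Or.inl h1
  by_cases h2 : ∃ a ∈ r.1, ∀ x ∈ s.1, idx x ≠ idx a
  · exact Or.inr (Or.inl h2)
  push Not at h1 h2
  exact Or.inr (Or.inr (same_indices hr hs hne
    (fun x hx => (h1 x hx).imp fun y hy => ⟨hy.1, hy.2.symm⟩)
    (fun x hx => (h2 x hx).imp fun y hy => ⟨hy.1, hy.2.symm⟩)))

variable [Finite F] {p : ℕ} [CharP F p] [Fact p.Prime] (N : Nodes P p sh)

include N in
theorem separated_of_free_index {t : Fˣ} (ht : (t : F) * t ≠ 1) (hm : 3 ≤ m) {r s : Root m sh}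
    {a : Fin m ⊕ Fin m} (ha : a ∈ s.1) (hna : ∀ x ∈ r.1, idx x ≠ idx a) : Nodes.Separated P r s := by
  obtain ⟨k, -, hk⟩ := Finset.exists_mem_notMem_of_card_lt_card (s := ({idx a} : Finset (Fin m)))
    (t := Finset.univ) (by simp; omega)
  rw [Finset.mem_singleton] at hk
  let d1 := pairWith a k hk
  let d2 := pairWith' a k hk
  refine ⟨_, mul_mem (d1.hom_mem_omega P N.dim (slD t)) (d2.hom_mem_omega P N.dim (slD t)), _,
    (P.isDiag_long d1 t).mul (P.isDiag_long d2 t), ?_, ?_⟩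
  · have hone : ∀ x : Fin m ⊕ Fin m, idx x ≠ idx a → (Polar.dchi d1 t * Polar.dchi d2 t) x = 1 := by
      intro x hx
      rw [ne_eq, idx_eq, not_or] at hx
      rw [Pi.mul_apply]
      rcases x with x | x <;> by_cases hxk : x = k <;>
        simp_all [Polar.dchi, d1, d2, pairWith, pairWith']
    exact wt_eq_one fun x hx => hone x (hna x hx)
  · have hone : ∀ x : Fin m ⊕ Fin m, idx x ≠ idx a → (Polar.dchi d1 t * Polar.dchi d2 t) x = 1 := by
      intro x hx
      rw [ne_eq, idx_eq, not_or] at hx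
      rw [Pi.mul_apply]
      rcases x with x | x <;> by_cases hxk : x = k <;>
        simp_all [Polar.dchi, d1, d2, pairWith, pairWith']
    rw [wt_eq_single ha fun x hx hne => hone x fun h => hne (s.idx_injOn hx ha h), Pi.mul_apply,
      show Polar.dchi d1 t a = (t : F) from dchi_α d1 t, show Polar.dchi d2 t a = (t : F) from dchi_α d2 t]
    exact ht

include N in
theorem separated_of_outside {t : Fˣ} (ht : (t : F) ≠ 1) {r s : Root m sh} {a : Fin m ⊕ Fin m} (ha : a ∈ s.1)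
    (hna : ∀ x ∈ r.1, idx x ≠ idx a) {k : Fin m} (hk : k ∉ r.1.image idx ∪ s.1.image idx) :
    Nodes.Separated P r s := by
  rw [Finset.mem_union, not_or] at hk
  have hka : k ≠ idx a := fun h => hk.2 (h ▸ Finset.mem_image_of_mem _ ha)
  let d := pairWith a k hka
  refine ⟨_, d.hom_mem_omega P N.dim (slD t), _, P.isDiag_long d t, ?_, ?_⟩
  · exact wt_eq_one fun x hx => dchi_of_idx_ne d t (hna x hx)
      fun h => hk.1 (Finset.mem_image.2 ⟨x, hx, h.trans (idx_inl k)⟩)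
  · rw [wt_eq_single ha fun x hx hne => dchi_of_idx_ne d t (fun h => hne (s.idx_injOn hx ha h))
      fun h => hk.2 (Finset.mem_image.2 ⟨x, hx, h.trans (idx_inl k)⟩), show Polar.dchi d t a = (t : F) from dchi_α d t]
    exact ht

include N in
theorem separated_of_same {t : Fˣ} (ht : (t : F) * t ≠ 1) {r s : Root m sh} {a c : Fin m ⊕ Fin m}
    (h1 : c ≠ a) (h2 : c ≠ a.swap) (hr : r.1 = {a, c}) (hs : s.1 = {a, c.swap}) :
    Nodes.Separated P r s := by
  have h1' : c.swap ≠ a := fun h => h2 (by rw [← h, Sum.swap_swap])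
  have h2' : c.swap ≠ a.swap := fun h => h1 (by rw [← Sum.swap_swap c, h, Sum.swap_swap])
  let d : LongPair m := ⟨a, c.swap, h1', h2'⟩
  refine ⟨_, d.hom_mem_omega P N.dim (slD t), _, P.isDiag_long d t, ?_, ?_⟩
  · rw [hr, Polar.wt, Finset.prod_pair (Ne.symm h1)]
    simp [Polar.dchi, d, h1, h2, Ne.symm (swap_ne c)]
  · rw [hs, Polar.wt, Finset.prod_pair (Ne.symm h1')]
    simp [Polar.dchi, d]
    exact ht

include N in
/-- All pairs are separated when some scalar has square different from one. -/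
theorem pair_sq {t : Fˣ} (ht : (t : F) * t ≠ 1) (hm : 3 ≤ m) {r s : Nodes.PosRoot m sh} (hne : r ≠ s) :
    Nodes.Separated P r.1 s.1 ∨ Nodes.Separated P s.1 r.1 := by
  rcases pair_cases r.2 s.2 (fun h => hne (Subtype.ext h)) with ⟨a, ha, h⟩ | ⟨a, ha, h⟩ | ⟨a, c, h1, h2, e1, e2⟩
  · exact Or.inl (separated_of_free_index N ht hm ha h)
  · exact Or.inr (separated_of_free_index N ht hm ha h)
  · exact Or.inl (separated_of_same N ht h1 h2 e1 e2)

section three

variable {Γ : Type u} [Group Γ] {σ : Γ →* Cfsg.POmega F Q} (hs : Function.Surjective σ)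
  (hc : σ.ker ≤ Subgroup.center Γ)

include N hs hc in
theorem disjoint_commute (h2 : (2 : F) ≠ 0) (hsh : sh) {r s : Nodes.PosRoot m sh} {a c d e : Fin m ⊕ Fin m}
    (hca : c ≠ a) (hcb : c ≠ a.swap) (hed : e ≠ d) (hes : e ≠ d.swap) (hr : r.1.1 = {a, c})
    (hse : s.1.1 = {e, d}) (hd1 : idx d ≠ idx a) (hd2 : idx d ≠ idx c) (he1 : idx e ≠ idx a)
    (he2 : idx e ≠ idx c) {x y : Γ} (hx : σ x ∈ Nodes.X P r.1) (hy : σ y ∈ Nodes.X P s.1) :
    x * y = y * x := by
  obtain ⟨u, hu, hu0⟩ := N.sh_ne hsh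
  have hQu : Q u ≠ 0 := fun h => hu0 (P.eq_zero_of_W hu h)
  have hde : d ≠ e.swap := fun h => hes (by rw [h, Sum.swap_swap])
  obtain ⟨gy, hgy, ey⟩ := hy
  obtain ⟨gx, hgx, ex⟩ := hx
  have hgy' : (gy : GL ι F) ∈ P.rootGroup {e, d} := hse ▸ hgy
  obtain ⟨k, hk⟩ := P.mem_rootGroup_long (Ne.symm hed) hde hgy'
  obtain ⟨t, ht⟩ := P.mem_rootGroup_long hca hcb (show (gx : GL ι F) ∈ P.rootGroup {a, c} from hr ▸ hgx)
  have hb2 : bform hQ u u ≠ 0 := by rw [b_self hQ]; exact mul_ne_zero h2 hQu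
  obtain ⟨w, hw⟩ : ∃ w, w = (k * (bform hQ u u)⁻¹) • u := ⟨_, rfl⟩
  have hwW : w ∈ P.W := hw ▸ P.W.smul_mem _ hu
  have hbw : bform hQ u w = k := by
    rw [hw, map_smul, smul_eq_mul, inv_mul_cancel_right₀ hb2]
  let g1 : ↥(omegaGL Q) := ⟨eichler hQ (P.q_b d) (P.bform_b_W hu d), eichler_mem_omega hQ N.dim _ _⟩
  let g2 : ↥(omegaGL Q) := ⟨eichler hQ (P.q_b e) (P.bform_b_W hwW e), eichler_mem_omega hQ N.dim _ _⟩
  have hfix : ∀ z : Fin m ⊕ Fin m, idx z ≠ idx a → idx z ≠ idx c →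
      ((gx : GL ι F) : Matrix ι ι F) *ᵥ P.b z = P.b z := fun z z1 z2 => by
    refine P.rootGroup_fix (s := {a, c}) ?_ (hr ▸ hgx)
    rw [ne_eq, idx_eq, not_or] at z1 z2
    simp only [Finset.mem_insert, Finset.mem_singleton]
    rintro (h | h)
    · exact z1.2 (by rw [← h, Sum.swap_swap])
    · exact z2.2 (by rw [← h, Sum.swap_swap])
  have hcom : ∀ (z : Fin m ⊕ Fin m) (v : ι → F) (hv : v ∈ P.W), idx z ≠ idx a → idx z ≠ idx c →
      Commute (σ x) (prΩ Q ⟨eichler hQ (P.q_b z) (P.bform_b_W hv z), eichler_mem_omega hQ N.dim _ _⟩) := by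
    intro z v hv z1 z2
    rw [← ex, Commute, SemiconjBy, ← map_mul, ← map_mul]
    congr 1
    refine Subtype.ext ?_
    show (gx : GL ι F) * _ = _ * (gx : GL ι F)
    have hgI := omegaGL_le gx.2
    rw [← mul_inv_eq_iff_eq_mul, conj_eichler hQ hgI (P.q_b z) (P.bform_b_W hv z)
      (by rw [mem_isometryGroup.1 hgI, P.q_b]) (by rw [isometry_b hQ hgI, P.bform_b_W hv]) rfl rfl]
    refine Units.ext ?_
    show eichlerMat Q _ _ = eichlerMat Q (P.b z) v
    rw [hfix z z1 z2, ht, eichlerMat_mulVec hQ, map_smul, LinearMap.smul_apply, P.bform_b_W hv,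
      P.bform_b_W hv]
    congr 1
    module
  have hy' : σ y = ⁅prΩ Q g1, prΩ Q g2⁆ := by
    rw [← ey, ← map_commutatorElement]
    refine congrArg _ (Subtype.ext (Units.ext ?_))
    show ((gy : GL ι F) : Matrix ι ι F) = ((⁅(g1 : GL ι F), (g2 : GL ι F)⁆ : GL ι F) : Matrix ι ι F)
    have hfd : ((g1 : GL ι F) : Matrix ι ι F) *ᵥ P.b e = P.b e := by
      rw [P.short_apply_b hu, if_neg hes]
    have hfw : ((g1 : GL ι F) : Matrix ι ι F) *ᵥ w = w + k • P.b d := by
      rw [P.short_apply_W _ hwW, hbw]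
    have hconj : ((g1 : GL ι F) * (g2 : GL ι F) * (g1 : GL ι F)⁻¹) =
        (gy : GL ι F) * (g2 : GL ι F) := by
      rw [conj_eichler hQ (omegaGL_le g1.2) (P.q_b e) (P.bform_b_W hwW e)
        (by rw [hfd, P.q_b]) (by rw [isometry_b hQ (omegaGL_le g1.2), P.bform_b_W hwW]) rfl rfl]
      refine Units.ext ?_
      show eichlerMat Q _ _ = ((gy : GL ι F) : Matrix ι ι F) * eichlerMat Q (P.b e) w
      rw [hfd, hfw, hk, add_comm, eichlerMat_mul hQ (P.q_b e)
        (by rw [map_smul, P.b_b, if_neg hde, smul_zero]) (P.bform_b_W hwW e)]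
    rw [commutatorElement_def, hconj, mul_inv_cancel_right]
  obtain ⟨l1, hl1⟩ := hs (prΩ Q g1)
  obtain ⟨l2, hl2⟩ := hs (prΩ Q g2)
  have hyk : σ y = σ ⁅l1, l2⁆ := by rw [map_commutatorElement, hl1, hl2, hy']
  rw [← commutatorElement_eq_one_iff_mul_comm, Schur.commutator_congr hc (g' := x) rfl hyk,
    commutatorElement_eq_one_iff_mul_comm]
  refine commute_commutator hc ?_ ?_
  · rw [hl1]; exact hcom d u hu hd1 hd2
  · rw [hl2]; exact hcom e w hwW he1 he2

end three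

section same

variable (S : ShortData P) (M : Nodes P p True)
variable {Γ : Type u} [Group Γ] {σ : Γ →* Cfsg.POmega F Q} (hs : Function.Surjective σ)
  (hc : σ.ker ≤ Subgroup.center Γ)

include S M hs hc in
theorem same_commute (h3 : Nat.card F = 3) {r s : Nodes.PosRoot m True} {a c : Fin m ⊕ Fin m}
    (hca : c ≠ a) (hcb : c ≠ a.swap) (hr : r.1.1 = {a, c}) (hse : s.1.1 = {a, c.swap}) {x y : Γ}
    (hx : σ x ∈ Nodes.X P r.1) (hy : σ y ∈ Nodes.X P s.1) : x * y = y * x := by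
  haveI : Fintype F := Fintype.ofFinite F
  haveI : Fact (Nat.Prime 3) := ⟨Nat.prime_three⟩
  haveI : CharP F 3 := charP_of_card_eq_prime (Nat.card_eq_fintype_card.symm.trans h3)
  have h1' : c.swap ≠ a := fun h => hcb (by rw [← h, Sum.swap_swap])
  have h2' : c.swap ≠ a.swap := fun h => hca (by rw [← Sum.swap_swap c, h, Sum.swap_swap])
  have hb : ∀ (t : F) (d : Fin m ⊕ Fin m), d ≠ a.swap → bform hQ (P.b a) (t • P.b d) = 0 := fun t d hd => by
    rw [map_smul, P.b_b, if_neg hd, smul_zero]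
  let φ : F → Cfsg.POmega F Q := fun t => prΩ Q ⟨eichler hQ (P.q_b a) (hb t c hcb), eichler_mem_omega hQ M.dim _ _⟩
  let ψ : F → Cfsg.POmega F Q :=
    fun t => prΩ Q ⟨eichler hQ (P.q_b a) (hb t c.swap h2'), eichler_mem_omega hQ M.dim _ _⟩
  have hφψ : ∀ t t', φ t * ψ t' = ψ t' * φ t := fun t t' => by
    show prΩ Q _ * prΩ Q _ = prΩ Q _ * prΩ Q _
    rw [← map_mul, ← map_mul]
    refine congrArg _ (Subtype.ext (Units.ext ?_))
    show eichlerMat Q _ _ * eichlerMat Q _ _ = eichlerMat Q _ _ * eichlerMat Q _ _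
    rw [eichlerMat_mul hQ (P.q_b a) (hb t c hcb) (hb t' c.swap h2'),
      eichlerMat_mul hQ (P.q_b a) (hb t' c.swap h2') (hb t c hcb), add_comm]
  have hφn : ∀ n : ℕ, φ (n : F) = φ 1 ^ n ∧ ψ (n : F) = ψ 1 ^ n := by
    intro n
    induction n with
    | zero =>
      constructor <;> rw [pow_zero, ← map_one (prΩ Q)] <;> show prΩ Q _ = prΩ Q 1 <;> refine congrArg _ (Subtype.ext (Units.ext ?_)) <;>
        show eichlerMat Q _ _ = _ <;> simp [eichlerMat_zero hQ]
    | succ n ih =>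
      constructor
      · rw [pow_succ, ← ih.1, ← map_mul]
        show prΩ Q _ = prΩ Q _
        refine congrArg _ (Subtype.ext (Units.ext ?_))
        show eichlerMat Q _ _ = eichlerMat Q _ _ * eichlerMat Q _ _
        rw [eichlerMat_mul hQ (P.q_b a) (hb _ c hcb) (hb _ c hcb), ← add_smul, Nat.cast_succ]
      · rw [pow_succ, ← ih.2, ← map_mul]
        show prΩ Q _ = prΩ Q _
        refine congrArg _ (Subtype.ext (Units.ext ?_))
        show eichlerMat Q _ _ = eichlerMat Q _ _ * eichlerMat Q _ _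
        rw [eichlerMat_mul hQ (P.q_b a) (hb _ c.swap h2') (hb _ c.swap h2'), ← add_smul, Nat.cast_succ]
  obtain ⟨l, hl⟩ := hs (φ 1)
  obtain ⟨l', hl'⟩ := hs (ψ 1)
  have hz : ⁅l, l'⁆ ∈ Subgroup.center Γ := pair_pow hc (by rw [hl, hl']; exact hφψ 1 1)
  -- the reflection exchanging the two roots
  have hwM := S.isMono_W c (one_ne_zero (α := S.K))
  have hwΩ : S.hom c (slW 1) ∈ omegaGL Q := S.hom_mem_omega c M.dim _
  obtain ⟨κ, hκ⟩ := hwM.2.1 c
  obtain ⟨κ', hκ'⟩ := hwM.2.1 c.swap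
  obtain ⟨μ, hμ⟩ := hwM.2.1 a
  have hpa : ShortData.perm c a = a := Equiv.swap_apply_of_ne_of_ne (Ne.symm hca) (Ne.symm h1')
  have hpc : ShortData.perm c c = c.swap := Equiv.swap_apply_left _ _
  have hpc' : ShortData.perm c c.swap = c := Equiv.swap_apply_right _ _
  rw [hpa] at hμ
  rw [hpc] at hκ
  rw [hpc'] at hκ'
  have hμ1 : (S.hom c (slW 1) : Matrix ι ι F) *ᵥ P.b a = P.b a := by
    rw [ShortData.hom_mulVec, S.lin_other c hca h1']
  have hκκ : κ * κ' = 1 := by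
    have h := isometry_b hQ hwM.1 (P.b c) (P.b c.swap)
    rw [hκ, hκ', P.b_b c c.swap, if_pos rfl] at h
    simp only [map_smul, LinearMap.smul_apply, P.b_b, Sum.swap_swap, if_true, smul_eq_mul, mul_one] at h
    linear_combination h
  obtain ⟨γ, hγ⟩ := hs (prΩ Q ⟨_, hwΩ⟩)
  have hconj : ∀ (d d' : Fin m ⊕ Fin m) (hd : d ≠ a.swap) (hd' : d' ≠ a.swap) (k : F),
      (S.hom c (slW 1) : Matrix ι ι F) *ᵥ P.b d = k • P.b d' →
      prΩ Q ⟨_, hwΩ⟩ * prΩ Q ⟨eichler hQ (P.q_b a) (hb 1 d hd), eichler_mem_omega hQ M.dim _ _⟩ *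
        (prΩ Q ⟨_, hwΩ⟩)⁻¹ = prΩ Q ⟨eichler hQ (P.q_b a) (hb k d' hd'), eichler_mem_omega hQ M.dim _ _⟩ := by
    intro d d' hd hd' k hk
    rw [← map_mul, ← map_inv, ← map_mul]
    refine congrArg _ (Subtype.ext ?_)
    show S.hom c (slW 1) * _ * (S.hom c (slW 1))⁻¹ = _
    rw [conj_eichler hQ hwM.1 (P.q_b a) (hb 1 d hd) (by rw [hμ1, P.q_b])
      (by rw [isometry_b hQ hwM.1, hb 1 d hd]) rfl rfl]
    refine Units.ext ?_
    show eichlerMat Q _ _ = eichlerMat Q (P.b a) (k • P.b d')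
    rw [hμ1, one_smul, hk]
  have c1 : σ (γ * l * γ⁻¹) = ψ κ := by
    rw [map_mul, map_mul, map_inv, hγ, hl]
    exact hconj c c.swap hcb h2' κ hκ
  have c2 : σ (γ * l' * γ⁻¹) = φ κ' := by
    rw [map_mul, map_mul, map_inv, hγ, hl']
    exact hconj c.swap c h2' hcb κ' hκ'
  have hmem : ∀ t : F, ∃ n : ℕ, (n : F) = t := fun t => by
    have hbij := (ZMod.castHom (dvd_refl 3) F).injective.bijective_of_nat_card_le (by rw [Nat.card_zmod, h3])
    obtain ⟨z, rfl⟩ := hbij.surjective t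
    exact ⟨z.val, by rw [← map_natCast (ZMod.castHom (dvd_refl 3) F), ZMod.natCast_zmod_val]⟩
  have hpow : ∀ n k : ℕ, ⁅l ^ n, l' ^ k⁆ = ⁅l, l'⁆ ^ (n * k) := by
    have hr' : ∀ k, ⁅l, l' ^ k⁆ = ⁅l, l'⁆ ^ k := by
      intro k
      induction k with
      | zero => simp
      | succ k ih =>
        rw [pow_succ, Schur.commutator_mul_right' (Subgroup.mem_center_iff.1 hz _), ih, pow_succ]
    intro n k
    induction n with
    | zero => simp
    | succ n ih =>
      rw [pow_succ, Schur.commutator_mul_left' (by rw [hr']; exact Subgroup.mem_center_iff.1 (pow_mem hz k) _),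
        ih, hr', ← pow_add]
      congr 1
      ring
  have hz3 : ⁅l, l'⁆ ^ 3 = 1 := by
    have h : σ (l ^ 3) = 1 := by
      rw [map_pow, hl, ← (hφn 3).1, CharP.cast_eq_zero, ← Nat.cast_zero (R := F), (hφn 0).1, pow_zero]
    have := hpow 3 1
    rw [pow_one, Schur.commutator_congr hc (g' := 1) (h.trans (map_one σ).symm) rfl, mul_one,
      commutatorElement_one_left] at this
    exact this.symm
  obtain ⟨i, hi⟩ := hmem κ
  obtain ⟨j, hj⟩ := hmem κ'
  have hij : ((i * j : ℕ) : F) = 1 := by rw [Nat.cast_mul, hi, hj, hκκ]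
  have hz2 : ⁅l, l'⁆ = (⁅l, l'⁆ ^ (i * j))⁻¹ := by
    have e : ⁅γ * l * γ⁻¹, γ * l' * γ⁻¹⁆ = ⁅l, l'⁆ := by
      rw [show ⁅γ * l * γ⁻¹, γ * l' * γ⁻¹⁆ = γ * ⁅l, l'⁆ * γ⁻¹ by simp only [commutatorElement_def]; group,
        Subgroup.mem_center_iff.1 hz, mul_inv_cancel_right]
    rw [Schur.commutator_congr hc (g' := l' ^ i) (h' := l ^ j)
      (by rw [c1, map_pow, hl', ← (hφn i).2, hi]) (by rw [c2, map_pow, hl, ← (hφn j).1, hj]),
      ← commutatorElement_inv, hpow, mul_comm j i] at e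
    exact e.symm
  have hmod : i * j % 3 = 1 := by
    have h := (CharP.natCast_eq_natCast F 3 (a := i * j) (b := 1)).1 (by rw [hij, Nat.cast_one])
    exact h
  rw [← Nat.div_add_mod (i * j) 3, hmod, pow_add, pow_mul, hz3, one_pow, one_mul, pow_one] at hz2
  have hz1 : ⁅l, l'⁆ = 1 := by
    have h2 : ⁅l, l'⁆ * ⁅l, l'⁆ = 1 := by
      conv_lhs => arg 1; rw [hz2]
      exact inv_mul_cancel _
    calc ⁅l, l'⁆ = ⁅l, l'⁆ * (⁅l, l'⁆ * ⁅l, l'⁆) := by rw [h2, mul_one]
      _ = ⁅l, l'⁆ ^ 3 := by rw [pow_three]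
      _ = 1 := hz3
  obtain ⟨gx, hgx, ex⟩ := hx
  obtain ⟨t, ht⟩ := P.mem_rootGroup_long hca hcb (show (gx : GL ι F) ∈ P.rootGroup {a, c} from hr ▸ hgx)
  obtain ⟨gy, hgy, ey⟩ := hy
  obtain ⟨t', ht'⟩ := P.mem_rootGroup_long h1' h2' (show (gy : GL ι F) ∈ P.rootGroup {a, c.swap} from hse ▸ hgy)
  obtain ⟨n, hn⟩ := hmem t
  obtain ⟨k, hk⟩ := hmem t'
  have ex' : σ x = σ (l ^ n) := by
    rw [map_pow, hl, ← (hφn n).1, hn, ← ex]
    exact congrArg _ (Subtype.ext (Units.ext ht))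
  have ey' : σ y = σ (l' ^ k) := by
    rw [map_pow, hl', ← (hφn k).2, hk, ← ey]
    exact congrArg _ (Subtype.ext (Units.ext ht'))
  rw [← commutatorElement_eq_one_iff_mul_comm, Schur.commutator_congr hc ex' ey', hpow, hz1, one_pow]

include S M hs hc in
/-- All pairs over three elements. -/
theorem pair_three (h3 : Nat.card F = 3) (hm : 4 ≤ m) {r s : Nodes.PosRoot m True} (hne : r ≠ s) :
    Nodes.Separated P r.1 s.1 ∨ Nodes.Separated P s.1 r.1 ∨
      ∀ x y : Γ, σ x ∈ Nodes.X P r.1 → σ y ∈ Nodes.X P s.1 → x * y = y * x := by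
  haveI : Fintype F := Fintype.ofFinite F
  haveI : Fact (Nat.Prime 3) := ⟨Nat.prime_three⟩
  obtain rfl : p = 3 := CharP.eq F ‹CharP F p›
    (charP_of_card_eq_prime (Nat.card_eq_fintype_card.symm.trans h3))
  have h2 : (2 : F) ≠ 0 := fun h => by
    have := (CharP.cast_eq_zero_iff F 3 2).1 (by exact_mod_cast h)
    omega
  have hne1 : ((-1 : Fˣ) : F) ≠ 1 := fun h => h2 (by rw [Units.val_neg, Units.val_one] at h; linear_combination -h)
  rcases pair_cases r.2 s.2 (fun h => hne (Subtype.ext h)) with ⟨a, ha, h⟩ | ⟨a, ha, h⟩ | ⟨a, c, h1, h2', e1, e2⟩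
  rotate_left 2
  · exact Or.inr (Or.inr fun x y hx hy => same_commute (S := S) (M := M) hs hc h3 h1 h2' e1 e2 hx hy)
  all_goals
    by_cases hk : ∃ k, k ∉ r.1.1.image idx ∪ s.1.1.image idx
    · obtain ⟨k, hk⟩ := hk
      first
        | exact Or.inl (separated_of_outside M hne1 ha h hk)
        | exact Or.inr (Or.inl (separated_of_outside M hne1 ha h (by rwa [Finset.union_comm])))
    push Not at hk
    have hcard : m ≤ (r.1.1.image idx).card + (s.1.1.image idx).card := by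
      refine le_trans (le_of_eq ?_) (Finset.card_union_le _ _)
      rw [Finset.eq_univ_iff_forall.2 hk, Finset.card_univ, Fintype.card_fin]
    have hcr := r.1.card_idx
    have hcs := s.1.card_idx
    have hcu : (r.1.1.image idx ∪ s.1.1.image idx).card = m := by
      rw [Finset.eq_univ_iff_forall.2 hk, Finset.card_univ, Fintype.card_fin]
    have hdis : Disjoint (r.1.1.image idx) (s.1.1.image idx) :=
      Finset.card_union_eq_card_add_card.1 (by omega)
    rcases r.1.2 with ⟨a1, c1, h11, h12, e1⟩ | ⟨-, a1, e1⟩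
    swap
    · exfalso; rw [e1, Finset.image_singleton, Finset.card_singleton] at hcard; omega
    rcases s.1.2 with ⟨a2, c2, h21, h22, e2⟩ | ⟨-, a2, e2⟩
    swap
    · exfalso; rw [e2, Finset.image_singleton, Finset.card_singleton] at hcard; omega
    have hne' : ∀ u ∈ r.1.1, ∀ v ∈ s.1.1, idx v ≠ idx u := fun u hu v hv h' =>
      Finset.disjoint_left.1 hdis (Finset.mem_image_of_mem idx hu) (h' ▸ Finset.mem_image_of_mem idx hv)
    refine Or.inr (Or.inr fun x y hx hy => disjoint_commute M hs hc h2 trivial h11 h12 (Ne.symm h21)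
      (fun h' => h22 (by rw [h', Sum.swap_swap])) e1 e2 ?_ ?_ ?_ ?_ hx hy) <;>
      apply hne' <;> simp [e1, e2]

end same

end CfsgLib.SchurOrth
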