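import Mathlib
import Cfsg.Agent.SchurOrth.StdNodes

/-!
The torus of type `B` and twisted `D`, and its elements over the centre.
-/

set_option autoImplicit false
set_option linter.unusedSectionVars false
set_option maxHeartbeats 400000

namespace CfsgLib.SchurOrth

open Cfsg.Geo CfsgLib.OrthGeo Matrix
open scoped MatrixGroups

universe u

/-- The entry of a diagonal element. -/
def dent {K : Type u} [Field K] (d : ↥(slD (K := K)).range) : K :=
  (d : Matrix.SpecialLinearGroup (Fin 2) K).1 0 0

theorem dent_slD {K : Type u} [Field K] {d : ↥(slD (K := K)).range} {t : Kˣ}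
    (h : (d : Matrix.SpecialLinearGroup (Fin 2) K) = slD t) : dent d = (t : K) := by
  rw [dent, h]
  simp [slD_coe]

theorem dent_mul {K : Type u} [Field K] (d e : ↥(slD (K := K)).range) :
    dent (d * e) = dent d * dent e := by
  obtain ⟨a, ha⟩ := d.2
  obtain ⟨b, hb⟩ := e.2
  rw [dent_slD (t := a * b) (by rw [Subgroup.coe_mul, ← ha, ← hb, map_mul]), dent_slD ha.symm,
    dent_slD hb.symm, Units.val_mul]

theorem dent_one {K : Type u} [Field K] : dent (1 : ↥(slD (K := K)).range) = 1 := by
  simp [dent]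

theorem dent_ne_zero {K : Type u} [Field K] (d : ↥(slD (K := K)).range) : dent d ≠ 0 := by
  obtain ⟨a, ha⟩ := d.2
  rw [dent_slD ha.symm]
  exact a.ne_zero

theorem dent_eq_one {K : Type u} [Field K] {d : ↥(slD (K := K)).range} (h : dent d = 1) : d = 1 := by
  obtain ⟨a, ha⟩ := d.2
  rw [dent_slD ha.symm, Units.val_eq_one] at h
  subst h
  exact Subtype.ext (ha.symm.trans (map_one _))

variable {ι : Type} [Fintype ι] [DecidableEq ι] {F : Type u} [Field F] {Q : (ι → F) → F}
variable {hQ : IsNondegenerateQuadraticForm Q}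

theorem ShortData.lin_slD_W {m : ℕ} {P : Polar hQ m} (S : ShortData P) (α : Fin m ⊕ Fin m) (t : S.Kˣ)
    {w : ι → F} (hw : w ∈ P.W) :
    S.kW ((S.hom α (slD t) : Matrix ι ι F) *ᵥ w) = (t : S.K) * (S.σ (t : S.K))⁻¹ * S.kW w := by
  rw [ShortData.hom_mulVec, ShortData.kW_lin, ShortData.n01_apply, ShortData.m00_apply, ShortData.m11_apply,
    P.coord_W hw, P.coord_W hw, slD_coe]
  simp

variable [Finite F] {p : ℕ} [CharP F p] [Fact p.Prime] {n : ℕ} (hn1 : 1 ≤ n) {P : Polar hQ (n + 1)}
  (S : ShortData P) (hn : 5 ≤ Fintype.card ι)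

/-- The abstract torus of the nodes. -/
abbrev STor (p : ℕ) [CharP F p] [Fact p.Prime] : Type u :=
  (i : (shortNodes hn1 S p hn).κ) → ↥((shortNodes hn1 S p hn).node i).R.D

/-- The parameter of a long node. -/
noncomputable def tL (t : STor hn1 S hn p) (i : Fin n) : F := dent (K := F) (t (some i))

/-- The parameter of the short node. -/
noncomputable def tS (t : STor hn1 S hn p) : S.K := dent (K := S.K) (t none)

/-- The eigenvalue at a frame vector. -/
noncomputable def teig (t : STor hn1 S hn p) (j : Fin (n + 1)) : F :=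
  (if h : (j : ℕ) < n then tL hn1 S hn t ⟨j, h⟩ else S.ret (tS hn1 S hn t * S.σ (tS hn1 S hn t))) *
    (if h : 0 < (j : ℕ) then (tL hn1 S hn t ⟨(j : ℕ) - 1, by omega⟩)⁻¹ else 1)

theorem tL_mul (t t' : STor hn1 S hn p) (i : Fin n) : tL hn1 S hn (t * t') i = tL hn1 S hn t i * tL hn1 S hn t' i :=
  dent_mul (K := F) _ _

theorem tS_mul (t t' : STor hn1 S hn p) : tS hn1 S hn (t * t') = tS hn1 S hn t * tS hn1 S hn t' :=
  dent_mul (K := S.K) _ _

theorem norm_mem (x : S.K) : algebraMap F S.K (S.ret (x * S.σ x)) = x * S.σ x :=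
  S.map_ret (by rw [map_mul, S.σσ, mul_comm])

theorem ret_norm_mul (x y : S.K) : S.ret (x * y * S.σ (x * y)) = S.ret (x * S.σ x) * S.ret (y * S.σ y) := by
  apply (algebraMap F S.K).injective
  rw [map_mul (algebraMap F S.K), norm_mem, norm_mem, norm_mem, map_mul]
  ring

theorem teig_mul (t t' : STor hn1 S hn p) (j : Fin (n + 1)) :
    teig hn1 S hn (t * t') j = teig hn1 S hn t j * teig hn1 S hn t' j := by
  unfold teig
  split_ifs <;> simp only [tL_mul, tS_mul, ret_norm_mul, mul_inv, one_mul, mul_one] <;> ring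

/-- The action of the torus. -/
def TorusOK (t : STor hn1 S hn p) : Prop :=
  (∀ j : Fin (n + 1), (((shortNodes hn1 S p hn).torΩ t : GL ι F) : Matrix ι ι F) *ᵥ P.b (Sum.inl j) =
      teig hn1 S hn t j • P.b (Sum.inl j)) ∧
    ∀ w ∈ P.W, (((shortNodes hn1 S p hn).torΩ t : GL ι F) : Matrix ι ι F) *ᵥ w ∈ P.W ∧
      S.kW ((((shortNodes hn1 S p hn).torΩ t : GL ι F) : Matrix ι ι F) *ᵥ w) =
        tS hn1 S hn t * (S.σ (tS hn1 S hn t))⁻¹ * S.kW w

theorem torusOK_mul {t t' : STor hn1 S hn p} (h : TorusOK hn1 S hn t) (h' : TorusOK hn1 S hn t') :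
    TorusOK hn1 S hn (t * t') := by
  refine ⟨fun j => ?_, fun w hw => ?_⟩
  · rw [map_mul, Subgroup.coe_mul, Units.val_mul, ← mulVec_mulVec, h'.1, mulVec_smul, h.1, smul_smul, teig_mul,
      mul_comm]
  · rw [map_mul, Subgroup.coe_mul, Units.val_mul, ← mulVec_mulVec]
    obtain ⟨h1, h2⟩ := h'.2 w hw
    obtain ⟨h3, h4⟩ := h.2 _ h1
    refine ⟨h3, ?_⟩
    rw [h4, h2, tS_mul, map_mul, mul_inv]
    ring

theorem torusOK_one : TorusOK hn1 S hn (1 : STor hn1 S hn p) := by
  have h1 : ∀ i, tL hn1 S hn (1 : STor hn1 S hn p) i = 1 := fun i => dent_one (K := F)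
  have h2 : tS hn1 S hn (1 : STor hn1 S hn p) = 1 := dent_one (K := S.K)
  refine ⟨fun j => ?_, fun w hw => ?_⟩
  · have e : teig hn1 S hn (1 : STor hn1 S hn p) j = 1 := by
      unfold teig
      split_ifs <;> simp [h1, h2, show S.ret (1 : S.K) = 1 by rw [← map_one (algebraMap F S.K), S.ret_map]]
    simp [map_one, e]
  · simp [map_one, h2, hw]

theorem single_tL_none [DecidableEq (shortNodes hn1 S p hn).κ]
    (d : ↥((shortNodes hn1 S p hn).node none).R.D) (i : Fin n) :
    tL hn1 S hn (Pi.mulSingle (M := fun i => ↥((shortNodes hn1 S p hn).node i).R.D) none d) i = 1 := by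
  unfold tL
  erw [Pi.mulSingle_eq_of_ne (by exact Option.some_ne_none i)]
  exact dent_one (K := F)

theorem torusOK_single [DecidableEq (shortNodes hn1 S p hn).κ] (i : (shortNodes hn1 S p hn).κ)
    (d : ↥((shortNodes hn1 S p hn).node i).R.D) :
    TorusOK hn1 S hn (Pi.mulSingle (M := fun i => ↥((shortNodes hn1 S p hn).node i).R.D) i d) := by
  set t : STor hn1 S hn p := Pi.mulSingle (M := fun i => ↥((shortNodes hn1 S p hn).node i).R.D) i d with ht
  have htor : ((shortNodes hn1 S p hn).torΩ t : GL ι F) = ((shortNodes hn1 S p hn).node i).R.φ d := by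
    rw [ht, Nodes.torΩ_single]
  rcases i with - | i
  · obtain ⟨_, s, rfl⟩ := d
    have hS : tS hn1 S hn t = s := by
      unfold tS; rw [ht]; erw [Pi.mulSingle_eq_same]; exact dent_slD (K := S.K) rfl
    have hL : ∀ j, tL hn1 S hn t j = 1 := fun j => single_tL_none hn1 S hn _ j
    have htor' : ((shortNodes hn1 S p hn).torΩ t : GL ι F) = S.hom (Sum.inl (Fin.last n)) (slD s) := htor
    rw [TorusOK, htor']
    refine ⟨fun j => ?_, fun w hw => ⟨(S.isMono_D _ s).2.2 w hw, by rw [hS, S.lin_slD_W _ s hw]⟩⟩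
    rw [ShortData.hom_mulVec]
    unfold teig
    rcases lt_or_eq_of_le (Nat.lt_succ_iff.1 j.isLt) with hj | hj
    · rw [dif_pos hj]
      have hne : (Sum.inl (Fin.last n) : Fin (n + 1) ⊕ Fin (n + 1)) ≠ Sum.inl j := by
        simp [Fin.ext_iff]; omega
      rw [S.lin_other _ hne (by simp)]
      split_ifs <;> simp [hL]
    · obtain rfl : j = Fin.last n := Fin.ext hj
      rw [dif_neg (by simp), slD_coe, S.lin_apply]
      simp [ShortData.n00_apply, ShortData.n01_apply, ShortData.n11_apply, ShortData.m00_apply,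
        ShortData.m11_apply, S.kW_b, P.coord_b, hS, hL, dite_eq_ite]
      module
  · obtain ⟨_, s, rfl⟩ := d
    have hS : tS hn1 S hn t = 1 := by
      unfold tS
      rw [ht]; erw [Pi.mulSingle_eq_of_ne (by exact (Option.some_ne_none i).symm)]
      exact dent_one (K := S.K)
    have hL : ∀ j, tL hn1 S hn t j = if j = i then (s : F) else 1 := fun j => by
      unfold tL
      split_ifs with h
      · subst h; rw [ht]; erw [Pi.mulSingle_eq_same]; exact dent_slD (K := F) rfl
      · rw [ht]; erw [Pi.mulSingle_eq_of_ne (by exact fun h' => h (Option.some_injective _ h'))]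
        exact dent_one (K := F)
    have htor' : ((shortNodes hn1 S p hn).torΩ t : GL ι F) = (adjPair i).hom P (slD s) := htor
    rw [TorusOK, htor']
    refine ⟨fun j => ?_, fun w hw => ⟨((adjPair i).isMono_D P s).2.2 w hw, ?_⟩⟩
    · rw [LongPair.hom_mulVec, LongPair.lin_apply, slD_coe]
      have h1 : S.ret (1 : S.K) = 1 := by rw [← map_one (algebraMap F S.K), S.ret_map]
      unfold teig
      have hi := i.isLt
      simp only [adjPair, Sum.swap_inl, Sum.swap_inr, P.coord_b, Sum.inl.injEq, reduceCtorEq, if_false,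
        Fin.ext_iff, Fin.val_castSucc, Fin.val_succ, hS, map_one, h1, one_mul, hL, of_apply, cons_val',
        cons_val_zero, cons_val_one, cons_val_fin_one, empty_val']
      by_cases e1 : (i : ℕ) = j <;> by_cases e2 : (i : ℕ) + 1 = j
      · omega
      · have a1 : (j : ℕ) < n := by omega
        have a2 : i.castSucc = j := Fin.ext e1
        rw [dif_pos a1, if_pos e1, if_neg e2, if_pos e1.symm, a2]
        split_ifs
        · omega
        · simp; module
        · simp; module
      · have a2 : i.succ = j := Fin.ext e2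
        rw [if_neg e1, if_pos e2, a2]
        split_ifs <;> first | omega | (simp; module)
      · rw [if_neg e1, if_neg e2]
        split_ifs <;> first | omega | simp
    · rw [hS, LongPair.hom_mulVec, LongPair.lin_apply]
      simp [P.coord_W hw]

theorem torusOK (t : STor hn1 S hn p) : TorusOK hn1 S hn t := by
  classical
  letI : ∀ i, CommMonoid ↥((shortNodes hn1 S p hn).node i).R.D := fun i =>
    { (inferInstance : Monoid ↥((shortNodes hn1 S p hn).node i).R.D) with
      mul_comm := fun a b => Subtype.ext (((shortNodes hn1 S p hn).node i).R.D_comm _ a.2 _ b.2) }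
  exact Pi.mulSingle_induction (TorusOK hn1 S hn) t (torusOK_one hn1 S hn)
    (fun a b ha hb => torusOK_mul hn1 S hn ha hb) (fun i d => torusOK_single hn1 S hn i d)

/-- The conditions on a torus element over the centre. -/
theorem central_cases {t : STor hn1 S hn p} (ht : (shortNodes hn1 S p hn).torΩ t ∈ Subgroup.center ↥(omegaGL Q)) :
    ∃ c : F, (c = 1 ∨ c = -1) ∧ (∀ i : Fin n, tL hn1 S hn t i = c ^ ((i : ℕ) + 1)) ∧
      tS hn1 S hn t * S.σ (tS hn1 S hn t) = algebraMap F S.K c ^ (n + 1) ∧
      tS hn1 S hn t = algebraMap F S.K c * S.σ (tS hn1 S hn t) := by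
  obtain ⟨c, hc⟩ := exists_scalar hQ hn ht
  obtain ⟨h1, h2⟩ := torusOK hn1 S hn t
  have he : ∀ j, teig hn1 S hn t j = c := fun j => by
    have h := h1 j
    rw [hc] at h
    have h' := congrArg (P.coord (Sum.inl j)) h
    simpa [P.coord_b] using h'.symm
  obtain ⟨w, hw, hw0⟩ := S.exists_W
  have hs0 : tS hn1 S hn t ≠ 0 := dent_ne_zero (K := S.K) _
  have hk : S.kW w ≠ 0 := by
    rw [show w = ((⟨w, hw⟩ : P.W) : ι → F) from rfl, S.kW_of_mem, ne_eq, LinearEquiv.map_eq_zero_iff]
    exact fun h => hw0 (congrArg Subtype.val h)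
  have hW := (h2 w hw).2
  rw [hc, map_smul, Algebra.smul_def] at hW
  have hW' := mul_right_cancel₀ hk hW
  have hsσ : S.σ (tS hn1 S hn t) ≠ 0 := by simpa using hs0
  have hQw : Q w ≠ 0 := fun h => hw0 (P.eq_zero_of_W hw h)
  have hcQ : Q (c • w) = Q w := by
    rw [← hc w]
    exact mem_isometryGroup.1 (omegaGL_le ((shortNodes hn1 S p hn).torΩ t).2) w
  rw [q_smul hQ] at hcQ
  have hc1 : c = 1 ∨ c = -1 := mul_self_eq_one_iff.1 (by
    have := mul_right_cancel₀ hQw (hcQ.trans (one_mul _).symm)
    linear_combination this)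
  refine ⟨c, hc1, ?_, ?_, ?_⟩
  · have key : ∀ k (hk : k < n), tL hn1 S hn t ⟨k, hk⟩ = c ^ (k + 1) := by
      intro k
      induction k with
      | zero =>
        intro hk
        have := he ⟨0, by omega⟩
        rw [teig, dif_pos hk, dif_neg (by simp), mul_one] at this
        simpa using this
      | succ k ih =>
        intro hk
        have := he ⟨k + 1, by omega⟩
        rw [teig, dif_pos hk, dif_pos (by simp)] at this
        simp only [Nat.add_sub_cancel] at this
        rw [ih (by omega), ← div_eq_mul_inv, div_eq_iff (by rcases hc1 with h | h <;> simp [h])] at this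
        rw [this]; ring
    exact fun i => key i i.isLt
  · have := he (Fin.last n)
    rw [teig, dif_neg (by simp), dif_pos (by simp; omega)] at this
    have hk : n - 1 < n := by omega
    have hlast : tL hn1 S hn t ⟨n - 1, hk⟩ = c ^ n := by
      obtain ⟨k, rfl⟩ : ∃ k, n = k + 1 := ⟨n - 1, by omega⟩
      have key : ∀ k' (hk' : k' < k + 1), tL hn1 S hn t ⟨k', hk'⟩ = c ^ (k' + 1) := by
        intro k'
        induction k' with
        | zero =>
          intro hk'
          have := he ⟨0, by omega⟩
          rw [teig, dif_pos hk', dif_neg (by simp), mul_one] at this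
          simpa using this
        | succ k' ih =>
          intro hk'
          have := he ⟨k' + 1, by omega⟩
          rw [teig, dif_pos hk', dif_pos (by simp)] at this
          simp only [Nat.add_sub_cancel] at this
          rw [ih (by omega), ← div_eq_mul_inv, div_eq_iff (by rcases hc1 with h | h <;> simp [h])] at this
          rw [this]; ring
      exact key _ hk
    simp only [Fin.val_last] at this
    rw [hlast, ← div_eq_mul_inv, div_eq_iff (by rcases hc1 with h | h <;> simp [h])] at this
    rw [← norm_mem, this, map_mul, map_pow, pow_succ']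
  · rw [hW', mul_assoc, inv_mul_cancel₀ hsσ, mul_one]

/-- The short parameter as a homomorphism on the torus elements over the centre. -/
noncomputable def tSHom :
    ((Subgroup.center ↥(omegaGL Q)).comap (shortNodes hn1 S p hn).torΩ) →* S.Kˣ :=
  MonoidHom.mk' (fun t => Units.mk0 (tS hn1 S hn t.1) (dent_ne_zero (K := S.K) _))
    fun a b => Units.ext (tS_mul hn1 S hn a.1 b.1)

theorem tSHom_injective : Function.Injective (tSHom (p := p) hn1 S hn) := by
  refine (injective_iff_map_eq_one _).2 fun ⟨t, ht⟩ h => Subtype.ext ?_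
  have h1 : tS hn1 S hn t = 1 := congrArg Units.val h
  obtain ⟨c, -, hL, -, hs⟩ := central_cases hn1 S hn ht
  rw [h1, map_one, mul_one, ← map_one (algebraMap F S.K)] at hs
  have hc : c = 1 := ((algebraMap F S.K).injective hs).symm
  refine funext fun i => ?_
  rcases i with - | i
  · exact dent_eq_one (K := S.K) h1
  · refine dent_eq_one (K := F) ?_
    have := hL i
    rw [hc, one_pow] at this
    exact this

/-- In type `B` the parameter squares to one. -/
theorem tSHom_sq (hσ : ∀ x, S.σ x = x)
    (t : ((Subgroup.center ↥(omegaGL Q)).comap (shortNodes hn1 S p hn).torΩ)) :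
    tSHom (p := p) hn1 S hn t ^ 2 = 1 := by
  obtain ⟨c, hc1, -, hN, hs⟩ := central_cases hn1 S hn t.2
  refine Units.ext ?_
  show tS hn1 S hn t.1 ^ 2 = 1
  rw [hσ] at hN hs
  have hc : algebraMap F S.K c = 1 := by
    have := mul_right_cancel₀ (dent_ne_zero (K := S.K) (t.1 none)) (hs.symm.trans (one_mul _).symm)
    exact this
  rw [pow_two, hN, hc, one_pow]

end CfsgLib.SchurOrth
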