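import Mathlib
import Cfsg.Agent.SchurOrth.Pairs
import Cfsg.Agent.SchurOrth.TorusShort
import Cfsg.Agent.OrthGeo.QuadOdd
import Cfsg.Agent.Eq.Def_KGroupFacts

/-!
The kernels of stem extensions of `PΩ_{2m+1}(q)`, `q` odd, have order at most two.
-/

set_option autoImplicit false
set_option linter.unusedSectionVars false

namespace CfsgLib.SchurOrth

open Cfsg.Geo CfsgLib.OrthGeo Matrix
open scoped MatrixGroups commutatorElement

universe u

section General

variable {Γ G : Type u} [Group Γ] [Group G] [Finite Γ]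

/-- Kernels of stem extensions have no `r`-elements when there is no `r`-multiplier. -/
theorem prime_to_of_noMult {r : ℕ} [Fact r.Prime] (h : SchurClassical.NoMult r G) {σ : Γ →* G}
    (hσ : Cfsg.IsStemExtension σ) : ∀ a ∈ σ.ker, ∀ k : ℕ, a ^ r ^ k = 1 → a = 1 := by
  obtain ⟨hs, hc, hd⟩ := hσ
  intro a ha k hk
  let N : Subgroup Γ :=
    { carrier := {z | z ∈ σ.ker ∧ ∃ n, r.Coprime n ∧ z ^ n = 1}
      one_mem' := ⟨one_mem _, 1, Nat.coprime_one_right r, one_pow 1⟩
      mul_mem' := fun {x y} hx hy => by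
        obtain ⟨hx, n, hn, hxn⟩ := hx
        obtain ⟨hy, l, hl, hyl⟩ := hy
        have hxy : Commute x y := (Subgroup.mem_center_iff.1 (hc hx) y).symm
        refine ⟨mul_mem hx hy, n * l, hn.mul_right hl, ?_⟩
        rw [hxy.mul_pow, pow_mul, hxn, one_pow, one_mul, mul_comm n l, pow_mul, hyl, one_pow]
      inv_mem' := fun {x} hx => by
        obtain ⟨hx, n, hn, hxn⟩ := hx
        exact ⟨inv_mem hx, n, hn, by rw [inv_pow, hxn, inv_one]⟩ }
  have hNc : N ≤ Subgroup.center Γ := fun z hz => hc hz.1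
  haveI : N.Normal := ⟨fun z hz g => by
    rwa [Subgroup.mem_center_iff.1 (hNc hz) g, mul_inv_cancel_right]⟩
  let τ : Γ ⧸ N →* G := QuotientGroup.lift N σ fun z hz => hz.1
  have hτs : Function.Surjective τ := fun g => by
    obtain ⟨x, rfl⟩ := hs g
    exact ⟨x, rfl⟩
  have hτc : τ.ker ≤ Subgroup.center (Γ ⧸ N) := by
    intro x hx
    obtain ⟨x, rfl⟩ := QuotientGroup.mk_surjective x
    refine Subgroup.mem_center_iff.2 fun y => ?_
    obtain ⟨y, rfl⟩ := QuotientGroup.mk_surjective y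
    exact congrArg (QuotientGroup.mk (s := N)) (Subgroup.mem_center_iff.1 (hc (show x ∈ σ.ker from hx)) y)
  have hτp : IsPGroup r τ.ker := by
    rintro ⟨x, hx⟩
    obtain ⟨x, rfl⟩ := QuotientGroup.mk_surjective x
    refine ⟨(orderOf x).factorization r, Subtype.ext ?_⟩
    show (x : Γ ⧸ N) ^ r ^ _ = 1
    rw [← QuotientGroup.mk_pow, QuotientGroup.eq_one_iff]
    refine ⟨pow_mem (show x ∈ σ.ker from hx) _, orderOf x / r ^ (orderOf x).factorization r, ?_, ?_⟩
    · exact Nat.coprime_ordCompl Fact.out (orderOf_pos x).ne'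
    · rw [← pow_mul, Nat.mul_div_cancel' (Nat.ordProj_dvd _ _), pow_orderOf_eq_one]
  have hac : (a : Γ ⧸ N) ∈ _root_.commutator (Γ ⧸ N) := by
    rw [← map_top_of_surjective_commutator (QuotientGroup.mk'_surjective N)]
    exact Subgroup.mem_map_of_mem _ (hd ha)
  have h1 : (a : Γ ⧸ N) = 1 := Subgroup.mem_bot.1
    ((h _ τ hτs hτc hτp).le ⟨show a ∈ σ.ker from ha, hac⟩)
  obtain ⟨-, n, hn, han⟩ := (QuotientGroup.eq_one_iff a).1 h1
  exact SchurClassical.eq_one_of_pow_prime_pow hk han hn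
where
  map_top_of_surjective_commutator {A B : Type u} [Group A] [Group B] {f : A →* B}
      (hf : Function.Surjective f) : (_root_.commutator A).map f = _root_.commutator B := by
    rw [_root_.commutator_def, Subgroup.map_commutator, ← MonoidHom.range_eq_map,
      MonoidHom.range_eq_top.2 hf, ← _root_.commutator_def]

/-- A stem extension of a perfect group is perfect. -/
theorem perfect_of_stem {σ : Γ →* G} (hσ : Cfsg.IsStemExtension σ)
    (hperf : _root_.commutator G = ⊤) : _root_.commutator Γ = ⊤ := by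
  obtain ⟨hs, -, hd⟩ := hσ
  rw [eq_top_iff]
  intro x _
  have hx : σ x ∈ (_root_.commutator Γ).map σ := by
    rw [prime_to_of_noMult.map_top_of_surjective_commutator hs, hperf]
    exact Subgroup.mem_top _
  obtain ⟨y, hy, e⟩ := hx
  have : y⁻¹ * x ∈ σ.ker := by rw [MonoidHom.mem_ker, map_mul, map_inv, e, inv_mul_cancel]
  simpa using mul_mem hy (hd this)

end General

variable {ι : Type} [Fintype ι] [DecidableEq ι] {F : Type u} [Field F] [Finite F] {Q : (ι → F) → F}

theorem pomega_perfect (hQ : IsNondegenerateQuadraticForm Q) (hn : 5 ≤ Fintype.card ι) :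
    _root_.commutator (Cfsg.POmega F Q) = ⊤ := by
  have h : _root_.commutator ↥(omegaGL Q) = ⊤ := by
    apply Subgroup.map_injective (omegaGL Q).subtype_injective
    rw [Subgroup.map_subtype_commutator, ← MonoidHom.range_eq_map, Subgroup.range_subtype,
      omegaGL_perfect hQ hn]
  rw [← prime_to_of_noMult.map_top_of_surjective_commutator (f := prΩ Q) prΩ_surjective, h,
    ← MonoidHom.range_eq_map, MonoidHom.range_eq_top.2 prΩ_surjective]

section Odd

variable (F) (n : ℕ)

/-- The basis vectors of the standard odd form. -/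
def oddVec (a : Fin (n + 1) ⊕ Fin (n + 1)) : Unit ⊕ (Fin (n + 1) ⊕ Fin (n + 1)) → F :=
  Pi.single (Sum.inr a) 1

variable {F}

theorem bform_oddVec (h2 : (2 : F) ≠ 0) (a : Fin (n + 1) ⊕ Fin (n + 1))
    (x : Unit ⊕ (Fin (n + 1) ⊕ Fin (n + 1)) → F) :
    bform (isNondegenerateQuadraticForm_quadFormOdd (n + 1) h2) (oddVec F n a) x = x (Sum.inr a.swap) := by
  rw [bform_apply]
  simp only [QuadraticMap.polar, Cfsg.quadFormOdd, oddVec, Pi.add_apply]
  rcases a with a | a <;>
    simp [Pi.single_apply, add_mul, mul_add, Finset.sum_add_distrib, ite_mul, mul_ite]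

/-- The standard frame. -/
def oddPolar (h2 : (2 : F) ≠ 0) :
    Polar (isNondegenerateQuadraticForm_quadFormOdd (n + 1) h2) (n + 1) where
  b := oddVec F n
  q_b a := by
    rcases a with a | a <;> simp [Cfsg.quadFormOdd, oddVec, Pi.single_apply]
  b_b a c := by
    rw [bform_oddVec n h2, oddVec, Pi.single_apply]
    exact if_congr ⟨fun h => (Sum.inr_injective h).symm, fun h => by rw [h]⟩ rfl rfl
  aniso w hw h0 := by
    have hz : ∀ a, w (Sum.inr a) = 0 := fun a => by
      have := hw a.swap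
      rwa [bform_oddVec n h2, Sum.swap_swap] at this
    funext j
    rcases j with ⟨⟩ | a
    · simpa [Cfsg.quadFormOdd, hz] using h0
    · exact hz a

theorem mem_oddW (h2 : (2 : F) ≠ 0) {w : Unit ⊕ (Fin (n + 1) ⊕ Fin (n + 1)) → F} :
    w ∈ (oddPolar n h2).W ↔ ∀ a, w (Sum.inr a) = 0 := by
  rw [Polar.mem_W]
  refine ⟨fun h a => ?_, fun h a => ?_⟩
  · have := h a
    rwa [Polar.coord_apply, show (oddPolar n h2).b = oddVec F n from rfl, bform_oddVec n h2, Sum.swap_swap] at this
  · rw [Polar.coord_apply, show (oddPolar n h2).b = oddVec F n from rfl, bform_oddVec n h2, h]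

/-- The field of the anisotropic line. -/
noncomputable def oddShort (h2 : (2 : F) ≠ 0) : ShortData (oddPolar n h2) where
  K := F
  σ := AlgEquiv.refl
  σσ _ := rfl
  fix x _ := ⟨x, rfl⟩
  ψ :=
    { toFun := fun w => (w : Unit ⊕ (Fin (n + 1) ⊕ Fin (n + 1)) → F) (Sum.inl ())
      map_add' := fun _ _ => rfl
      map_smul' := fun _ _ => rfl
      invFun := fun c => ⟨Pi.single (Sum.inl ()) c, (mem_oddW n h2).2 fun a => by simp⟩
      left_inv := fun w => Subtype.ext (funext fun j => by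
        rcases j with ⟨⟩ | a
        · simp
        · simp [(mem_oddW n h2).1 w.2 a])
      right_inv := fun c => by simp }
  norm w := by
    show algebraMap F F _ = _
    simp [Cfsg.quadFormOdd, (mem_oddW n h2).1 w.2, pow_two]

theorem oddW_dim (h2 : (2 : F) ≠ 0) (v w : (oddPolar n h2).W) (hv : v ≠ 0) : ∃ c : F, w = c • v := by
  have h0 : (v : Unit ⊕ (Fin (n + 1) ⊕ Fin (n + 1)) → F) (Sum.inl ()) ≠ 0 := fun h => hv <| by
    apply Subtype.ext
    funext j
    rcases j with ⟨⟩ | a
    · exact h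
    · exact (mem_oddW n h2).1 v.2 a
  refine ⟨(w : Unit ⊕ (Fin (n + 1) ⊕ Fin (n + 1)) → F) (Sum.inl ()) *
    ((v : Unit ⊕ (Fin (n + 1) ⊕ Fin (n + 1)) → F) (Sum.inl ()))⁻¹, Subtype.ext (funext fun j => ?_)⟩
  rcases j with ⟨⟩ | a
  · simp [h0]
  · simp [(mem_oddW n h2).1 v.2 a, (mem_oddW n h2).1 w.2 a]

theorem exists_sq_ne_one {F : Type u} [Field F] [Finite F] (hq : 4 ≤ Nat.card F) :
    ∃ t : Fˣ, (t : F) * t ≠ 1 := by
  classical
  haveI := Fintype.ofFinite F
  rw [Nat.card_eq_fintype_card] at hq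
  by_contra h
  push Not at h
  have := (Finset.card_le_card (s := (Finset.univ : Finset F)) (t := {0, 1, -1}) fun x _ => by
    by_cases hx : x = 0
    · simp [hx]
    · have := mul_self_eq_one_iff.1 (h (Units.mk0 x hx))
      simp only [Units.val_mk0] at this
      rcases this with e | e <;> simp [e]).trans Finset.card_le_three
  rw [Finset.card_univ] at this
  omega

/-- No multiplier at the characteristic. -/
theorem noMult_odd {p : ℕ} [CharP F p] [Fact p.Prime] (h2 : (2 : F) ≠ 0) (hn2 : 2 ≤ n)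
    (hexc : ¬ (n = 2 ∧ Nat.card F = 3)) :
    SchurClassical.NoMult p (Cfsg.POmega F (Cfsg.quadFormOdd (n + 1) F)) := by
  intro Γ _ _ σ hs hc hA
  have hdim : 5 ≤ Fintype.card (Unit ⊕ (Fin (n + 1) ⊕ Fin (n + 1))) := by simp; omega
  let N := shortNodes (by omega : 1 ≤ n) (oddShort n h2) p hdim
  have hperf := pomega_perfect (isNondegenerateQuadraticForm_quadFormOdd (n + 1) h2) hdim
  haveI := Fintype.ofFinite F
  have hp2 : p ≠ 2 := fun h => h2 (by subst h; exact_mod_cast CharP.cast_eq_zero F 2)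
  obtain ⟨f, hp, hcard⟩ := FiniteField.card F p
  have hq3 : 3 ≤ Nat.card F := by
    rw [Nat.card_eq_fintype_card, hcard]
    exact le_trans (by have := hp.two_le; omega) (Nat.le_self_pow f.pos.ne' p)
  have hqne : Nat.card F ≠ 4 := fun h => hp2 <| by
    rw [Nat.card_eq_fintype_card, hcard] at h
    have : p ∣ 2 ^ 2 := by
      rw [show (2 : ℕ) ^ 2 = p ^ (f : ℕ) by rw [h]; rfl]
      exact dvd_pow_self p f.pos.ne'
    exact (Nat.prime_dvd_prime_iff_eq hp Nat.prime_two).1 (hp.dvd_of_dvd_pow this)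
  by_cases hq : Nat.card F = 3
  · have hpF : Nat.card F = p := by
      rw [Nat.card_eq_fintype_card, hcard] at hq ⊢
      have := (Nat.prime_dvd_prime_iff_eq hp Nat.prime_three).1 (hq ▸ dvd_pow_self p f.pos.ne')
      omega
    have hne : (-1 : Fˣ) ≠ 1 := fun h => h2 (by
      have := congrArg Units.val h
      rw [Units.val_neg, Units.val_one] at this
      linear_combination -this)
    exact N.ker_inf_commutator_p hs hc (by omega) hne hA hperf
      (fun r a b ha hb => N.abelian_preimage hs hc (by omega) (Or.inr ⟨hpF, oddW_dim n h2⟩) r a b ha hb)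
      fun r s hrs => pair_three (S := oddShort n h2) (M := N) hs hc hq (by omega) hrs
  · obtain ⟨t, ht⟩ := exists_sq_ne_one (F := F) (by omega)
    have ht1 : t ≠ 1 := fun h => ht (by rw [h, Units.val_one, mul_one])
    exact N.ker_inf_commutator_p hs hc (by omega) ht1 hA hperf
      (fun r a b ha hb => N.abelian_preimage hs hc (by omega) (Or.inl (by omega)) r a b ha hb)
      fun r s hrs => (pair_sq N ht (by omega) hrs).imp id Or.inl

/-- The kernels are images of `ℤ/2`. -/
theorem exists_surj_odd (h2 : (2 : F) ≠ 0) (hn2 : 2 ≤ n) (hexc : ¬ (n = 2 ∧ Nat.card F = 3))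
    {Γ : Type u} [Group Γ] [Finite Γ] (τ : Γ →* Cfsg.POmega F (Cfsg.quadFormOdd (n + 1) F))
    (hτ : Cfsg.IsStemExtension τ) :
    ∃ π : Multiplicative (ZMod 2) →* τ.ker, Function.Surjective π := by
  classical
  have hn1 : 1 ≤ n := by omega
  obtain ⟨p, hcp⟩ := CharP.exists F
  haveI : Fact p.Prime := ⟨(CharP.char_is_prime_or_zero F p).resolve_right fun h => by
    subst h
    haveI := CharP.charP_to_charZero F
    exact not_finite F⟩
  have hdim : 5 ≤ Fintype.card (Unit ⊕ (Fin (n + 1) ⊕ Fin (n + 1))) := by simp; omega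
  let S := oddShort n h2
  let N := shortNodes hn1 S p hdim
  have hperf := perfect_of_stem hτ (pomega_perfect (isNondegenerateQuadraticForm_quadFormOdd (n + 1) h2) hdim)
  obtain ⟨π₀, hπ₀⟩ := N.exists_ker_surj
    ⟨hτ.1, hτ.2.1, prime_to_of_noMult (noMult_odd n h2 hn2 hexc) hτ⟩ hperf
  let j := tSHom (p := p) hn1 S hdim
  have hsq : ∀ t, j t ^ 2 = 1 := fun t => tSHom_sq _ S hdim (fun _ => rfl) t
  -- the torus kernel has at most two elements
  have hle : ∀ a b : (Subgroup.center _).comap N.torΩ, a ≠ 1 → b ≠ 1 → a = b := by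
    intro a b ha hb
    refine tSHom_injective hn1 S hdim ?_
    have key : ∀ c, c ≠ 1 → (j c : S.K) = -1 := fun c hc => by
      have h1 : (j c : S.K) * (j c : S.K) = 1 := by rw [← Units.val_mul, ← pow_two, hsq]; rfl
      refine (mul_self_eq_one_iff.1 h1).resolve_left fun h => hc ?_
      exact tSHom_injective hn1 S hdim ((Units.ext h).trans (map_one _).symm)
    exact Units.ext ((key a ha).trans (key b hb).symm)
  have hker : ∀ x y : τ.ker, x ≠ 1 → y ≠ 1 → x = y := by
    intro x y hx hy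
    obtain ⟨a, rfl⟩ := hπ₀ x
    obtain ⟨b, rfl⟩ := hπ₀ y
    rw [hle a b (fun h => hx (by rw [h, map_one])) (fun h => hy (by rw [h, map_one]))]
  by_cases htriv : ∀ x : τ.ker, x = 1
  · exact ⟨1, fun x => ⟨1, (htriv x).symm⟩⟩
  push Not at htriv
  obtain ⟨z, hz⟩ := htriv
  have hz2 : z ^ 2 = 1 := by
    obtain ⟨a, rfl⟩ := hπ₀ z
    have : a ^ 2 = 1 := tSHom_injective hn1 S hdim (by
      rw [map_pow, map_one]; exact hsq a)
    rw [← map_pow, this, map_one]
  refine ⟨AddMonoidHom.toMultiplicativeLeft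
    (ZMod.lift 2 ⟨zmultiplesHom (Additive τ.ker) (Additive.ofMul z), ?_⟩), fun x => ?_⟩
  · show ((2 : ℤ) • Additive.ofMul z) = 0
    rw [← ofMul_zpow, zpow_ofNat, hz2, ofMul_one]
  · by_cases hx : x = 1
    · exact ⟨1, by rw [map_one, hx]⟩
    · refine ⟨Multiplicative.ofAdd 1, ?_⟩
      rw [hker x z hx hz]
      show Additive.toMul (ZMod.lift 2 _ ((1 : ℤ) : ZMod 2)) = z
      rw [ZMod.lift_coe]
      simp

end Odd

end CfsgLib.SchurOrth
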