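import Mathlib
import Cfsg.Agent.Classical.Orth.Omega
import Cfsg.Agent.OrthGeo.Simple

/-!
The spin cover of `Ω(Q)` in odd characteristic, from a matrix representation of the Clifford
algebra: a perfect central extension with non-trivial kernel.
-/

set_option autoImplicit false
set_option linter.unusedSectionVars false

namespace CfsgLib.SchurOrth

open Cfsg.Geo CfsgLib.OrthGeo Matrix
open scoped MatrixGroups commutatorElement

universe u

variable {F : Type u} [Field F]

/-- Clifford matrices for the hyperbolic form in `2k` dimensions. -/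
theorem exists_clifford_hyperbolic (k : ℕ) : ∃ (J : Type) (_ : Fintype J) (_ : DecidableEq J),
    Nonempty J ∧ ∃ γ : ((Fin k → F) × (Fin k → F)) →ₗ[F] Matrix J J F,
      ∀ v, γ v * γ v = (∑ i, v.1 i * v.2 i) • 1 := by
  induction k with
  | zero => exact ⟨Unit, inferInstance, inferInstance, inferInstance, 0, fun v => by simp⟩
  | succ k ih =>
    obtain ⟨J, _, _, _, γ, hγ⟩ := ih
    let res : ((Fin (k + 1) → F) × (Fin (k + 1) → F)) →ₗ[F] ((Fin k → F) × (Fin k → F)) :=
      { toFun := fun v => (v.1 ∘ Fin.castSucc, v.2 ∘ Fin.castSucc)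
        map_add' := fun _ _ => rfl
        map_smul' := fun _ _ => rfl }
    refine ⟨J ⊕ J, inferInstance, inferInstance, inferInstance,
      { toFun := fun v => fromBlocks (γ (res v)) (v.1 (Fin.last k) • 1) (v.2 (Fin.last k) • 1) (-γ (res v))
        map_add' := fun v w => by
          simp only [map_add, Prod.fst_add, Prod.snd_add, Pi.add_apply, add_smul, neg_add,
            fromBlocks_add]
        map_smul' := fun c v => by
          simp only [map_smul, Prod.smul_fst, Prod.smul_snd, Pi.smul_apply, smul_eq_mul, mul_smul,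
            fromBlocks_smul, smul_neg, RingHom.id_apply] }, fun v => ?_⟩
    show fromBlocks _ _ _ _ * fromBlocks _ _ _ _ = _
    rw [fromBlocks_multiply, Fin.sum_univ_castSucc, ← fromBlocks_one, fromBlocks_smul]
    have := hγ (res v)
    congr 1
    · rw [this, smul_mul_smul_comm, mul_one, ← add_smul]; rfl
    · simp
    · simp
    · rw [neg_mul_neg, this, smul_mul_smul_comm, mul_one, ← add_smul, add_comm,
        mul_comm (v.2 _)]; rfl

variable {ι : Type} [Fintype ι] [DecidableEq ι] {Q : (ι → F) → F}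
variable (hQ : IsNondegenerateQuadraticForm Q)
include hQ

/-- Clifford matrices for any form in odd characteristic. -/
theorem exists_clifford (h2 : (2 : F) ≠ 0) : ∃ (J : Type) (_ : Fintype J) (_ : DecidableEq J),
    Nonempty J ∧ ∃ γ : (ι → F) →ₗ[F] Matrix J J F, ∀ v, γ v * γ v = Q v • 1 := by
  obtain ⟨J, i₁, i₂, i₃, γ, hγ⟩ := exists_clifford_hyperbolic (F := F) (Fintype.card ι)
  let e := Fintype.equivFin ι
  let emb : (ι → F) →ₗ[F] ((Fin (Fintype.card ι) → F) × (Fin (Fintype.card ι) → F)) :=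
    { toFun := fun v => (fun i => v (e.symm i),
        fun i => (2 : F)⁻¹ * bform hQ (Pi.single (e.symm i) 1) v)
      map_add' := fun v w => Prod.ext rfl (funext fun i => by
        show (2 : F)⁻¹ * _ = _ + _
        rw [map_add, mul_add])
      map_smul' := fun c v => Prod.ext rfl (funext fun i => by
        show (2 : F)⁻¹ * _ = c * _
        rw [map_smul, smul_eq_mul, mul_left_comm]) }
  refine ⟨J, i₁, i₂, i₃, γ.comp emb, fun v => ?_⟩
  rw [LinearMap.comp_apply, hγ]
  congr 1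
  show ∑ i, v (e.symm i) * ((2 : F)⁻¹ * bform hQ (Pi.single (e.symm i) 1) v) = Q v
  rw [e.symm.sum_comp (fun j => v j * ((2 : F)⁻¹ * bform hQ (Pi.single j 1) v))]
  have key : ∑ j, v j * bform hQ (Pi.single j 1) v = bform hQ v v := by
    conv_rhs => arg 1; rw [pi_eq_sum_univ' v]
    simp [map_sum]
  calc ∑ j, v j * ((2 : F)⁻¹ * bform hQ (Pi.single j 1) v)
      = (2 : F)⁻¹ * ∑ j, v j * bform hQ (Pi.single j 1) v := by
        rw [Finset.mul_sum]; exact Finset.sum_congr rfl fun j _ => by ring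
    _ = Q v := by rw [key, b_self hQ v]; field_simp

variable {J : Type} [Fintype J] [DecidableEq J]

theorem clifford_anticomm {γ : (ι → F) →ₗ[F] Matrix J J F} (hγ : ∀ v, γ v * γ v = Q v • 1)
    (v w : ι → F) : γ v * γ w + γ w * γ v = bform hQ v w • 1 := by
  have h := hγ (v + w)
  rw [map_add, add_mul, mul_add, mul_add, hγ, hγ, q_add hQ, add_smul, add_smul] at h
  linear_combination (norm := abel) h

omit hQ in
/-- The group of pairs intertwined by the Clifford matrices. -/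
def intertwiners (γ : (ι → F) →ₗ[F] Matrix J J F) : Subgroup ((Matrix J J F)ˣ × GL ι F) where
  carrier := {p | ∀ v, (p.1 : Matrix J J F) * γ v = γ ((p.2 : Matrix ι ι F) *ᵥ v) * p.1}
  one_mem' v := by simp
  mul_mem' := by
    intro p r hp hr v
    simp only [Prod.fst_mul, Prod.snd_mul, Units.val_mul]
    rw [mul_assoc, hr, ← mul_assoc, hp, mul_assoc, mulVec_mulVec]
  inv_mem' := by
    intro p hp v
    have h := hp ((p.2⁻¹ : GL ι F) *ᵥ v)
    rw [mulVec_mulVec, ← Units.val_mul, mul_inv_cancel, Units.val_one, one_mulVec] at h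
    show ((p.1⁻¹ : (Matrix J J F)ˣ) : Matrix J J F) * γ v =
      γ (((p.2⁻¹ : GL ι F) : Matrix ι ι F) *ᵥ v) * ((p.1⁻¹ : (Matrix J J F)ˣ) : Matrix J J F)
    rw [Units.inv_mul_eq_iff_eq_mul, ← mul_assoc, h, Units.mul_inv_cancel_right]

omit hQ in
theorem mem_intertwiners {γ : (ι → F) →ₗ[F] Matrix J J F} {p : (Matrix J J F)ˣ × GL ι F} :
    p ∈ intertwiners γ ↔ ∀ v, (p.1 : Matrix J J F) * γ v = γ ((p.2 : Matrix ι ι F) *ᵥ v) * p.1 :=
  Iff.rfl

/-- The pair of a non-singular vector. -/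
noncomputable def cliffordPair {γ : (ι → F) →ₗ[F] Matrix J J F} (hγ : ∀ v, γ v * γ v = Q v • 1)
    {u : ι → F} (hu : Q u ≠ 0) : (Matrix J J F)ˣ × GL ι F :=
  (⟨γ u, (Q u)⁻¹ • γ u,
    by rw [mul_smul_comm, hγ, smul_smul, inv_mul_cancel₀ hu, one_smul],
    by rw [smul_mul_assoc, hγ, smul_smul, inv_mul_cancel₀ hu, one_smul]⟩, -reflection hQ hu)

theorem cliffordPair_mem {γ : (ι → F) →ₗ[F] Matrix J J F} (hγ : ∀ v, γ v * γ v = Q v • 1)
    {u : ι → F} (hu : Q u ≠ 0) : cliffordPair hQ hγ hu ∈ intertwiners γ := by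
  intro v
  show γ u * γ v = γ (((-reflection hQ hu : GL ι F) : Matrix ι ι F) *ᵥ v) * γ u
  rw [Units.val_neg, neg_mulVec, reflection_mulVec hQ, neg_sub, map_sub, map_smul, sub_mul,
    smul_mul_assoc, hγ, smul_smul, mul_comm, ← mul_assoc, mul_inv_cancel₀ hu, one_mul]
  linear_combination (norm := abel) clifford_anticomm hQ hγ u v

section Central

omit hQ
variable {P G : Type*} [Group P] [Group G] (f : P →* G)

/-- Commutators only depend on the images, for a central kernel. -/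
theorem commutator_eq_of_map_eq {H : Subgroup P} (hc : ∀ z ∈ H, f z = 1 → ∀ x ∈ H, x * z = z * x)
    {g g' h h' : P} (hg : g ∈ H) (hg' : g' ∈ H) (hh : h ∈ H) (hh' : h' ∈ H)
    (e₁ : f g = f g') (e₂ : f h = f h') : ⁅g, h⁆ = ⁅g', h'⁆ := by
  obtain ⟨z, hz, rfl, hfz⟩ : ∃ z ∈ H, g = g' * z ∧ f z = 1 :=
    ⟨g'⁻¹ * g, mul_mem (inv_mem hg') hg, by group, by rw [map_mul, map_inv, e₁, inv_mul_cancel]⟩
  obtain ⟨w, hw, rfl, hfw⟩ : ∃ w ∈ H, h = h' * w ∧ f w = 1 :=
    ⟨h'⁻¹ * h, mul_mem (inv_mem hh') hh, by group, by rw [map_mul, map_inv, e₂, inv_mul_cancel]⟩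
  have a₁ := hc z hz hfz
  have a₂ := hc w hw hfw
  simp only [commutatorElement_def, _root_.mul_inv_rev]
  calc g' * z * (h' * w) * (z⁻¹ * g'⁻¹) * (w⁻¹ * h'⁻¹)
      = g' * (z * (h' * w) * z⁻¹) * g'⁻¹ * (w⁻¹ * h'⁻¹) := by group
    _ = g' * h' * (w * g'⁻¹ * w⁻¹) * h'⁻¹ := by
        rw [← a₁ _ (mul_mem hh' hw), mul_inv_cancel_right]; group
    _ = g' * h' * g'⁻¹ * h'⁻¹ := by rw [← a₂ _ (inv_mem hg'), mul_inv_cancel_right]

end Central

/-- A perfect central extension of `Ω(Q)` with non-trivial kernel. -/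
theorem exists_spinCover [Finite F] (h2 : (2 : F) ≠ 0) (hn : 5 ≤ Fintype.card ι) {a b c : ι → F}
    (ha : Q a ≠ 0) (hab' : Q b = Q a) (hac' : Q c = Q a)
    (hab : bform hQ a b = 0) (hac : bform hQ a c = 0) (hbc : bform hQ b c = 0) :
    ∃ (Γ : Type u) (_ : Group Γ) (_ : Finite Γ) (θ : Γ →* ↥(omegaGL Q)), Function.Surjective θ ∧
      θ.ker ≤ Subgroup.center Γ ∧ _root_.commutator Γ = ⊤ ∧ θ.ker ≠ ⊥ := by
  classical
  have hexc : ¬ (Nat.card F = 2 ∧ Fintype.card ι = 4) := fun h => by omega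
  obtain ⟨J, _, _, _, γ, hγ⟩ := exists_clifford hQ h2
  let f : (Matrix J J F)ˣ × GL ι F →* GL ι F := MonoidHom.snd _ _
  let S : Set ((Matrix J J F)ˣ × GL ι F) := {p | ∃ u, ∃ hu : Q u ≠ 0, p = cliffordPair hQ hγ hu}
  let Γ₀ := Subgroup.closure S
  have hinter : Γ₀ ≤ intertwiners γ := by
    rw [Subgroup.closure_le]
    rintro _ ⟨u, hu, rfl⟩
    exact cliffordPair_mem hQ hγ hu
  have hc : ∀ z ∈ Γ₀, f z = 1 → ∀ x ∈ Γ₀, x * z = z * x := by
    intro z hz hz1 x hx
    suffices Γ₀ ≤ Subgroup.centralizer {z} from (Subgroup.mem_centralizer_singleton_iff.1 (this hx))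
    rw [Subgroup.closure_le]
    rintro _ ⟨u, hu, rfl⟩
    rw [SetLike.mem_coe, Subgroup.mem_centralizer_singleton_iff]
    refine Prod.ext (Units.ext ?_) ?_
    · have := hinter hz u
      rw [show z.2 = 1 from hz1, Units.val_one, one_mulVec] at this
      exact this.symm
    · show _ * z.2 = z.2 * _
      rw [show z.2 = 1 from hz1, one_mul, mul_one]
  -- the image of `Γ₀` is the isometry group up to sign
  let H := Γ₀.map f
  have hH : H ≤ Cfsg.isometryGroup F Q := by
    rw [Subgroup.map_le_iff_le_comap, Subgroup.closure_le]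
    rintro _ ⟨u, hu, rfl⟩
    refine mem_isometryGroup.2 fun x => ?_
    show Q (((-reflection hQ hu : GL ι F) : Matrix ι ι F) *ᵥ x) = Q x
    rw [Units.val_neg, neg_mulVec, q_neg hQ, mem_isometryGroup.1 (reflection_mem hQ hu) x]
  have hpm : ∀ g ∈ Cfsg.isometryGroup F Q, g ∈ H ∨ -g ∈ H := by
    intro g hg
    induction CfsgLib.Classical.Orth.mem_closure_reflections hQ hexc hg using
      Subgroup.closure_induction with
    | mem r hr =>
      obtain ⟨u, hu, rfl⟩ := hr
      exact Or.inr ⟨_, Subgroup.subset_closure ⟨u, hu, rfl⟩, rfl⟩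
    | one => exact Or.inl (one_mem _)
    | mul x y hx hy ihx ihy =>
      rcases ihx (by exact (Subgroup.closure_le _).2 (by
          rintro _ ⟨u, hu, rfl⟩; exact reflection_mem hQ hu) hx) with h | h <;>
        rcases ihy (by exact (Subgroup.closure_le _).2 (by
          rintro _ ⟨u, hu, rfl⟩; exact reflection_mem hQ hu) hy) with h' | h'
      · exact Or.inl (mul_mem h h')
      · exact Or.inr (by simpa using mul_mem h h')
      · exact Or.inr (by simpa using mul_mem h h')
      · exact Or.inl (by simpa using mul_mem h h')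
    | inv x hx ihx =>
      rcases ihx (by exact (Subgroup.closure_le _).2 (by
          rintro _ ⟨u, hu, rfl⟩; exact reflection_mem hQ hu) hx) with h | h
      · exact Or.inl (inv_mem h)
      · exact Or.inr (by simpa using inv_mem h)
  have hΩ : omegaGL Q = ⁅Cfsg.isometryGroup F Q, Cfsg.isometryGroup F Q⁆ :=
    Subgroup.map_subtype_commutator _
  have hcomm : ⁅H, H⁆ = omegaGL Q := by
    rw [hΩ]
    refine le_antisymm (Subgroup.commutator_mono hH hH) (Subgroup.commutator_le.2 fun g hg h hh => ?_)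
    rcases hpm g hg with a₁ | a₁ <;> rcases hpm h hh with a₂ | a₂ <;>
      simpa [commutatorElement_def] using Subgroup.commutator_mem_commutator a₁ a₂
  let Γ₂ := ⁅⁅Γ₀, Γ₀⁆, ⁅Γ₀, Γ₀⁆⁆
  have h10 : ⁅Γ₀, Γ₀⁆ ≤ Γ₀ := Subgroup.commutator_le_self _
  have h20 : Γ₂ ≤ Γ₀ := (Subgroup.commutator_mono h10 h10).trans h10
  have hmap : Γ₂.map f = omegaGL Q := by
    rw [Subgroup.map_commutator, Subgroup.map_commutator, hcomm, omegaGL_perfect hQ hn]
  have hlift : ∀ g ∈ Γ₀, f g ∈ omegaGL Q → ∃ g' ∈ Γ₂, f g = f g' := fun g _ hg => by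
    rw [← hmap] at hg
    obtain ⟨g', hg', e⟩ := hg
    exact ⟨g', hg', e.symm⟩
  have hperf : ⁅Γ₂, Γ₂⁆ = Γ₂ := by
    refine le_antisymm (Subgroup.commutator_le_self _) (Subgroup.commutator_le.2 fun g hg h hh => ?_)
    have hfi : ∀ x ∈ ⁅Γ₀, Γ₀⁆, f x ∈ omegaGL Q := fun x hx => by
      rw [← hcomm, ← Subgroup.map_commutator]
      exact Subgroup.mem_map_of_mem _ hx
    obtain ⟨g', hg', e₁⟩ := hlift g (h10 hg) (hfi g hg)
    obtain ⟨h', hh', e₂⟩ := hlift h (h10 hh) (hfi h hh)
    rw [commutator_eq_of_map_eq f hc (h10 hg) (h20 hg') (h10 hh) (h20 hh') e₁ e₂]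
    exact Subgroup.commutator_mem_commutator hg' hh'
  -- the sign lies in the cover
  have hb : Q b ≠ 0 := hab' ▸ ha
  have hc' : Q c ≠ 0 := hac' ▸ ha
  let pa := cliffordPair hQ hγ ha
  let pb := cliffordPair hQ hγ hb
  let pc := cliffordPair hQ hγ hc'
  have hmem : ∀ {u} (hu : Q u ≠ 0), cliffordPair hQ hγ hu ∈ Γ₀ := fun {u} hu =>
    Subgroup.subset_closure ⟨u, hu, rfl⟩
  have hom : ∀ {u w} (hu : Q u ≠ 0) (hw : Q w ≠ 0), Q w = Q u →
      f (cliffordPair hQ hγ hu * cliffordPair hQ hγ hw) ∈ omegaGL Q := fun {u w} hu hw e => by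
    have := CfsgLib.Classical.Orth.refl_mul_refl_mem_omega hQ hexc hw hu ⟨Q u, by rw [e]⟩
    refine ⟨_, this, ?_⟩
    show _ = -reflection hQ hu * -reflection hQ hw
    rw [neg_mul_neg]
    rfl
  obtain ⟨g', hg', e₁⟩ := hlift _ (mul_mem (hmem ha) (hmem hb)) (hom ha hb hab')
  obtain ⟨h', hh', e₂⟩ := hlift _ (mul_mem (hmem hb) (hmem hc')) (hom hb hc' (hac'.trans hab'.symm))
  have hz : ⁅pa * pb, pb * pc⁆ ∈ Γ₂ := by
    rw [commutator_eq_of_map_eq f hc (mul_mem (hmem ha) (hmem hb)) (h20 hg')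
      (mul_mem (hmem hb) (hmem hc')) (h20 hh') e₁ e₂, ← hperf]
    exact Subgroup.commutator_mem_commutator hg' hh'
  have anti : ∀ {u w}, bform hQ u w = 0 → γ w * γ u = -(γ u * γ w) := fun {u w} h => by
    have := clifford_anticomm hQ hγ u w
    rw [h, zero_smul] at this
    exact eq_neg_of_add_eq_zero_right this
  have hne : (pa * pb).1 * (pb * pc).1 ≠ (pb * pc).1 * (pa * pb).1 := by
    intro e
    have e' := congrArg Units.val e
    simp only [Prod.fst_mul, Units.val_mul] at e'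
    change γ a * γ b * (γ b * γ c) = γ b * γ c * (γ a * γ b) at e'
    have r : γ b * γ c * (γ a * γ b) = -(γ a * γ b * (γ b * γ c)) := by
      rw [← mul_assoc, mul_assoc (γ b), anti hac, mul_neg, neg_mul, ← mul_assoc, anti hab, neg_mul,
        neg_mul, neg_neg, mul_assoc (γ a * γ b), anti hbc, mul_neg]
    have h0 : (2 : F) • (((pa * pb).1 * (pb * pc).1 : (Matrix J J F)ˣ) : Matrix J J F) = 0 := by
      rw [two_smul]
      show γ a * γ b * (γ b * γ c) + γ a * γ b * (γ b * γ c) = 0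
      nth_rw 1 [e', r]
      exact neg_add_cancel _
    exact Units.ne_zero _ ((smul_eq_zero.1 h0).resolve_left h2)
  have hrc : ∀ {u w} (hu : Q u ≠ 0) (hw : Q w ≠ 0), bform hQ u w = 0 →
      Commute (-reflection hQ hu) (-reflection hQ hw) := fun {u w} hu hw e => by
    refine ((?_ : Commute (reflection hQ hu) (reflection hQ hw)).neg_left).neg_right
    refine gl_ext fun x => ?_
    simp only [Units.val_mul, ← mulVec_mulVec, reflection_mulVec hQ, map_sub, map_smul, e,
      b_symm hQ w u, smul_eq_mul, mul_zero, sub_zero]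
    abel
  have hfz : f ⁅pa * pb, pb * pc⁆ = 1 := by
    rw [map_commutatorElement, commutatorElement_eq_one_iff_mul_comm]
    exact (((hrc ha hb hab).mul_right (hrc ha hc' hac)).mul_left
      ((Commute.refl _).mul_right (hrc hb hc' hbc))).eq
  refine ⟨↥Γ₂, inferInstance, inferInstance, (f.comp Γ₂.subtype).codRestrict (omegaGL Q)
    fun x => hmap ▸ Subgroup.mem_map_of_mem f x.2, ?_, ?_, ?_, ?_⟩
  · rintro ⟨g, hg⟩
    rw [← hmap] at hg
    obtain ⟨x, hx, rfl⟩ := hg
    exact ⟨⟨x, hx⟩, rfl⟩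
  · intro z hz
    rw [Subgroup.mem_center_iff]
    intro x
    exact Subtype.ext (hc _ (h20 z.2) (congrArg Subtype.val hz) _ (h20 x.2))
  · apply Subgroup.map_injective Γ₂.subtype_injective
    rw [Subgroup.map_subtype_commutator, hperf, ← MonoidHom.range_eq_map, Subgroup.range_subtype]
  · intro e
    have hm : (⟨_, hz⟩ : ↥Γ₂) ∈ ((f.comp Γ₂.subtype).codRestrict (omegaGL Q)
        fun x => hmap ▸ Subgroup.mem_map_of_mem f x.2).ker := Subtype.ext hfz
    rw [e, Subgroup.mem_bot] at hm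
    exact hne (congrArg Prod.fst (commutatorElement_eq_one_iff_mul_comm.1 (congrArg Subtype.val hm)))

end CfsgLib.SchurOrth
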