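import Mathlib
import Cfsg.Agent.SchurOrth.Pairs

/-!
Lifts of Eichler transformations to a central extension of `PΩ`, and the commutators of two of
them: with the frame fixed they only depend on the value of the form on the two parameters.
-/

set_option autoImplicit false
set_option linter.unusedSectionVars false

namespace CfsgLib.SchurOrth

open Cfsg.Geo CfsgLib.OrthGeo Matrix
open scoped MatrixGroups commutatorElement

universe u

variable {ι : Type} [Fintype ι] [DecidableEq ι] {F : Type u} [Field F] [Finite F] {Q : (ι → F) → F}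

/-- An Eichler transformation as an element of `Ω`. -/
noncomputable def eM (hQ : IsNondegenerateQuadraticForm Q) (hn : 5 ≤ Fintype.card ι) (u v : ι → F) :
    ↥(omegaGL Q) :=
  haveI : Decidable (Q u = 0 ∧ bform hQ u v = 0) := _root_.Classical.propDecidable _
  if h : Q u = 0 ∧ bform hQ u v = 0 then ⟨eichler hQ h.1 h.2, eichler_mem_omega hQ hn h.1 h.2⟩ else 1

section Mat

variable {hQ : IsNondegenerateQuadraticForm Q} {hn : 5 ≤ Fintype.card ι} {u u' v v' : ι → F}

theorem eM_val (hu : Q u = 0) (h : bform hQ u v = 0) :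
    ((eM hQ hn u v : GL ι F) : Matrix ι ι F) = eichlerMat Q u v := by
  rw [eM, dif_pos ⟨hu, h⟩]
  rfl

theorem eM_ext (hu : Q u = 0) (h : bform hQ u v = 0) {g : ↥(omegaGL Q)}
    (e : ((g : GL ι F) : Matrix ι ι F) = eichlerMat Q u v) : g = eM hQ hn u v :=
  Subtype.ext (Units.ext (by rw [e, eM_val hu h]))

theorem eM_mulVec (hu : Q u = 0) (h : bform hQ u v = 0) (x : ι → F) :
    ((eM hQ hn u v : GL ι F) : Matrix ι ι F) *ᵥ x =
      x + bform hQ v x • u - bform hQ u x • v - (Q v * bform hQ u x) • u := by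
  rw [eM_val hu h, eichlerMat_mulVec hQ]

theorem eM_fix (hu : Q u = 0) (h : bform hQ u v = 0) {x : ι → F} (h1 : bform hQ u x = 0)
    (h2 : bform hQ v x = 0) : ((eM hQ hn u v : GL ι F) : Matrix ι ι F) *ᵥ x = x := by
  rw [eM_mulVec hu h, h1, h2]
  simp

theorem eM_add (hu : Q u = 0) (h : bform hQ u v = 0) (h' : bform hQ u v' = 0) :
    eM hQ hn u (v + v') = eM hQ hn u v * eM hQ hn u v' :=
  (eM_ext hu (by rw [map_add, h, h', add_zero]) (by
    rw [Subgroup.coe_mul, Units.val_mul, eM_val hu h, eM_val hu h', eichlerMat_mul hQ hu h h'])).symm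

theorem eM_zero (hu : Q u = 0) : eM hQ hn u 0 = 1 :=
  (eM_ext hu (map_zero _) (by rw [eichlerMat_zero hQ]; rfl)).symm

theorem eM_neg (hu : Q u = 0) (h : bform hQ u v = 0) : eM hQ hn u (-v) = (eM hQ hn u v)⁻¹ := by
  refine eq_inv_of_mul_eq_one_left ?_
  rw [← eM_add hu (by rw [map_neg, h, neg_zero]) h, neg_add_cancel, eM_zero hu]

theorem eM_self (hu : Q u = 0) (c : F) : eM hQ hn u (c • u) = 1 := by
  have hb : bform hQ u (c • u) = 0 := by rw [map_smul, b_self hQ, hu, mul_zero, smul_zero]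
  refine (eM_ext hu hb ?_).symm
  exact (congrArg Units.val (eichler_self_smul hQ hu c hb)).symm

theorem eM_smul_left (hu : Q u = 0) (h : bform hQ u v = 0) (c : F) :
    eM hQ hn (c • u) v = eM hQ hn u (c • v) :=
  eM_ext hu (by rw [map_smul, h, smul_zero]) (by
    rw [eM_val (by rw [q_smul hQ, hu, mul_zero])
      (by rw [map_smul, LinearMap.smul_apply, h, smul_zero]), eMat_smul_left hQ])

theorem eM_swap (hu : Q u = 0) (hv : Q v = 0) (h : bform hQ u v = 0) (c : F) :
    eM hQ hn u (c • v) = eM hQ hn v (-c • u) :=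
  eM_ext hv (by rw [map_smul, b_symm hQ, h, smul_zero]) (by
    rw [eM_val hu (by rw [map_smul, h, smul_zero]), eMat_swap hQ hu hv])

theorem eM_conj (g : ↥(omegaGL Q)) (hu : Q u = 0) (h : bform hQ u v = 0) :
    g * eM hQ hn u v * g⁻¹ =
      eM hQ hn (((g : GL ι F) : Matrix ι ι F) *ᵥ u) (((g : GL ι F) : Matrix ι ι F) *ᵥ v) := by
  have hg := omegaGL_le g.2
  refine eM_ext (by rw [mem_isometryGroup.1 hg, hu]) (by rw [isometry_b hQ hg, h]) ?_
  rw [Subgroup.coe_mul, Subgroup.coe_mul, Subgroup.coe_inv,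
    show (eM hQ hn u v : GL ι F) = eichler hQ hu h from Units.ext (eM_val hu h),
    conj_eichler hQ hg hu h (by rw [mem_isometryGroup.1 hg, hu]) (by rw [isometry_b hQ hg, h]) rfl rfl]
  rfl

theorem eM_bracket (hu : Q u = 0) (hu' : Q u' = 0) (huv : bform hQ u v = 0)
    (hu'v' : bform hQ u' v' = 0) (huu : bform hQ u u' = 0) (huv' : bform hQ u v' = 0)
    (hu'v : bform hQ u' v = 0) :
    ⁅eM hQ hn u v, eM hQ hn u' v'⁆ = eM hQ hn u' (bform hQ v v' • u) := by
  have hu'u : bform hQ u' u = 0 := by rw [b_symm hQ, huu]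
  have e1 : ((eM hQ hn u v : GL ι F) : Matrix ι ι F) *ᵥ u' = u' :=
    eM_fix hu huv huu (by rw [b_symm hQ, hu'v])
  have e2 : ((eM hQ hn u v : GL ι F) : Matrix ι ι F) *ᵥ v' = bform hQ v v' • u + v' := by
    rw [eM_mulVec hu huv, huv']
    simp [add_comm]
  rw [commutatorElement_def, eM_conj _ hu' hu'v', e1, e2,
    eM_add hu' (by rw [map_smul, hu'u, smul_zero]) hu'v', mul_inv_cancel_right]

theorem eM_commute_same (hu : Q u = 0) (h : bform hQ u v = 0) (h' : bform hQ u v' = 0) :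
    Commute (eM hQ hn u v) (eM hQ hn u v') := by
  rw [Commute, SemiconjBy, ← eM_add hu h h', ← eM_add hu h' h, add_comm]

theorem eM_commute (hu : Q u = 0) (hu' : Q u' = 0) (huv : bform hQ u v = 0)
    (hu'v' : bform hQ u' v' = 0) (huu : bform hQ u u' = 0) (huv' : bform hQ u v' = 0)
    (hu'v : bform hQ u' v = 0) (hk : bform hQ v v' = 0) : Commute (eM hQ hn u v) (eM hQ hn u' v') := by
  rw [← commutatorElement_eq_one_iff_commute, eM_bracket hu hu' huv hu'v' huu huv' hu'v, hk,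
    zero_smul, eM_zero hu']

theorem eM_add_left (hu : Q u = 0) (hu' : Q u' = 0) (huu : bform hQ u u' = 0)
    (huv : bform hQ u v = 0) (hu'v : bform hQ u' v = 0) :
    eM hQ hn (u + u') v = eM hQ hn u (Q v • u') * (eM hQ hn u v * eM hQ hn u' v) := by
  refine (eM_ext (by rw [q_add hQ, hu, hu', huu, add_zero, add_zero])
    (by rw [map_add, LinearMap.add_apply, huv, hu'v, add_zero]) ?_).symm
  rw [eMat_add_left_aniso hQ hu hu' huu huv hu'v, Subgroup.coe_mul, Subgroup.coe_mul, Units.val_mul,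
    Units.val_mul, eM_val hu huv, eM_val hu' hu'v, eM_val hu (by rw [map_smul, huu, smul_zero])]

end Mat

/-- A central extension of `PΩ`. -/
structure Lifting (hQ : IsNondegenerateQuadraticForm Q) (Γ : Type u) [Group Γ] where
  dim : 5 ≤ Fintype.card ι
  σ : Γ →* Cfsg.POmega F Q
  surj : Function.Surjective σ
  central : σ.ker ≤ Subgroup.center Γ

namespace Lifting

variable {hQ : IsNondegenerateQuadraticForm Q} {Γ : Type u} [Group Γ] (L : Lifting hQ Γ)

/-- The image of an Eichler transformation. -/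
noncomputable def img (u v : ι → F) : Cfsg.POmega F Q := prΩ Q (eM hQ L.dim u v)

/-- A lift. -/
noncomputable def lift (g : ↥(omegaGL Q)) : Γ := Function.surjInv L.surj (prΩ Q g)

/-- A lift of an Eichler transformation. -/
noncomputable def ℓ (u v : ι → F) : Γ := L.lift (eM hQ L.dim u v)

theorem σ_lift (g : ↥(omegaGL Q)) : L.σ (L.lift g) = prΩ Q g := Function.surjInv_eq L.surj _

theorem σ_ℓ (u v : ι → F) : L.σ (L.ℓ u v) = L.img u v := L.σ_lift _

theorem congr {g g' h h' : Γ} (e₁ : L.σ g = L.σ g') (e₂ : L.σ h = L.σ h') : ⁅g, h⁆ = ⁅g', h'⁆ :=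
  Schur.commutator_congr L.central e₁ e₂

theorem commute_congr {x x' y y' : Γ} (h : Commute x y) (e₁ : L.σ x' = L.σ x) (e₂ : L.σ y' = L.σ y) :
    Commute x' y' := by
  rw [← commutatorElement_eq_one_iff_commute] at h ⊢
  rwa [L.congr e₁ e₂]

theorem conj_congr {g x y : Γ} (h : Commute x y) {x' y' : Γ} (e₁ : L.σ (g * x * g⁻¹) = L.σ x')
    (e₂ : L.σ (g * y * g⁻¹) = L.σ y') : Commute x' y' :=
  L.commute_congr ((Commute.conj_iff g).2 h) e₁.symm e₂.symm

theorem commute_of_eq_one {x : Γ} (h : L.σ x = 1) (y : Γ) : Commute x y :=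
  (Subgroup.mem_center_iff.1 (L.central h) y).symm

theorem commute_bracket {x y z : Γ} (hy : Commute (L.σ x) (L.σ y)) (hz : Commute (L.σ x) (L.σ z)) :
    Commute x ⁅y, z⁆ := commute_commutator L.central hy hz

theorem ℓ_eq (u v : ι → F) {g : ↥(omegaGL Q)} (h : g = eM hQ L.dim u v) : L.σ (L.ℓ u v) = prΩ Q g := by
  rw [L.σ_ℓ, img, h]

theorem σ_ℓ_add {u v v' : ι → F} (hu : Q u = 0) (h : bform hQ u v = 0) (h' : bform hQ u v' = 0) :
    L.σ (L.ℓ u (v + v')) = L.σ (L.ℓ u v * L.ℓ u v') := by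
  rw [map_mul, L.σ_ℓ, L.σ_ℓ, L.σ_ℓ, img, eM_add hu h h', map_mul]
  rfl

theorem σ_ℓ_zero {u : ι → F} (hu : Q u = 0) : L.σ (L.ℓ u 0) = 1 := by
  rw [L.σ_ℓ, img, eM_zero hu, map_one]

theorem σ_ℓ_self {u : ι → F} (hu : Q u = 0) (c : F) : L.σ (L.ℓ u (c • u)) = 1 := by
  rw [L.σ_ℓ, img, eM_self hu, map_one]

theorem σ_ℓ_swap {u v : ι → F} (hu : Q u = 0) (hv : Q v = 0) (h : bform hQ u v = 0) (c : F) :
    L.σ (L.ℓ u (c • v)) = L.σ (L.ℓ v (-c • u)) := by
  rw [L.σ_ℓ, L.σ_ℓ, img, img, eM_swap hu hv h]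

theorem σ_conj_ℓ (g : Γ) {g₀ : ↥(omegaGL Q)} (hg : L.σ g = prΩ Q g₀) {u v : ι → F} (hu : Q u = 0)
    (h : bform hQ u v = 0) : L.σ (g * L.ℓ u v * g⁻¹) =
      L.σ (L.ℓ (((g₀ : GL ι F) : Matrix ι ι F) *ᵥ u) (((g₀ : GL ι F) : Matrix ι ι F) *ᵥ v)) := by
  rw [map_mul, map_mul, map_inv, hg, L.σ_ℓ, L.σ_ℓ, img, img, ← eM_conj g₀ hu h, map_mul, map_mul, map_inv]

theorem σ_bracket {u u' v v' : ι → F} (hu : Q u = 0) (hu' : Q u' = 0) (huv : bform hQ u v = 0)
    (hu'v' : bform hQ u' v' = 0) (huu : bform hQ u u' = 0) (huv' : bform hQ u v' = 0)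
    (hu'v : bform hQ u' v = 0) :
    L.σ ⁅L.ℓ u v, L.ℓ u' v'⁆ = L.σ (L.ℓ u' (bform hQ v v' • u)) := by
  rw [map_commutatorElement, L.σ_ℓ, L.σ_ℓ, L.σ_ℓ, img, img, img, ← map_commutatorElement,
    eM_bracket hu hu' huv hu'v' huu huv' hu'v]

theorem img_commute {u u' v v' : ι → F} (hu : Q u = 0) (hu' : Q u' = 0) (huv : bform hQ u v = 0)
    (hu'v' : bform hQ u' v' = 0) (huu : bform hQ u u' = 0) (huv' : bform hQ u v' = 0)
    (hu'v : bform hQ u' v = 0) (hk : bform hQ v v' = 0) :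
    Commute (L.σ (L.ℓ u v)) (L.σ (L.ℓ u' v')) := by
  rw [L.σ_ℓ, L.σ_ℓ]
  exact (eM_commute hu hu' huv hu'v' huu huv' hu'v hk).map (prΩ Q)

theorem img_commute_same {u v v' : ι → F} (hu : Q u = 0) (h : bform hQ u v = 0) (h' : bform hQ u v' = 0) :
    Commute (L.σ (L.ℓ u v)) (L.σ (L.ℓ u v')) := by
  rw [L.σ_ℓ, L.σ_ℓ]
  exact (eM_commute_same hu h h').map (prΩ Q)

/-- A lift commutes with a long element once its image commutes with two factors of it. -/
theorem commute_of_factors {x : Γ} {u u' v v' : ι → F} (hu : Q u = 0) (hu' : Q u' = 0)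
    (huv : bform hQ u v = 0) (hu'v' : bform hQ u' v' = 0) (huu : bform hQ u u' = 0)
    (huv' : bform hQ u v' = 0) (hu'v : bform hQ u' v = 0) {y : Γ}
    (hy : L.σ y = L.σ (L.ℓ u' (bform hQ v v' • u)))
    (h1 : Commute (L.σ x) (L.σ (L.ℓ u v))) (h2 : Commute (L.σ x) (L.σ (L.ℓ u' v'))) : Commute x y :=
  L.commute_congr (L.commute_bracket h1 h2) rfl
    (hy.trans (L.σ_bracket hu hu' huv hu'v' huu huv' hu'v).symm)

/-- Lifts commuting with the lifts of two elements commute with lifts of the product. -/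
theorem commute_add {x : Γ} {u v v' : ι → F} (hu : Q u = 0) (h : bform hQ u v = 0)
    (h' : bform hQ u v' = 0) (h1 : Commute x (L.ℓ u v)) (h2 : Commute x (L.ℓ u v')) :
    Commute x (L.ℓ u (v + v')) :=
  L.commute_congr (h1.mul_right h2) rfl (L.σ_ℓ_add hu h h')

end Lifting

theorem exists_idx {m : ℕ} (hm : 3 ≤ m) (i j : Fin m) : ∃ d : Fin m ⊕ Fin m, idx d ≠ i ∧ idx d ≠ j := by
  obtain ⟨k, -, hk⟩ := Finset.exists_mem_notMem_of_card_lt_card (s := ({i, j} : Finset (Fin m)))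
    (t := Finset.univ) (Finset.card_le_two.trans_lt (by simp; omega))
  simp only [Finset.mem_insert, Finset.mem_singleton, not_or] at hk
  exact ⟨Sum.inl k, hk.1, hk.2⟩

theorem exists_idx₃ {m : ℕ} (hm : 4 ≤ m) (i j l : Fin m) :
    ∃ d : Fin m ⊕ Fin m, idx d ≠ i ∧ idx d ≠ j ∧ idx d ≠ l := by
  obtain ⟨k, -, hk⟩ := Finset.exists_mem_notMem_of_card_lt_card (s := ({i, j, l} : Finset (Fin m)))
    (t := Finset.univ) (Finset.card_le_three.trans_lt (by simp; omega))
  simp only [Finset.mem_insert, Finset.mem_singleton, not_or] at hk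
  exact ⟨Sum.inl k, hk.1, hk.2.1, hk.2.2⟩

namespace Polar

variable {hQ : IsNondegenerateQuadraticForm Q} {m : ℕ} (P : Polar hQ m)

theorem b_orth {a c : Fin m ⊕ Fin m} (h : idx a ≠ idx c) : bform hQ (P.b a) (P.b c) = 0 := by
  rw [P.b_b, if_neg]
  rintro rfl
  exact h (idx_eq.2 (Or.inr (Sum.swap_swap a).symm))

theorem b_self_b (a : Fin m ⊕ Fin m) : bform hQ (P.b a) (P.b a) = 0 := by
  rw [b_self hQ, P.q_b, mul_zero]

theorem bform_W_b {w : ι → F} (h : w ∈ P.W) (a : Fin m ⊕ Fin m) : bform hQ w (P.b a) = 0 := by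
  rw [b_symm hQ, P.bform_b_W h]

theorem b_b_swap (a : Fin m ⊕ Fin m) : bform hQ (P.b a) (P.b a.swap) = 1 := by rw [P.b_b, if_pos rfl]

theorem b_swap_b (a : Fin m ⊕ Fin m) : bform hQ (P.b a.swap) (P.b a) = 1 := by
  rw [b_symm hQ, P.b_b_swap]

/-- Induction on the vectors orthogonal to two frame vectors. -/
theorem perp_induction (a c : Fin m ⊕ Fin m) {motive : (ι → F) → Prop}
    (zero : motive 0)
    (add : ∀ v v', bform hQ (P.b a) v = 0 → bform hQ (P.b c) v = 0 → bform hQ (P.b a) v' = 0 →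
      bform hQ (P.b c) v' = 0 → motive v → motive v' → motive (v + v'))
    (frame : ∀ (d : Fin m ⊕ Fin m) (t : F), d ≠ a.swap → d ≠ c.swap → motive (t • P.b d))
    (aniso : ∀ w ∈ P.W, motive w) (v : ι → F) (ha : bform hQ (P.b a) v = 0)
    (hc : bform hQ (P.b c) v = 0) : motive v := by
  have key : ∀ s : Finset (Fin m ⊕ Fin m), bform hQ (P.b a) (∑ d ∈ s, P.coord d v • P.b d) = 0 ∧
      bform hQ (P.b c) (∑ d ∈ s, P.coord d v • P.b d) = 0 ∧ motive (∑ d ∈ s, P.coord d v • P.b d) := by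
    intro s
    induction s using Finset.induction_on with
    | empty => exact ⟨by rw [Finset.sum_empty, map_zero], by rw [Finset.sum_empty, map_zero],
        by rw [Finset.sum_empty]; exact zero⟩
    | insert d s hd ih =>
      rw [Finset.sum_insert hd]
      have hterm : bform hQ (P.b a) (P.coord d v • P.b d) = 0 ∧
          bform hQ (P.b c) (P.coord d v • P.b d) = 0 ∧ motive (P.coord d v • P.b d) := by
        by_cases hda : d = a.swap
        · subst hda
          rw [← P.bform_eq_coord, ha, zero_smul]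
          exact ⟨map_zero _, map_zero _, zero⟩
        by_cases hdc : d = c.swap
        · subst hdc
          rw [← P.bform_eq_coord, hc, zero_smul]
          exact ⟨map_zero _, map_zero _, zero⟩
        exact ⟨by rw [map_smul, P.b_b, if_neg hda, smul_zero],
          by rw [map_smul, P.b_b, if_neg hdc, smul_zero], frame d _ hda hdc⟩
      exact ⟨by rw [map_add, hterm.1, ih.1, add_zero], by rw [map_add, hterm.2.1, ih.2.1, add_zero],
        add _ _ hterm.1 hterm.2.1 ih.1 ih.2.1 hterm.2.2 ih.2.2⟩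
  rw [P.decomp v]
  obtain ⟨h1, h2, h3⟩ := key Finset.univ
  exact add _ _ h1 h2 (P.bform_b_W (P.projW_mem v) a) (P.bform_b_W (P.projW_mem v) c) h3
    (aniso _ (P.projW_mem v))

end Polar

/-- What the frame and the extension have to satisfy. -/
structure Setting {hQ : IsNondegenerateQuadraticForm Q} {m : ℕ} (P : Polar hQ m) (Γ : Type u)
    [Group Γ] extends Lifting hQ Γ where
  hm : 3 ≤ m
  aux : 4 ≤ m ∨ ∃ w₀ ∈ P.W, ∃ w₁ ∈ P.W, bform hQ w₀ w₁ = 1
  rot : ∀ w ∈ P.W, ∃ g : ↥(omegaGL Q), (∀ a, ((g : GL ι F) : Matrix ι ι F) *ᵥ P.b a = P.b a) ∧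
    ∃ w' ∈ P.W, ((g : GL ι F) : Matrix ι ι F) *ᵥ w' = w' + w
  disj : ∀ {a c d e : Fin m ⊕ Fin m}, idx a ≠ idx c → idx d ≠ idx e → idx d ≠ idx a → idx d ≠ idx c →
    idx e ≠ idx a → idx e ≠ idx c → ∀ t s : F,
      Commute (toLifting.ℓ (P.b a) (t • P.b c)) (toLifting.ℓ (P.b d) (s • P.b e))

namespace Setting

variable {hQ : IsNondegenerateQuadraticForm Q} {m : ℕ} {P : Polar hQ m} {Γ : Type u} [Group Γ]
variable (S : Setting P Γ)

local notation "bq" => bform hQ

/-- Long elements sharing a vector commute, also with short ones. -/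
theorem commute_shared {a c : Fin m ⊕ Fin m} (hac : idx a ≠ idx c) (t : F) {v : ι → F}
    (hv : (∃ (d : Fin m ⊕ Fin m) (s : F), idx d ≠ idx a ∧ d ≠ c.swap ∧ v = s • P.b d) ∨ v ∈ P.W) :
    Commute (S.ℓ (P.b a) v) (S.ℓ (P.b a) (t • P.b c)) := by
  -- a third index, or that of `v`
  obtain ⟨d', hd'a, hd'c, h0, h1⟩ : ∃ d' : Fin m ⊕ Fin m, idx d' ≠ idx a ∧ idx d' ≠ idx c ∧
      bq v (P.b d') = 0 ∧ bq (P.b a) v = 0 ∧ bq (P.b c) v = 0 := by
    rcases hv with ⟨d, s, hd, hdc, rfl⟩ | hv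
    · by_cases hc : idx d = idx c
      · obtain ⟨d', h1, h2⟩ := exists_idx S.hm (idx a) (idx c)
        refine ⟨d', h1, h2, ?_, ?_, ?_⟩
        · rw [map_smul, LinearMap.smul_apply, P.b_orth (by rw [hc]; exact h2.symm), smul_zero]
        · rw [map_smul, P.b_orth hd.symm, smul_zero]
        · rw [map_smul, P.b_b, if_neg hdc, smul_zero]
      · exact ⟨d, hd, hc, by rw [map_smul, LinearMap.smul_apply, P.b_self_b, smul_zero],
          by rw [map_smul, P.b_orth hd.symm, smul_zero], by rw [map_smul, P.b_orth (Ne.symm hc), smul_zero]⟩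
    · obtain ⟨d', h1, h2⟩ := exists_idx S.hm (idx a) (idx c)
      exact ⟨d', h1, h2, P.bform_W_b hv _, P.bform_b_W hv _, P.bform_b_W hv _⟩
  have hs : d'.swap ≠ a.swap := fun e => hd'a (congrArg idx (Sum.swap_leftInverse.injective e))
  refine S.commute_of_factors (u := P.b c) (u' := P.b a) (v := P.b d') (v' := t • P.b d'.swap)
    (P.q_b c) (P.q_b a) (P.b_orth hd'c.symm) ?_ (P.b_orth hac.symm) ?_ (P.b_orth hd'a.symm) ?_ ?_ ?_
  · rw [map_smul, P.b_b, if_neg hs, smul_zero]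
  · rw [map_smul, P.b_b, if_neg (fun e => hd'c (congrArg idx (Sum.swap_leftInverse.injective e))), smul_zero]
  · rw [map_smul, P.b_b_swap, smul_eq_mul, mul_one]
  · exact S.img_commute (P.q_b a) (P.q_b c) h1.1 (P.b_orth hd'c.symm) (P.b_orth hac) (P.b_orth hd'a.symm) h1.2 h0
  · exact S.img_commute_same (P.q_b a) h1.1 (by rw [map_smul, P.b_b, if_neg hs, smul_zero])

/-- A short element commutes with the long elements not meeting it. -/
theorem commute_apart {a c d : Fin m ⊕ Fin m} (hac : idx a ≠ idx c) (hda : idx d ≠ idx a)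
    (hdc : idx d ≠ idx c) {w : ι → F} (hw : w ∈ P.W) (t : F) :
    Commute (S.ℓ (P.b a) (t • P.b c)) (S.ℓ (P.b d) w) := by
  obtain ⟨g, hg, w', hw', e⟩ := S.rot w hw
  have hd' : bq (P.b d) w' = 0 := P.bform_b_W hw' d
  have hσ : S.σ ⁅S.lift g, S.ℓ (P.b d) w'⁆ = S.σ (S.ℓ (P.b d) w) := by
    rw [map_commutatorElement, S.σ_lift, S.σ_ℓ, S.σ_ℓ, Lifting.img, Lifting.img, ← map_commutatorElement]
    congr 1
    rw [commutatorElement_def, eM_conj g (P.q_b d) hd', hg, e, add_comm,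
      eM_add (P.q_b d) (P.bform_b_W hw d) hd', mul_inv_cancel_right]
  refine S.commute_congr (S.commute_bracket ?_ ?_) rfl hσ.symm
  · rw [S.σ_lift, S.σ_ℓ]
    refine Commute.map (Commute.symm ?_) (prΩ Q)
    show _ = _
    rw [← mul_inv_eq_iff_eq_mul, eM_conj g (P.q_b a) (by rw [map_smul, P.b_orth hac, smul_zero]),
      mulVec_smul, hg, hg]
  · exact S.img_commute (P.q_b a) (P.q_b d) (by rw [map_smul, P.b_orth hac, smul_zero]) hd'
      (P.b_orth hda.symm) (P.bform_b_W hw' a) (by rw [map_smul, P.b_orth hdc, smul_zero])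
      (by rw [map_smul, LinearMap.smul_apply, P.bform_b_W hw' c, smul_zero])

/-- A long element commutes with the elements at either of its vectors. -/
theorem commute_long {a c : Fin m ⊕ Fin m} (hac : idx a ≠ idx c) (t : F) {v : ι → F}
    (ha : bq (P.b a) v = 0) (hc : bq (P.b c) v = 0) :
    Commute (S.ℓ (P.b a) v) (S.ℓ (P.b a) (t • P.b c)) := by
  refine P.perp_induction a c (motive := fun v => Commute (S.ℓ (P.b a) v) (S.ℓ (P.b a) (t • P.b c)))
    (S.commute_of_eq_one (S.σ_ℓ_zero (P.q_b a)) _)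
    (fun v v' h1 _ h3 _ i1 i2 => (S.commute_add (P.q_b a) h1 h3 i1.symm i2.symm).symm) ?_
    (fun w hw => S.commute_shared hac t (Or.inr hw)) v ha hc
  intro d s hda hdc
  by_cases hd : d = a
  · subst hd; exact S.commute_of_eq_one (S.σ_ℓ_self (P.q_b _) s) _
  · exact S.commute_shared hac t (Or.inl ⟨d, s, fun e => (idx_eq.1 e).elim hd hda, hdc, rfl⟩)

theorem commute_long' {a c : Fin m ⊕ Fin m} (hac : idx a ≠ idx c) (t : F) {v : ι → F}
    (ha : bq (P.b a) v = 0) (hc : bq (P.b c) v = 0) :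
    Commute (S.ℓ (P.b c) v) (S.ℓ (P.b a) (t • P.b c)) :=
  S.commute_congr (S.commute_long hac.symm (-t) hc ha) rfl
    (S.σ_ℓ_swap (P.q_b a) (P.q_b c) (P.b_orth hac) t)

section Pairing

variable {a c : Fin m ⊕ Fin m} (hac : idx a ≠ idx c)

/-- The commutator of two lifts at `c` and at `a`. -/
noncomputable def br (a c : Fin m ⊕ Fin m) (v v' : ι → F) : Γ := ⁅S.ℓ (P.b c) v, S.ℓ (P.b a) v'⁆

/-- The condition on the parameters. -/
def Perp (P : Polar hQ m) (a c : Fin m ⊕ Fin m) (v : ι → F) : Prop :=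
  bform hQ (P.b a) v = 0 ∧ bform hQ (P.b c) v = 0

theorem perp_b {d : Fin m ⊕ Fin m} (hda : idx d ≠ idx a) (hdc : idx d ≠ idx c) (t : F) :
    Perp P a c (t • P.b d) :=
  ⟨by rw [map_smul, P.b_orth hda.symm, smul_zero], by rw [map_smul, P.b_orth hdc.symm, smul_zero]⟩

theorem perp_W {w : ι → F} (hw : w ∈ P.W) : Perp P a c w := ⟨P.bform_b_W hw a, P.bform_b_W hw c⟩

theorem perp_add {v v' : ι → F} (h : Perp P a c v) (h' : Perp P a c v') : Perp P a c (v + v') :=
  ⟨by rw [map_add, h.1, h'.1, add_zero], by rw [map_add, h.2, h'.2, add_zero]⟩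

include hac

theorem σ_br {v v' : ι → F} (hv : Perp P a c v) (hv' : Perp P a c v') :
    S.σ (S.br a c v v') = S.σ (S.ℓ (P.b a) (bq v v' • P.b c)) :=
  S.σ_bracket (P.q_b c) (P.q_b a) hv.2 hv'.1 (P.b_orth hac.symm) hv'.2 hv.1

theorem br_add_left {v₁ v₂ v' : ι → F} (h₁ : Perp P a c v₁) (h₂ : Perp P a c v₂)
    (h' : Perp P a c v') : S.br a c (v₁ + v₂) v' = S.br a c v₁ v' * S.br a c v₂ v' := by
  have hk : Commute (S.ℓ (P.b c) v₁) (S.br a c v₂ v') :=
    S.commute_congr (S.commute_long' hac _ h₁.1 h₁.2) rfl (S.σ_br hac h₂ h')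
  have hk2 : Commute (S.br a c v₂ v') (S.br a c v₁ v') := by
    refine S.commute_congr ?_ (S.σ_br hac h₂ h') (S.σ_br hac h₁ h')
    exact S.commute_long hac _ (by rw [map_smul, P.b_orth hac, smul_zero])
      (by rw [map_smul, P.b_self_b, smul_zero])
  rw [br, S.congr (S.σ_ℓ_add (P.q_b c) h₁.2 h₂.2) rfl, Schur.commutator_mul_left' hk.eq]
  exact hk2.eq

theorem br_add_right {v v₁ v₂ : ι → F} (h : Perp P a c v) (h₁ : Perp P a c v₁)
    (h₂ : Perp P a c v₂) : S.br a c v (v₁ + v₂) = S.br a c v v₁ * S.br a c v v₂ := by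
  have hk : Commute (S.ℓ (P.b a) v₁) (S.br a c v v₂) :=
    S.commute_congr (S.commute_long hac _ h₁.1 h₁.2) rfl (S.σ_br hac h h₂)
  rw [br, S.congr rfl (S.σ_ℓ_add (P.q_b a) h₁.1 h₂.1), Schur.commutator_mul_right' hk.eq]
  rfl

theorem br_zero_left {v' : ι → F} : S.br a c 0 v' = 1 :=
  commutatorElement_eq_one_iff_commute.2 (S.commute_of_eq_one (S.σ_ℓ_zero (P.q_b c)) _)

theorem br_zero_right {v : ι → F} : S.br a c v 0 = 1 :=
  commutatorElement_eq_one_iff_commute.2 (S.commute_of_eq_one (S.σ_ℓ_zero (P.q_b a)) _).symm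

theorem br_null_conj (g : ↥(omegaGL Q)) (ga : ((g : GL ι F) : Matrix ι ι F) *ᵥ P.b a = P.b a)
    (gc : ((g : GL ι F) : Matrix ι ι F) *ᵥ P.b c = P.b c) {v v' : ι → F} (hv : Perp P a c v)
    (hv' : Perp P a c v') (h : S.br a c v v' = 1) :
    S.br a c (((g : GL ι F) : Matrix ι ι F) *ᵥ v) (((g : GL ι F) : Matrix ι ι F) *ᵥ v') = 1 := by
  have e₁ := S.σ_conj_ℓ (S.lift g) (S.σ_lift g) (P.q_b c) hv.2
  have e₂ := S.σ_conj_ℓ (S.lift g) (S.σ_lift g) (P.q_b a) hv'.1
  rw [gc] at e₁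
  rw [ga] at e₂
  rw [br, commutatorElement_eq_one_iff_commute] at h ⊢
  exact S.conj_congr h e₁ e₂

theorem br_frame_null {d e : Fin m ⊕ Fin m} (hda : idx d ≠ idx a) (hdc : idx d ≠ idx c)
    (hea : idx e ≠ idx a) (hec : idx e ≠ idx c) (hde : e ≠ d.swap) (t s : F) :
    S.br a c (t • P.b d) (s • P.b e) = 1 := by
  rw [br, commutatorElement_eq_one_iff_commute]
  by_cases h : idx e = idx d
  · obtain rfl : e = d := (idx_eq.1 h).resolve_right hde
    exact S.commute_congr (S.commute_long hea (-s) (v := -t • P.b c)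
        (by rw [map_smul, P.b_orth hec, smul_zero])
        (by rw [map_smul, P.b_orth hac, smul_zero]))
      (S.σ_ℓ_swap (P.q_b c) (P.q_b _) (P.b_orth hdc.symm) t)
      (S.σ_ℓ_swap (P.q_b a) (P.q_b _) (P.b_orth hda.symm) s)
  · exact (S.disj hea.symm hdc.symm hac.symm (Ne.symm hec) hda (Ne.symm h) s t).symm

theorem br_mixed_null {d : Fin m ⊕ Fin m} (hda : idx d ≠ idx a) (hdc : idx d ≠ idx c) {w : ι → F}
    (hw : w ∈ P.W) (t : F) : S.br a c w (t • P.b d) = 1 ∧ S.br a c (t • P.b d) w = 1 := by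
  simp only [br, commutatorElement_eq_one_iff_commute]
  exact ⟨(S.commute_apart hda.symm hac.symm hdc.symm hw t).symm,
    S.commute_apart hdc.symm hac hda.symm hw t⟩

theorem br_shift {d e : Fin m ⊕ Fin m} (hda : idx d ≠ idx a) (hdc : idx d ≠ idx c)
    (hea : idx e ≠ idx a) (hec : idx e ≠ idx c) (hde : idx e ≠ idx d) (t u x : F) :
    S.br a c ((t * x) • P.b e) (u • P.b e.swap) = S.br a c (t • P.b d) ((u * x) • P.b d.swap) := by
  have hes : ∀ z : Fin m ⊕ Fin m, idx z.swap = idx z := fun z => idx_eq.2 (Or.inr rfl)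
  have h0 : bq (P.b e) (x • P.b d.swap) = 0 := by
    rw [map_smul, P.b_orth (by rw [hes]; exact hde), smul_zero]
  let g := eM hQ S.dim (P.b e) (x • P.b d.swap)
  have fix : ∀ z : Fin m ⊕ Fin m, idx z ≠ idx e → idx z ≠ idx d →
      ((g : GL ι F) : Matrix ι ι F) *ᵥ P.b z = P.b z := fun z z1 z2 =>
    eM_fix (P.q_b e) h0 (P.b_orth z1.symm)
      (by rw [map_smul, LinearMap.smul_apply, P.b_orth (by rw [hes]; exact z2.symm), smul_zero])
  have gd : ((g : GL ι F) : Matrix ι ι F) *ᵥ (t • P.b d) = t • P.b d + (t * x) • P.b e := by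
    rw [mulVec_smul, eM_mulVec (P.q_b e) h0, P.b_orth hde, map_smul, LinearMap.smul_apply, P.b_swap_b]
    simp [smul_add, smul_smul]
  have ge : ((g : GL ι F) : Matrix ι ι F) *ᵥ (u • P.b e.swap) =
      u • P.b e.swap + (-(u * x)) • P.b d.swap := by
    rw [mulVec_smul, eM_mulVec (P.q_b e) h0, P.b_b_swap, map_smul, LinearMap.smul_apply,
      P.b_orth (by rw [hes, hes]; exact hde.symm), q_smul hQ, P.q_b]
    simp [smul_sub, smul_smul]
    module
  have pd := perp_b (P := P) (a := a) (c := c) hda hdc t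
  have pe' := perp_b (P := P) (a := a) (c := c) (d := e.swap) (by rwa [hes]) (by rwa [hes]) u
  have pe := perp_b (P := P) (a := a) (c := c) hea hec (t * x)
  have pd' := perp_b (P := P) (a := a) (c := c) (d := d.swap) (by rwa [hes]) (by rwa [hes]) (-(u * x))
  have h := S.br_null_conj hac g (fix a hea.symm hda.symm) (fix c hec.symm hdc.symm) pd pe'
    (S.br_frame_null hac hda hdc (by rwa [hes]) (by rwa [hes]) 
      (fun h => hde (((hes e).symm.trans (congrArg idx h)).trans (hes d))) t u)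
  rw [gd, ge, S.br_add_left hac pd pe (perp_add pe' pd'), S.br_add_right hac pd pe' pd',
    S.br_add_right hac pe pe' pd',
    S.br_frame_null hac hda hdc (by rwa [hes]) (by rwa [hes])
      (fun h => hde (((hes e).symm.trans (congrArg idx h)).trans (hes d))),
    S.br_frame_null hac hea hec (by rwa [hes]) (by rwa [hes])
      (fun h => hde (((hes e).symm.trans (congrArg idx h).symm).trans (hes d)))] at h
  simp only [one_mul, mul_one] at h
  rw [eq_inv_of_mul_eq_one_right h, eq_comm, eq_inv_iff_mul_eq_one,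
    ← S.br_add_right hac pd (perp_b (P := P) (a := a) (c := c) (by rwa [hes]) (by rwa [hes]) _) pd',
    ← add_smul, add_neg_cancel, zero_smul, S.br_zero_right hac]

theorem br_shift_W {d : Fin m ⊕ Fin m} (hda : idx d ≠ idx a) (hdc : idx d ≠ idx c) {w x : ι → F}
    (hw : w ∈ P.W) (hx : x ∈ P.W) (s : F) :
    S.br a c (bq x w • P.b d.swap) (s • P.b d) = S.br a c w (s • x) := by
  have hes : idx d.swap = idx d := idx_eq.2 (Or.inr rfl)
  have h0 : bq (P.b d.swap) x = 0 := P.bform_b_W hx _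
  let g := eM hQ S.dim (P.b d.swap) x
  have fix : ∀ z : Fin m ⊕ Fin m, idx z ≠ idx d → ((g : GL ι F) : Matrix ι ι F) *ᵥ P.b z = P.b z :=
    fun z hz => eM_fix (P.q_b _) h0 (P.b_orth (by rw [hes]; exact hz.symm)) (P.bform_W_b hx z)
  have gw : ((g : GL ι F) : Matrix ι ι F) *ᵥ w = w + bq x w • P.b d.swap := by
    rw [eM_mulVec (P.q_b _) h0, P.bform_b_W hw]
    simp
  have gd : ((g : GL ι F) : Matrix ι ι F) *ᵥ (s • P.b d) =
      (s • P.b d + -(s • x)) + (-(s * Q x)) • P.b d.swap := by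
    rw [mulVec_smul, eM_mulVec (P.q_b _) h0, P.b_swap_b, P.bform_W_b hx]
    module
  have pw := perp_W (P := P) (a := a) (c := c) hw
  have pd := perp_b (P := P) (a := a) (c := c) hda hdc s
  have pk := perp_b (P := P) (a := a) (c := c) (d := d.swap) (by rwa [hes]) (by rwa [hes]) (bq x w)
  have px := perp_W (P := P) (a := a) (c := c) (P.W.neg_mem (P.W.smul_mem s hx))
  have pq := perp_b (P := P) (a := a) (c := c) (d := d.swap) (by rwa [hes]) (by rwa [hes]) (-(s * Q x))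
  have h := S.br_null_conj hac g (fix a hda.symm) (fix c hdc.symm) pw pd
    (S.br_mixed_null hac hda hdc hw s).1
  rw [gw, gd, S.br_add_left hac pw pk (perp_add (perp_add pd px) pq),
    S.br_add_right hac pw (perp_add pd px) pq, S.br_add_right hac pw pd px,
    S.br_add_right hac pk (perp_add pd px) pq, S.br_add_right hac pk pd px,
    (S.br_mixed_null hac hda hdc hw s).1,
    (S.br_mixed_null hac (by rwa [hes]) (by rwa [hes]) hw _).1,
    (S.br_mixed_null hac (by rwa [hes]) (by rwa [hes]) (P.W.neg_mem (P.W.smul_mem s hx)) _).2,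
    S.br_frame_null hac (d := d.swap) (e := d.swap) (by rwa [hes]) (by rwa [hes]) (by rwa [hes])
      (by rwa [hes]) (by rw [Sum.swap_swap]; exact swap_ne d),
    one_mul, mul_one, mul_one, mul_one] at h
  have h2 : S.br a c w (s • x) * S.br a c w (-(s • x)) = 1 := by
    rw [← S.br_add_right hac pw (perp_W (P := P) (a := a) (c := c) (P.W.smul_mem s hx)) px, add_neg_cancel,
      S.br_zero_right hac]
  rw [eq_inv_of_mul_eq_one_right h, eq_comm]
  exact eq_inv_of_mul_eq_one_left h2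

/-- The scalar can be moved. -/
theorem br_scalar {d : Fin m ⊕ Fin m} (hda : idx d ≠ idx a) (hdc : idx d ≠ idx c) (t s : F) :
    S.br a c (t • P.b d) (s • P.b d.swap) = S.br a c ((t * s) • P.b d) ((1 : F) • P.b d.swap) := by
  have hes : idx d.swap = idx d := idx_eq.2 (Or.inr rfl)
  rcases S.aux with hm | ⟨w₀, hw₀, w₁, hw₁, hb⟩
  · obtain ⟨e, h1, h2, h3⟩ := exists_idx₃ hm (idx a) (idx c) (idx d)
    have e1 := S.br_shift hac hda hdc h1 h2 h3 t 1 s
    have e2 := S.br_shift hac hda hdc h1 h2 h3 (t * s) 1 1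
    rw [mul_one, mul_one] at e2
    rw [one_mul] at e1
    rw [← e1, ← e2]
  · have e : ∀ r r' : F, S.br a c (r • P.b d) (r' • P.b d.swap) = S.br a c w₀ ((r' * r) • w₁) := fun r r' => by
      have := S.br_shift_W hac (d := d.swap) (by rwa [hes]) (by rwa [hes]) hw₀ (P.W.smul_mem r hw₁) r'
      rwa [map_smul, LinearMap.smul_apply, b_symm hQ w₁, hb, smul_eq_mul, mul_one, Sum.swap_swap,
        smul_smul] at this
    rw [e, e, one_mul, mul_comm]

/-- All hyperbolic pairs give the same. -/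
theorem br_indep {d e : Fin m ⊕ Fin m} (hda : idx d ≠ idx a) (hdc : idx d ≠ idx c)
    (hea : idx e ≠ idx a) (hec : idx e ≠ idx c) (r : F) :
    S.br a c (r • P.b d) ((1 : F) • P.b d.swap) = S.br a c (r • P.b e) ((1 : F) • P.b e.swap) := by
  have hes : ∀ z : Fin m ⊕ Fin m, idx z.swap = idx z := fun z => idx_eq.2 (Or.inr rfl)
  rcases S.aux with hm | ⟨w₀, hw₀, w₁, hw₁, hb⟩
  · obtain ⟨f, h1, h2, h3⟩ := exists_idx₃ hm (idx a) (idx c) (idx d)
    have key : ∀ z : Fin m ⊕ Fin m, idx z ≠ idx a → idx z ≠ idx c → idx z ≠ idx f →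
        S.br a c (r • P.b z) ((1 : F) • P.b z.swap) = S.br a c (r • P.b f) ((1 : F) • P.b f.swap) :=
      fun z z1 z2 z3 => by
        have := S.br_shift hac z1 z2 h1 h2 z3.symm r 1 1
        rw [mul_one, mul_one] at this
        exact this.symm
    by_cases hef : idx e = idx f
    · have := S.br_shift hac hda hdc hea hec (by rw [hef]; exact h3) r 1 1
      rw [mul_one, mul_one] at this
      exact this.symm
    · rw [key d hda hdc h3.symm, key e hea hec hef]
  · have e' : ∀ z : Fin m ⊕ Fin m, idx z ≠ idx a → idx z ≠ idx c →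
        S.br a c (r • P.b z) ((1 : F) • P.b z.swap) = S.br a c w₀ (r • w₁) := fun z z1 z2 => by
      have := S.br_shift_W hac (d := z.swap) (by rwa [hes]) (by rwa [hes]) hw₀ (P.W.smul_mem r hw₁) 1
      rw [map_smul, LinearMap.smul_apply, b_symm hQ w₁, hb, smul_eq_mul, mul_one, Sum.swap_swap] at this
      simpa only [one_smul] using this
    rw [e' d hda hdc, e' e hea hec]

omit hac in
/-- The canonical lift of a long element. -/
noncomputable def κ (a c : Fin m ⊕ Fin m) (t : F) : Γ :=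
  S.br a c (t • P.b (exists_idx S.hm (idx a) (idx c)).choose)
    ((1 : F) • P.b (exists_idx S.hm (idx a) (idx c)).choose.swap)

theorem br_pair {d : Fin m ⊕ Fin m} (hda : idx d ≠ idx a) (hdc : idx d ≠ idx c) (t s : F) :
    S.br a c (t • P.b d) (s • P.b d.swap) = S.κ a c (t * s) := by
  rw [S.br_scalar hac hda hdc, κ]
  exact S.br_indep hac hda hdc (exists_idx S.hm (idx a) (idx c)).choose_spec.1
    (exists_idx S.hm (idx a) (idx c)).choose_spec.2 _

theorem σ_κ (t : F) : S.σ (S.κ a c t) = S.σ (S.ℓ (P.b a) (t • P.b c)) := by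
  obtain ⟨h1, h2⟩ := (exists_idx S.hm (idx a) (idx c)).choose_spec
  have hes : ∀ z : Fin m ⊕ Fin m, idx z.swap = idx z := fun z => idx_eq.2 (Or.inr rfl)
  rw [κ, S.σ_br hac (perp_b (P := P) (a := a) (c := c) h1 h2 t) (perp_b (P := P) (a := a) (c := c) (by rwa [hes]) (by rwa [hes]) 1)]
  simp [P.b_b_swap]

theorem κ_zero : S.κ a c 0 = 1 := by rw [κ, zero_smul, S.br_zero_left hac]

theorem κ_add (t t' : F) : S.κ a c (t + t') = S.κ a c t * S.κ a c t' := by
  obtain ⟨h1, h2⟩ := (exists_idx S.hm (idx a) (idx c)).choose_spec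
  have hes : ∀ z : Fin m ⊕ Fin m, idx z.swap = idx z := fun z => idx_eq.2 (Or.inr rfl)
  rw [κ, κ, κ, add_smul, S.br_add_left hac (perp_b (P := P) (a := a) (c := c) h1 h2 t) (perp_b (P := P) (a := a) (c := c) h1 h2 t')
    (perp_b (P := P) (a := a) (c := c) (by rwa [hes]) (by rwa [hes]) 1)]

/-- The commutators of the lifts are canonical. -/
theorem br_eq {v v' : ι → F} (hv : Perp P a c v) (hv' : Perp P a c v') :
    S.br a c v v' = S.κ a c (bq v v') := by
  have hrad : ∀ {z : Fin m ⊕ Fin m}, z = a ∨ z = c → ∀ (s : F) {x : ι → F}, Perp P a c x →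
      S.br a c (s • P.b z) x = 1 ∧ S.br a c x (s • P.b z) = 1 := by
    intro z hz s x hx
    simp only [br, commutatorElement_eq_one_iff_commute]
    rcases hz with rfl | rfl
    · exact ⟨(S.commute_long hac.symm s (v := x) hx.2 hx.1).symm |> fun _ =>
          S.commute_congr (S.commute_long hac (-s) hx.1 hx.2).symm
            (S.σ_ℓ_swap (P.q_b c) (P.q_b _) (P.b_orth hac.symm) s) rfl,
        (S.commute_of_eq_one (S.σ_ℓ_self (P.q_b _) s) _).symm⟩
    · exact ⟨S.commute_of_eq_one (S.σ_ℓ_self (P.q_b _) s) _, S.commute_long' hac s hx.1 hx.2⟩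
  have hrad0 : ∀ {z : Fin m ⊕ Fin m}, z = a ∨ z = c → ∀ (s : F) {x : ι → F}, Perp P a c x →
      bq (s • P.b z) x = 0 ∧ bq x (s • P.b z) = 0 := by
    rintro z (rfl | rfl) s x hx <;> simp only [map_smul, LinearMap.smul_apply, b_symm hQ x (P.b _)]
    · simp [hx.1]
    · simp [hx.2]
  have idx_of : ∀ d : Fin m ⊕ Fin m, d ≠ a.swap → d ≠ c.swap →
      (d = a ∨ d = c) ∨ idx d ≠ idx a ∧ idx d ≠ idx c := fun d h1 h2 => by
    by_cases ha : idx d = idx a
    · exact Or.inl (Or.inl ((idx_eq.1 ha).resolve_right h1))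
    by_cases hc : idx d = idx c
    · exact Or.inl (Or.inr ((idx_eq.1 hc).resolve_right h2))
    exact Or.inr ⟨ha, hc⟩
  revert hv'
  refine P.perp_induction a c (motive := fun x => Perp P a c v' → S.br a c x v' = S.κ a c (bq x v'))
    (fun _ => by rw [S.br_zero_left hac, map_zero, LinearMap.zero_apply, S.κ_zero hac])
    (fun x y h1 h2 h3 h4 i1 i2 hv' => by
      rw [S.br_add_left hac ⟨h1, h2⟩ ⟨h3, h4⟩ hv', i1 hv', i2 hv', map_add, LinearMap.add_apply,
        S.κ_add hac]) ?_ ?_ v hv.1 hv.2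
  · intro d s hda hdc hv'
    rcases idx_of d hda hdc with hd | ⟨hd1, hd2⟩
    · rw [(hrad hd s hv').1, (hrad0 hd s hv').1, S.κ_zero hac]
    have hvd := perp_b (P := P) (a := a) (c := c) hd1 hd2 s
    refine P.perp_induction a c (motive := fun x => S.br a c (s • P.b d) x = S.κ a c (bq (s • P.b d) x))
      (by rw [S.br_zero_right hac, map_zero, S.κ_zero hac])
      (fun x y h1 h2 h3 h4 i1 i2 => by
        rw [S.br_add_right hac hvd ⟨h1, h2⟩ ⟨h3, h4⟩, i1, i2, map_add, S.κ_add hac]) ?_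
      (fun w hw => by
        rw [(S.br_mixed_null hac hd1 hd2 hw s).2]
        simp [P.bform_b_W hw, S.κ_zero hac]) v' hv'.1 hv'.2
    intro e r hea hec
    rcases idx_of e hea hec with he | ⟨he1, he2⟩
    · rw [(hrad he r hvd).2, (hrad0 he r hvd).2, S.κ_zero hac]
    by_cases hde : e = d.swap
    · subst hde
      rw [S.br_pair hac hd1 hd2]
      simp [P.b_b_swap, mul_comm]
    · rw [S.br_frame_null hac hd1 hd2 he1 he2 hde]
      simp [P.b_b, hde, S.κ_zero hac]
  · intro w hw hv'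
    have hvw := perp_W (P := P) (a := a) (c := c) hw
    refine P.perp_induction a c (motive := fun x => S.br a c w x = S.κ a c (bq w x))
      (by rw [S.br_zero_right hac, map_zero, S.κ_zero hac])
      (fun x y h1 h2 h3 h4 i1 i2 => by
        rw [S.br_add_right hac hvw ⟨h1, h2⟩ ⟨h3, h4⟩, i1, i2, map_add, S.κ_add hac]) ?_ ?_ v' hv'.1 hv'.2
    · intro e r hea hec
      rcases idx_of e hea hec with he | ⟨he1, he2⟩
      · rw [(hrad he r hvw).2, (hrad0 he r hvw).2, S.κ_zero hac]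
      rw [(S.br_mixed_null hac he1 he2 hw r).1]
      simp [P.bform_W_b hw, S.κ_zero hac]
    · intro x hx
      obtain ⟨d, hd1, hd2⟩ := exists_idx S.hm (idx a) (idx c)
      have hes : idx d.swap = idx d := idx_eq.2 (Or.inr rfl)
      have := S.br_shift_W hac hd1 hd2 hw hx 1
      simp only [one_smul] at this
      have h := S.br_pair hac (d := d.swap) (by rwa [hes]) (by rwa [hes]) (bq x w) 1
      simp only [Sum.swap_swap, mul_one, one_smul] at h
      rw [← this, h, b_symm hQ x w]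

theorem κ_swap (t : F) : S.κ c a t = S.κ a c (-t) := by
  obtain ⟨d, h1, h2⟩ := exists_idx S.hm (idx a) (idx c)
  have hes : idx d.swap = idx d := idx_eq.2 (Or.inr rfl)
  have p1 : Perp P a c (t • P.b d) := perp_b (P := P) (a := a) (c := c) h1 h2 t
  have p2 : Perp P a c ((1 : F) • P.b d.swap) := perp_b (P := P) (a := a) (c := c) (by rwa [hes]) (by rwa [hes]) 1
  have e1 := S.br_eq hac p2 p1
  have e2 := S.br_eq hac.symm (a := c) (c := a) ⟨p1.2, p1.1⟩ ⟨p2.2, p2.1⟩
  simp only [map_smul, LinearMap.smul_apply, P.b_swap_b, P.b_b_swap, smul_eq_mul, mul_one, one_mul] at e1 e2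
  have hz : S.κ a c t * S.κ a c (-t) = 1 := by rw [← S.κ_add hac, add_neg_cancel, S.κ_zero hac]
  rw [eq_inv_of_mul_eq_one_right hz, ← e1, ← e2, br, br, commutatorElement_inv]

theorem κ_inv (t : F) : (S.κ a c t)⁻¹ = S.κ a c (-t) := by
  rw [inv_eq_iff_mul_eq_one, ← S.κ_add hac, add_neg_cancel, S.κ_zero hac]

end Pairing

end Setting

end CfsgLib.SchurOrth
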