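import Mathlib
import Cfsg.Agent.SchurOrth.Bracket

/-!
The lift of the group of Eichler transformations at a frame vector: abelian, with a canonical
subgroup mapping injectively, stable under the other Eichler transformations fixing the vector.
-/

set_option autoImplicit false
set_option linter.unusedSectionVars false

namespace CfsgLib.SchurOrth

open Cfsg.Geo CfsgLib.OrthGeo Matrix
open scoped MatrixGroups commutatorElement

universe u

variable {ι : Type} [Fintype ι] [DecidableEq ι] {F : Type u} [Field F] [Finite F] {Q : (ι → F) → F}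
variable {hQ : IsNondegenerateQuadraticForm Q} {m : ℕ} {P : Polar hQ m} {Γ : Type u} [Group Γ]

theorem idx_swap (z : Fin m ⊕ Fin m) : idx z.swap = idx z := idx_eq.2 (Or.inr rfl)

namespace Lifting

theorem eq_self_smul_of_img_eq_one (L : Lifting hQ Γ) (P : Polar hQ m) {a : Fin m ⊕ Fin m} {v : ι → F}
    (hv : bform hQ (P.b a) v = 0) (h : L.σ (L.ℓ (P.b a) v) = 1) : ∃ c : F, v = c • P.b a := by
  obtain ⟨p, hcp⟩ := CharP.exists F
  haveI : Fact p.Prime := ⟨(CharP.char_is_prime_or_zero F p).resolve_right fun h => by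
    subst h
    haveI := CharP.charP_to_charZero F
    exact not_finite F⟩
  let g := eM hQ L.dim (P.b a) v
  have hpow : ∀ n : ℕ, g ^ n = eM hQ L.dim (P.b a) ((n : F) • v) := by
    intro n
    induction n with
    | zero => rw [pow_zero, Nat.cast_zero, zero_smul, eM_zero (P.q_b a)]
    | succ n ih => rw [pow_succ, ih, ← eM_add (P.q_b a) (by rw [map_smul, hv, smul_zero]) hv,
        Nat.cast_succ, add_smul, one_smul]
  have hp : g ^ p = 1 := by rw [hpow, CharP.cast_eq_zero, zero_smul, eM_zero (P.q_b a)]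
  have hg : IsPGroup p (Subgroup.zpowers (g : GL ι F)) := by
    rintro ⟨x, hx⟩
    obtain ⟨k, rfl⟩ := Subgroup.mem_zpowers_iff.1 hx
    refine ⟨1, Subtype.ext ?_⟩
    show ((g : GL ι F) ^ k) ^ p ^ 1 = 1
    rw [pow_one, ← zpow_natCast, ← _root_.zpow_mul, mul_comm, _root_.zpow_mul, zpow_natCast, ← SubmonoidClass.coe_pow,
      hp, OneMemClass.coe_one, _root_.one_zpow]
  have h1 : g = 1 := prΩ_injOn hQ L.dim hg (Subgroup.mem_zpowers _) (one_mem _)
    (by rw [map_one]; rw [L.σ_ℓ] at h; exact h)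
  have h2 := eM_mulVec (hQ := hQ) (hn := L.dim) (P.q_b a) hv (P.b a.swap)
  rw [show eM hQ L.dim (P.b a) v = 1 from h1, OneMemClass.coe_one, Units.val_one, one_mulVec,
    P.b_b_swap] at h2
  refine ⟨bform hQ v (P.b a.swap) - Q v * 1, ?_⟩
  linear_combination (norm := module) h2

end Lifting

namespace Setting

variable (S : Setting P Γ)

local notation "bq" => bform hQ

theorem conj_κ {a c : Fin m ⊕ Fin m} (hac : idx a ≠ idx c) (g : Γ) {g₀ : ↥(omegaGL Q)}
    (hg : S.σ g = prΩ Q g₀) {v v' : ι → F} (hv : Perp P a c v) (hv' : Perp P a c v') :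
    g * S.κ a c (bq v v') * g⁻¹ =
      ⁅S.ℓ (((g₀ : GL ι F) : Matrix ι ι F) *ᵥ P.b c) (((g₀ : GL ι F) : Matrix ι ι F) *ᵥ v),
        S.ℓ (((g₀ : GL ι F) : Matrix ι ι F) *ᵥ P.b a) (((g₀ : GL ι F) : Matrix ι ι F) *ᵥ v')⁆ := by
  rw [← S.br_eq hac hv hv', br, conjugate_commutatorElement]
  exact S.congr (S.σ_conj_ℓ g hg (P.q_b c) hv.2) (S.σ_conj_ℓ g hg (P.q_b a) hv'.1)

theorem commute_of_fix {a c : Fin m ⊕ Fin m} (hac : idx a ≠ idx c) {g : Γ} {g₀ : ↥(omegaGL Q)}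
    (hg : S.σ g = prΩ Q g₀) (ga : ((g₀ : GL ι F) : Matrix ι ι F) *ᵥ P.b a = P.b a)
    (gc : ((g₀ : GL ι F) : Matrix ι ι F) *ᵥ P.b c = P.b c) (t : F) : Commute g (S.κ a c t) := by
  obtain ⟨d, h1, h2⟩ := exists_idx S.hm (idx a) (idx c)
  have pv := perp_b (P := P) (a := a) (c := c) h1 h2 t
  have pv' := perp_b (P := P) (a := a) (c := c) (d := d.swap) (by rwa [idx_swap]) (by rwa [idx_swap]) 1
  have ht : bq (t • P.b d) ((1 : F) • P.b d.swap) = t := by simp [P.b_b_swap]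
  have iso := omegaGL_le g₀.2
  have pg : ∀ {v}, Perp P a c v → Perp P a c (((g₀ : GL ι F) : Matrix ι ι F) *ᵥ v) := fun {v} h =>
    ⟨by nth_rw 1 [← ga]; rw [isometry_b hQ iso, h.1], by nth_rw 1 [← gc]; rw [isometry_b hQ iso, h.2]⟩
  have h := S.conj_κ hac g hg pv pv'
  rw [ga, gc, ht] at h
  have h' := S.br_eq hac (pg pv) (pg pv')
  rw [isometry_b hQ iso, ht, br] at h'
  rw [h'] at h
  exact mul_inv_eq_iff_eq_mul.1 h

include S in
theorem exists_three {a c d : Fin m ⊕ Fin m} (t : F) : ∃ y y' : ι → F, bq y y' = t ∧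
    bq (P.b a) y = 0 ∧ bq (P.b c) y = 0 ∧ bq (P.b d) y = 0 ∧
    bq (P.b a) y' = 0 ∧ bq (P.b c) y' = 0 ∧ bq (P.b d) y' = 0 := by
  rcases S.aux with hm | ⟨w₀, hw₀, w₁, hw₁, hb⟩
  · obtain ⟨e, h1, h2, h3⟩ := exists_idx₃ hm (idx a) (idx c) (idx d)
    refine ⟨t • P.b e, P.b e.swap, by simp [P.b_b_swap], ?_, ?_, ?_, P.b_orth ?_, P.b_orth ?_,
      P.b_orth ?_⟩
    any_goals first
      | (rw [map_smul, P.b_orth h1.symm, smul_zero])
      | (rw [map_smul, P.b_orth h2.symm, smul_zero])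
      | (rw [map_smul, P.b_orth h3.symm, smul_zero])
    all_goals rw [idx_swap]; first | exact h1.symm | exact h2.symm | exact h3.symm
  · exact ⟨t • w₀, w₁, by rw [map_smul, LinearMap.smul_apply, hb, smul_eq_mul, mul_one],
      P.bform_b_W (P.W.smul_mem t hw₀) _, P.bform_b_W (P.W.smul_mem t hw₀) _,
      P.bform_b_W (P.W.smul_mem t hw₀) _, P.bform_b_W hw₁ _, P.bform_b_W hw₁ _, P.bform_b_W hw₁ _⟩

theorem κ_commute {a c d : Fin m ⊕ Fin m} (hac : idx a ≠ idx c) (had : idx a ≠ idx d) (hcd : c ≠ d.swap)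
    (t s : F) : Commute (S.κ a c t) (S.κ a d s) :=
  S.commute_congr (S.commute_long had s (v := t • P.b c) (by rw [map_smul, P.b_orth hac, smul_zero])
    (by rw [map_smul, P.b_b, if_neg hcd, smul_zero])) (S.σ_κ hac t) (S.σ_κ had s)

/-- Conjugation by an element moving one of the vectors. -/
theorem κ_shear {a c d : Fin m ⊕ Fin m} (hac : idx a ≠ idx c) (had : idx a ≠ idx d) (hcd : idx c ≠ idx d)
    {g : Γ} {g₀ : ↥(omegaGL Q)} (hg : S.σ g = prΩ Q g₀)
    (ga : ((g₀ : GL ι F) : Matrix ι ι F) *ᵥ P.b a = P.b a) {k : F}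
    (gc : ((g₀ : GL ι F) : Matrix ι ι F) *ᵥ P.b c = P.b c + k • P.b d) (t : F) :
    g * S.κ a c t * g⁻¹ = S.κ a c t * S.κ a d (k * t) := by
  obtain ⟨y, y', hy, ay, cy, dy, ay', cy', dy'⟩ := S.exists_three (a := a) (c := c) (d := d) t
  have iso := omegaGL_le g₀.2
  let M : (ι → F) → (ι → F) := fun x => (((g₀ : GL ι F)⁻¹ : GL ι F) : Matrix ι ι F) *ᵥ x
  have hM : ∀ x, ((g₀ : GL ι F) : Matrix ι ι F) *ᵥ M x = x := fun x => OrthGeo.mulVec_inv_cancel _ x
  have pM : ∀ {x}, bq (P.b a) x = 0 → bq (P.b c) x = 0 → bq (P.b d) x = 0 → Perp P a c (M x) := by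
    intro x xa xc xd
    constructor <;> rw [← isometry_b hQ iso, hM]
    · rw [ga, xa]
    · rw [gc, map_add, map_smul, LinearMap.add_apply, LinearMap.smul_apply, xc, xd, smul_zero, add_zero]
  have hb : bq (M y) (M y') = t := by rw [← isometry_b hQ iso, hM, hM, hy]
  have h := S.conj_κ hac g hg (pM ay cy dy) (pM ay' cy' dy')
  rw [hb, ga, gc, hM, hM] at h
  have q0 : Q (k • P.b d) = 0 := by rw [q_smul hQ, P.q_b, mul_zero]
  have cd : bq (P.b c) (k • P.b d) = 0 := by rw [map_smul, P.b_orth hcd, smul_zero]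
  have ky : bq (P.b d) (k • y) = 0 := by rw [map_smul, dy, smul_zero]
  have e : S.σ (S.ℓ (P.b c + k • P.b d) y) =
      S.σ (S.ℓ (P.b c) ((Q y * k) • P.b d) * (S.ℓ (P.b c) y * S.ℓ (P.b d) (k • y))) := by
    rw [map_mul, map_mul, S.σ_ℓ, S.σ_ℓ, S.σ_ℓ, S.σ_ℓ, Lifting.img, Lifting.img, Lifting.img, Lifting.img,
      eM_add_left (P.q_b c) q0 cd cy (by rw [map_smul, LinearMap.smul_apply, dy, smul_zero]),
      eM_smul_left (P.q_b d) dy, smul_smul, map_mul, map_mul]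
  rw [S.congr e rfl] at h
  have perpA : Perp P a c ((Q y * k) • P.b d) :=
    perp_b (P := P) (a := a) (c := c) had.symm hcd.symm _
  have hA : ⁅S.ℓ (P.b c) ((Q y * k) • P.b d), S.ℓ (P.b a) y'⁆ = 1 := by
    have := S.br_eq hac perpA ⟨ay', cy'⟩
    rwa [map_smul, LinearMap.smul_apply, dy', smul_zero, S.κ_zero hac] at this
  have hB : ⁅S.ℓ (P.b c) y, S.ℓ (P.b a) y'⁆ = S.κ a c t := hy ▸ S.br_eq hac ⟨ay, cy⟩ ⟨ay', cy'⟩
  have hC : ⁅S.ℓ (P.b d) (k • y), S.ℓ (P.b a) y'⁆ = S.κ a d (k * t) := by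
    have := S.br_eq had (v := k • y) (v' := y') ⟨by rw [map_smul, ay, smul_zero], ky⟩ ⟨ay', dy'⟩
    rwa [map_smul, LinearMap.smul_apply, hy, smul_eq_mul] at this
  have fB : Commute (S.ℓ (P.b c) y) (S.κ a d (k * t)) :=
    S.commute_of_fix had (S.σ_lift _)
      (eM_fix (P.q_b c) cy (P.b_orth hac.symm) (by rw [b_symm hQ, ay]))
      (eM_fix (P.q_b c) cy (P.b_orth hcd) (by rw [b_symm hQ, dy])) _
  have fix : ∀ z : Fin m ⊕ Fin m, idx c ≠ idx z ∨ z = c → z ≠ d.swap →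
      (((eM hQ S.dim (P.b c) ((Q y * k) • P.b d) : ↥(omegaGL Q)) : GL ι F) : Matrix ι ι F) *ᵥ P.b z = P.b z := by
    intro z hz hzd
    refine eM_fix (P.q_b c) perpA.2 ?_ (by rw [map_smul, LinearMap.smul_apply, P.b_b, if_neg hzd, smul_zero])
    rcases hz with hz | rfl
    · exact P.b_orth hz
    · exact P.b_self_b _
  have hdne : ∀ z : Fin m ⊕ Fin m, idx z ≠ idx d → z ≠ d.swap := fun z hz e => hz (by rw [e, idx_swap])
  have fA : ∀ (z : Fin m ⊕ Fin m), (z = c ∨ z = d) → ∀ r, Commute (S.ℓ (P.b c) ((Q y * k) • P.b d)) (S.κ a z r) := by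
    rintro z (rfl | rfl) r
    · exact S.commute_of_fix hac (S.σ_lift _) (fix a (Or.inl hac.symm) (hdne a had))
        (fix _ (Or.inr rfl) (hdne _ hcd)) r
    · exact S.commute_of_fix had (S.σ_lift _) (fix a (Or.inl hac.symm) (hdne a had))
        (fix _ (Or.inl hcd) (Ne.symm (swap_ne _))) r
  have hBC : ⁅S.ℓ (P.b c) y * S.ℓ (P.b d) (k • y), S.ℓ (P.b a) y'⁆ = S.κ a d (k * t) * S.κ a c t := by
    rw [Schur.commutator_mul_left' (by rw [hC]; exact fB.eq), hB, hC]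
  rw [Schur.commutator_mul_left' (by rw [hBC]; exact ((fA d (Or.inr rfl) _).mul_right (fA c (Or.inl rfl) _)).eq),
    hBC, hA, mul_one] at h
  rw [h]
  exact (S.κ_commute had hac (fun e => hcd (by rw [e, idx_swap])) _ _).eq

/-- Long elements at a vector with opposite partners commute. -/
theorem commute_opposite {a c : Fin m ⊕ Fin m} (hac : idx a ≠ idx c) (t s : F) :
    Commute (S.κ a c t) (S.κ a c.swap s) := by
  by_cases ht : t = 0
  · rw [ht, S.κ_zero hac]; exact Commute.one_left _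
  obtain ⟨e, hea, hec⟩ := exists_idx S.hm (idx a) (idx c)
  have hac' : idx a ≠ idx c.swap := by rwa [idx_swap]
  have hec' : idx e ≠ idx c.swap := by rwa [idx_swap]
  obtain ⟨r, hr⟩ : ∃ r, r * t = s := ⟨s * t⁻¹, inv_mul_cancel_right₀ ht s⟩
  let g₁ := eM hQ S.dim (P.b c) ((1 : F) • P.b e.swap)
  let g₂ := eM hQ S.dim (P.b c.swap) (r • P.b e.swap)
  have o1 : bq (P.b c) ((1 : F) • P.b e.swap) = 0 := by
    rw [map_smul, P.b_orth (by rw [idx_swap]; exact hec.symm), smul_zero]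
  have o2 : bq (P.b c.swap) (r • P.b e.swap) = 0 := by
    rw [map_smul, P.b_orth (by rw [idx_swap, idx_swap]; exact hec.symm), smul_zero]
  have move : ∀ (z x : Fin m ⊕ Fin m) (k : F) (h : bq (P.b z) (k • P.b e.swap) = 0),
      idx x ≠ idx z → x ≠ e → (((eM hQ S.dim (P.b z) (k • P.b e.swap) : ↥(omegaGL Q)) : GL ι F) :
        Matrix ι ι F) *ᵥ P.b x = P.b x := fun z x k h hx hxe =>
    eM_fix (P.q_b z) h (P.b_orth hx.symm) (by
      rw [map_smul, LinearMap.smul_apply, P.b_b, if_neg (by rwa [Sum.swap_swap]), smul_zero])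
  have moveE : ∀ (z : Fin m ⊕ Fin m) (k : F) (h : bq (P.b z) (k • P.b e.swap) = 0), idx e ≠ idx z →
      (((eM hQ S.dim (P.b z) (k • P.b e.swap) : ↥(omegaGL Q)) : GL ι F) : Matrix ι ι F) *ᵥ P.b e =
        P.b e + k • P.b z := fun z k h hz => by
    rw [eM_mulVec (P.q_b z) h, P.b_orth hz.symm, map_smul, LinearMap.smul_apply, P.b_swap_b]
    simp
  have moveS : ∀ (z : Fin m ⊕ Fin m) (k : F) (h : bq (P.b z) (k • P.b e.swap) = 0), idx e ≠ idx z →
      (((eM hQ S.dim (P.b z) (k • P.b e.swap) : ↥(omegaGL Q)) : GL ι F) : Matrix ι ι F) *ᵥ P.b z.swap =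
        P.b z.swap + (-k) • P.b e.swap := fun z k h hz => by
    rw [eM_mulVec (P.q_b z) h, P.b_b_swap, map_smul, LinearMap.smul_apply,
      P.b_orth (by rwa [idx_swap, idx_swap]), q_smul hQ, P.q_b]
    simp [sub_eq_add_neg]
  have e1 : S.σ (S.lift g₁) = prΩ Q g₁ := S.σ_lift _
  have e2 : S.σ (S.lift g₂) = prΩ Q g₂ := S.σ_lift _
  have ga₁ := move c a 1 o1 hac (fun h => hea (by rw [h]))
  have ga₂ := move c.swap a r o2 hac' (fun h => hea (by rw [h]))
  have hes : idx e.swap ≠ idx a := by rwa [idx_swap]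
  -- the two conjugations
  have A1 := S.κ_shear hea.symm hac hec e1 ga₁ (moveE c 1 o1 hec) t
  have B1 := S.κ_shear hea.symm hac' hec' e2 ga₂ (moveE c.swap r o2 hec') t
  have A2 := S.κ_shear hac' hes.symm (by rw [idx_swap, idx_swap]; exact hec.symm) e1 ga₁ (moveS c 1 o1 hec) s
  have hm2 := moveS c.swap r o2 hec'
  rw [Sum.swap_swap] at hm2
  have B2 := S.κ_shear hac hes.symm (by rw [idx_swap]; exact hec.symm) e2 ga₂ hm2 t
  rw [one_mul] at A1
  rw [hr] at B1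
  rw [neg_one_mul] at A2
  rw [neg_mul, hr] at B2
  have fix1 : S.lift g₁ * S.κ a c t * (S.lift g₁)⁻¹ = S.κ a c t :=
    mul_inv_eq_iff_eq_mul.2 (S.commute_of_fix hac e1 ga₁ (eM_fix (P.q_b c) o1 (P.b_self_b c)
      (by rw [map_smul, LinearMap.smul_apply, P.b_orth (by rwa [idx_swap]), smul_zero])) t).eq
  have fix2 : S.lift g₂ * S.κ a c.swap s * (S.lift g₂)⁻¹ = S.κ a c.swap s :=
    mul_inv_eq_iff_eq_mul.2 (S.commute_of_fix hac' e2 ga₂ (eM_fix (P.q_b c.swap) o2 (P.b_self_b _)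
      (by rw [map_smul, LinearMap.smul_apply, P.b_orth (by rwa [idx_swap, idx_swap]), smul_zero])) s).eq
  have hcomm : ⁅S.lift g₁, S.lift g₂⁆ ∈ Subgroup.center Γ := pair_pow S.central (by
    rw [e1, e2]
    refine Commute.map ?_ (prΩ Q)
    show Commute g₁ g₂
    simp only [g₁, g₂]
    rw [eM_swap (P.q_b c) (P.q_b _) (P.b_orth (by rw [idx_swap]; exact hec.symm)),
      eM_swap (P.q_b c.swap) (P.q_b _) (P.b_orth (by rw [idx_swap, idx_swap]; exact hec.symm))]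
    exact eM_commute_same (P.q_b _) (by rw [map_smul, P.b_orth (by rwa [idx_swap]), smul_zero])
      (by rw [map_smul, P.b_orth (by rwa [idx_swap, idx_swap]), smul_zero]))
  have L1 : S.lift g₁ * (S.lift g₂ * S.κ a e t * (S.lift g₂)⁻¹) * (S.lift g₁)⁻¹ =
      S.κ a e t * S.κ a c t * (S.κ a c.swap s * S.κ a e.swap (-s)) := by
    rw [B1, ← A1, ← A2]; group
  have L2 : S.lift g₂ * (S.lift g₁ * S.κ a e t * (S.lift g₁)⁻¹) * (S.lift g₂)⁻¹ =
      S.κ a e t * S.κ a c.swap s * (S.κ a c t * S.κ a e.swap (-s)) := by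
    rw [A1, ← B1, ← B2]; group
  have hz : ∀ x, S.lift g₁ * (S.lift g₂ * x * (S.lift g₂)⁻¹) * (S.lift g₁)⁻¹ =
      S.lift g₂ * (S.lift g₁ * x * (S.lift g₁)⁻¹) * (S.lift g₂)⁻¹ := fun x => by
    calc _ = ⁅S.lift g₁, S.lift g₂⁆ * (S.lift g₂ * (S.lift g₁ * x * (S.lift g₁)⁻¹) * (S.lift g₂)⁻¹) *
          ⁅S.lift g₁, S.lift g₂⁆⁻¹ := by simp only [commutatorElement_def]; group
      _ = _ := by rw [← Subgroup.mem_center_iff.1 hcomm, mul_inv_cancel_right]
  have key := (L1.symm.trans ((hz _).trans L2))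
  rw [mul_assoc, mul_assoc, mul_right_inj, ← mul_assoc, ← mul_assoc, mul_left_inj] at key
  exact key

/-- Short elements at a vector commute. -/
theorem commute_short (a : Fin m ⊕ Fin m) {w x : ι → F} (hw : w ∈ P.W) (hx : x ∈ P.W) :
    Commute (S.ℓ (P.b a) (-x)) (S.ℓ (P.b a) w) := by
  obtain ⟨c, hca, -⟩ := exists_idx S.hm (idx a) (idx a)
  have hca' : idx a ≠ idx c.swap := by rw [idx_swap]; exact hca.symm
  let g := eM hQ S.dim (P.b c) x
  have o := P.bform_b_W hx c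
  have ga : ((g : GL ι F) : Matrix ι ι F) *ᵥ P.b a = P.b a :=
    eM_fix (P.q_b c) o (P.b_orth hca) (P.bform_W_b hx a)
  have gc : ((g : GL ι F) : Matrix ι ι F) *ᵥ ((1 : F) • P.b c.swap) =
      (P.b c.swap + -x) + (-Q x) • P.b c := by
    rw [one_smul, eM_mulVec (P.q_b c) o, P.bform_W_b hx, P.b_b_swap]
    module
  have gw : ((g : GL ι F) : Matrix ι ι F) *ᵥ w = w + bq x w • P.b c := by
    rw [eM_mulVec (P.q_b c) o, P.bform_b_W hw]
    simp
  have p1 : bq (P.b a) ((1 : F) • P.b c.swap) = 0 := by rw [map_smul, P.b_orth hca', smul_zero]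
  have pw := P.bform_b_W hw a
  have h0 : Commute (S.ℓ (P.b a) ((1 : F) • P.b c.swap)) (S.ℓ (P.b a) w) :=
    (S.commute_long hca' 1 pw (P.bform_b_W hw _)).symm
  have e₁ := S.σ_conj_ℓ (S.lift g) (S.σ_lift g) (P.q_b a) p1
  have e₂ := S.σ_conj_ℓ (S.lift g) (S.σ_lift g) (P.q_b a) pw
  rw [ga, gc] at e₁
  rw [ga, gw] at e₂
  have px : bq (P.b a) (-x) = 0 := P.bform_b_W (P.W.neg_mem hx) a
  have pc : bq (P.b a) (P.b c.swap) = 0 := P.b_orth hca'
  have pr : ∀ r : F, bq (P.b a) (r • P.b c) = 0 := fun r => by rw [map_smul, P.b_orth hca.symm, smul_zero]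
  have hcc : ∀ r r' : F, Commute (S.ℓ (P.b a) (r • P.b c)) (S.ℓ (P.b a) (r' • P.b c.swap)) := fun r r' =>
    S.commute_congr (S.commute_opposite hca.symm r r') (S.σ_κ hca.symm r).symm (S.σ_κ hca' r').symm
  have hall := S.conj_congr h0 e₁ e₂
  have hs1 : S.σ (S.ℓ (P.b a) ((P.b c.swap + -x) + (-Q x) • P.b c)) =
      S.σ (S.ℓ (P.b a) (P.b c.swap) * S.ℓ (P.b a) (-x) * S.ℓ (P.b a) ((-Q x) • P.b c)) := by
    rw [S.σ_ℓ_add (P.q_b a) (by rw [map_add, pc, px, add_zero]) (pr _), map_mul,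
      S.σ_ℓ_add (P.q_b a) pc px, map_mul, map_mul, map_mul]
  have hs2 := S.σ_ℓ_add (P.q_b a) pw (pr (bq x w))
  have hall' := S.commute_congr hall hs1.symm hs2.symm
  set A := S.ℓ (P.b a) (P.b c.swap)
  set B := S.ℓ (P.b a) (-x)
  set C := S.ℓ (P.b a) ((-Q x) • P.b c)
  set D := S.ℓ (P.b a) w
  set E := S.ℓ (P.b a) (bq x w • P.b c)
  have hAE : Commute A E := by
    have := (hcc (bq x w) 1).symm
    rwa [one_smul] at this
  have hBE : Commute B E := S.commute_long hca.symm _ px (P.bform_b_W (P.W.neg_mem hx) c)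
  have hCE : Commute C E := S.commute_long hca.symm _ (pr _) (by rw [map_smul, P.b_self_b, smul_zero])
  have hABCD : Commute (A * B * C) D := by
    have := hall'.mul_right (((hAE.mul_left hBE).mul_left hCE).inv_right)
    rwa [mul_inv_cancel_right] at this
  have hAD : Commute A D := by
    have := h0
    rwa [one_smul] at this
  have hCD : Commute C D := (S.commute_long hca.symm _ pw (P.bform_b_W hw c)).symm
  have := (hAD.inv_left.mul_left hABCD).mul_left hCD.inv_left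
  rwa [show A⁻¹ * (A * B * C) * C⁻¹ = B by group] at this

/-- The lifts of the transformations at a vector commute. -/
theorem commute_rad (a : Fin m ⊕ Fin m) {v v' : ι → F} (hv : bq (P.b a) v = 0)
    (hv' : bq (P.b a) v' = 0) : Commute (S.ℓ (P.b a) v) (S.ℓ (P.b a) v') := by
  refine P.perp_induction a a (motive := fun x => Commute (S.ℓ (P.b a) x) (S.ℓ (P.b a) v'))
    (S.commute_of_eq_one (S.σ_ℓ_zero (P.q_b a)) _)
    (fun x y h1 _ h3 _ i1 i2 => (S.commute_add (P.q_b a) h1 h3 i1.symm i2.symm).symm) ?_ ?_ v hv hv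
  · intro d s hd _
    by_cases hda : d = a
    · subst hda; exact S.commute_of_eq_one (S.σ_ℓ_self (P.q_b _) s) _
    have hid : idx a ≠ idx d := fun e => (idx_eq.1 e.symm).elim hda hd
    have pd : bq (P.b a) (s • P.b d) = 0 := by rw [map_smul, P.b_orth hid, smul_zero]
    refine P.perp_induction a a (motive := fun y => Commute (S.ℓ (P.b a) (s • P.b d)) (S.ℓ (P.b a) y))
      (S.commute_of_eq_one (S.σ_ℓ_zero (P.q_b a)) _).symm
      (fun x y h1 _ h3 _ i1 i2 => S.commute_add (P.q_b a) h1 h3 i1 i2) ?_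
      (fun w hw => (S.commute_long hid s (P.bform_b_W hw a) (P.bform_b_W hw d)).symm) v' hv' hv'
    intro e r he _
    by_cases hea : e = a
    · subst hea; exact (S.commute_of_eq_one (S.σ_ℓ_self (P.q_b _) r) _).symm
    have hie : idx a ≠ idx e := fun h => (idx_eq.1 h.symm).elim hea he
    by_cases hde : e = d.swap
    · subst hde
      exact S.commute_congr (S.commute_opposite hid s r) (S.σ_κ hid s).symm (S.σ_κ hie r).symm
    · exact S.commute_long hie r pd (by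
        rw [map_smul, P.b_b, if_neg (fun h => hde (by rw [h, Sum.swap_swap])), smul_zero])
  · intro w hw
    refine P.perp_induction a a (motive := fun y => Commute (S.ℓ (P.b a) w) (S.ℓ (P.b a) y))
      (S.commute_of_eq_one (S.σ_ℓ_zero (P.q_b a)) _).symm
      (fun x y h1 _ h3 _ i1 i2 => S.commute_add (P.q_b a) h1 h3 i1 i2) ?_ ?_ v' hv' hv'
    · intro e r he _
      by_cases hea : e = a
      · subst hea; exact (S.commute_of_eq_one (S.σ_ℓ_self (P.q_b _) r) _).symm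
      exact S.commute_long (fun h => (idx_eq.1 h.symm).elim hea he) r (P.bform_b_W hw a) (P.bform_b_W hw e)
    · intro x hx
      have := S.commute_short a hx (P.W.neg_mem hw)
      rwa [neg_neg] at this

theorem commute_rad' (a : Fin m ⊕ Fin m) {x y : Γ} {v v' : ι → F} (hv : bq (P.b a) v = 0)
    (hv' : bq (P.b a) v' = 0) (hx : S.σ x = S.σ (S.ℓ (P.b a) v)) (hy : S.σ y = S.σ (S.ℓ (P.b a) v')) :
    Commute x y :=
  S.commute_congr (S.commute_rad a hv hv') hx hy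

/-- The commutator producing a short element. -/
noncomputable def phi (a c : Fin m ⊕ Fin m) (w : ι → F) (t : F) : Γ :=
  ⁅S.ℓ (P.b c) w, S.κ a c.swap t⁆

/-- Its parameter. -/
def phiVec (P : Polar hQ m) (c : Fin m ⊕ Fin m) (w : ι → F) (t : F) : ι → F :=
  -(t • w) + (-(t * Q w)) • P.b c

theorem phiVec_perp {a c d : Fin m ⊕ Fin m} (hac : idx a ≠ idx c) (hcd : c ≠ d.swap) {w : ι → F}
    (hw : w ∈ P.W) (t : F) : Perp P a d (phiVec P c w t) := by
  have h : ∀ z, bq (P.b z) (-(t • w)) = 0 := fun z => P.bform_b_W (P.W.neg_mem (P.W.smul_mem t hw)) z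
  constructor <;> rw [phiVec, map_add, h, map_smul, zero_add]
  · rw [P.b_orth hac, smul_zero]
  · rw [P.b_b, if_neg hcd, smul_zero]

theorem phiVec_orth {a c : Fin m ⊕ Fin m} (hac : idx a ≠ idx c) {w : ι → F}
    (hw : w ∈ P.W) (t : F) : bq (P.b a) (phiVec P c w t) = 0 :=
  (phiVec_perp (d := c) hac (Ne.symm (swap_ne c)) hw t).1

theorem σ_phi {a c : Fin m ⊕ Fin m} (hac : idx a ≠ idx c) {w : ι → F} (hw : w ∈ P.W) (t : F) :
    S.σ (S.phi a c w t) = S.σ (S.ℓ (P.b a) (phiVec P c w t)) := by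
  have hac' : idx a ≠ idx c.swap := by rwa [idx_swap]
  have ow := P.bform_b_W hw c
  have oc : bq (P.b a) (t • P.b c.swap) = 0 := by rw [map_smul, P.b_orth hac', smul_zero]
  rw [phi, map_commutatorElement, S.σ_κ hac', S.σ_ℓ, S.σ_ℓ, S.σ_ℓ, Lifting.img, Lifting.img, Lifting.img,
    ← map_commutatorElement]
  congr 1
  rw [commutatorElement_def, eM_conj _ (P.q_b a) oc,
    eM_fix (P.q_b c) ow (P.b_orth hac.symm) (P.bform_W_b hw a),
    show ((eM hQ S.dim (P.b c) w : GL ι F) : Matrix ι ι F) *ᵥ (t • P.b c.swap) =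
      phiVec P c w t + t • P.b c.swap by
        rw [mulVec_smul, eM_mulVec (P.q_b c) ow, P.bform_W_b hw, P.b_b_swap, phiVec]
        module,
    eM_add (P.q_b a) (phiVec_orth hac hw t) oc, mul_inv_cancel_right]

/-- The canonical long lifts at a vector. -/
def kSub (a : Fin m ⊕ Fin m) : Subgroup Γ :=
  Subgroup.closure {x | ∃ c, idx a ≠ idx c ∧ ∃ t, x = S.κ a c t}

/-- The canonical lifts at a vector. -/
def nSub (a : Fin m ⊕ Fin m) : Subgroup Γ :=
  Subgroup.closure {x | ∃ c, idx a ≠ idx c ∧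
    ((∃ t, x = S.κ a c t) ∨ ∃ w ∈ P.W, ∃ t, x = S.phi a c w t)}

theorem κ_mem_kSub {a c : Fin m ⊕ Fin m} (h : idx a ≠ idx c) (t : F) : S.κ a c t ∈ S.kSub a :=
  Subgroup.subset_closure ⟨c, h, t, rfl⟩

theorem κ_mem_nSub {a c : Fin m ⊕ Fin m} (h : idx a ≠ idx c) (t : F) : S.κ a c t ∈ S.nSub a :=
  Subgroup.subset_closure ⟨c, h, Or.inl ⟨t, rfl⟩⟩

theorem phi_mem_nSub {a c : Fin m ⊕ Fin m} (h : idx a ≠ idx c) {w : ι → F} (hw : w ∈ P.W) (t : F) :
    S.phi a c w t ∈ S.nSub a :=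
  Subgroup.subset_closure ⟨c, h, Or.inr ⟨w, hw, t, rfl⟩⟩

theorem kSub_le (a : Fin m ⊕ Fin m) : S.kSub a ≤ S.nSub a :=
  (Subgroup.closure_le _).2 (by rintro _ ⟨c, h, t, rfl⟩; exact S.κ_mem_nSub h t)

theorem exists_vec {a : Fin m ⊕ Fin m} {x : Γ} (hx : x ∈ S.nSub a) :
    ∃ v, bq (P.b a) v = 0 ∧ S.σ x = S.σ (S.ℓ (P.b a) v) := by
  induction hx using Subgroup.closure_induction with
  | mem x hx =>
    obtain ⟨c, hac, ⟨t, rfl⟩ | ⟨w, hw, t, rfl⟩⟩ := hx
    · exact ⟨_, by rw [map_smul, P.b_orth hac, smul_zero], S.σ_κ hac t⟩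
    · exact ⟨_, phiVec_orth hac hw t, S.σ_phi hac hw t⟩
  | one => exact ⟨0, map_zero _, by rw [map_one, S.σ_ℓ_zero (P.q_b a)]⟩
  | mul x y _ _ hx hy =>
    obtain ⟨v, hv, ex⟩ := hx
    obtain ⟨v', hv', ey⟩ := hy
    exact ⟨v + v', by rw [map_add, hv, hv', add_zero], by
      rw [map_mul, ex, ey, S.σ_ℓ_add (P.q_b a) hv hv', map_mul]⟩
  | inv x _ hx =>
    obtain ⟨v, hv, ex⟩ := hx
    refine ⟨-v, by rw [map_neg, hv, neg_zero], ?_⟩
    rw [map_inv, ex, S.σ_ℓ, S.σ_ℓ, Lifting.img, Lifting.img, eM_neg (P.q_b a) hv, map_inv]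

theorem nSub_comm {a : Fin m ⊕ Fin m} {x y : Γ} (hx : x ∈ S.nSub a) (hy : y ∈ S.nSub a) :
    Commute x y := by
  obtain ⟨v, hv, ex⟩ := S.exists_vec hx
  obtain ⟨v', hv', ey⟩ := S.exists_vec hy
  exact S.commute_rad' a hv hv' ex ey

theorem bracket_mem {a c : Fin m ⊕ Fin m} (hac : idx a ≠ idx c) {z x : Γ} {v' v : ι → F}
    (hv' : Perp P a c v') (hv : Perp P a c v) (hz : S.σ z = S.σ (S.ℓ (P.b c) v'))
    (hx : S.σ x = S.σ (S.ℓ (P.b a) v)) : ⁅z, x⁆ ∈ S.kSub a := by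
  rw [S.congr hz hx, show ⁅S.ℓ (P.b c) v', S.ℓ (P.b a) v⁆ = S.br a c v' v from rfl, S.br_eq hac hv' hv]
  exact S.κ_mem_kSub hac _

/-- The short elements at different indices agree up to long ones. -/
theorem phi_indep {a c d : Fin m ⊕ Fin m} (hac : idx a ≠ idx c) (had : idx a ≠ idx d)
    (hcd : idx c ≠ idx d) {w : ι → F} (hw : w ∈ P.W) (s t : F) :
    S.phi a c (-(s • w)) t * S.phi a d w (t * s) ∈ S.kSub a := by
  have hcd' : idx c ≠ idx d.swap := by rwa [idx_swap]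
  have had' : idx a ≠ idx d.swap := by rwa [idx_swap]
  have hac' : idx a ≠ idx c.swap := by rwa [idx_swap]
  have hne : ∀ {z z' : Fin m ⊕ Fin m}, idx z ≠ idx z' → z ≠ z'.swap := fun {z z'} h e =>
    h (by rw [e, idx_swap])
  have og : bq (P.b a) (t • P.b c.swap) = 0 := by rw [map_smul, P.b_orth hac', smul_zero]
  let g₀ := eM hQ S.dim (P.b a) (t • P.b c.swap)
  have eg : S.σ (S.κ a c.swap t) = prΩ Q g₀ := by rw [S.σ_κ hac', S.σ_ℓ]; rfl
  have fixd : ∀ z : Fin m ⊕ Fin m, idx z = idx d →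
      ((g₀ : GL ι F) : Matrix ι ι F) *ᵥ P.b z = P.b z := fun z hz =>
    eM_fix (P.q_b a) og (P.b_orth (by rwa [hz]))
      (by rw [map_smul, LinearMap.smul_apply, P.b_orth (by rw [idx_swap, hz]; exact hcd), smul_zero])
  have gc : ((g₀ : GL ι F) : Matrix ι ι F) *ᵥ P.b c = P.b c + t • P.b a := by
    rw [eM_mulVec (P.q_b a) og, P.b_orth hac, map_smul, LinearMap.smul_apply, P.b_swap_b]
    simp
  have gw : ((g₀ : GL ι F) : Matrix ι ι F) *ᵥ w = w :=
    eM_fix (P.q_b a) og (P.bform_b_W hw a) (by rw [map_smul, LinearMap.smul_apply, P.bform_b_W hw, smul_zero])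
  set g := S.κ a c.swap t with hgdef
  set x := S.phi c d w s with hxdef
  set f := S.phi a d w (t * s) with hfdef
  have eκ : g * S.κ c d.swap s * g⁻¹ = S.κ c d.swap s * S.κ a d.swap (t * s) := by
    rw [S.κ_swap hcd'.symm, S.κ_swap had'.symm,
      S.κ_shear hcd'.symm had'.symm hac.symm eg (fixd _ (idx_swap d)) gc, mul_neg]
  have eℓ : S.σ (g * S.ℓ (P.b d) w * g⁻¹) = S.σ (S.ℓ (P.b d) w) := by
    rw [S.σ_conj_ℓ g eg (P.q_b d) (P.bform_b_W hw d), fixd d rfl, gw]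
  have ec : g * x * g⁻¹ = x * (S.κ c d.swap s * f * (S.κ c d.swap s)⁻¹) := by
    rw [hxdef, hfdef, phi, phi, conjugate_commutatorElement, eκ, S.congr eℓ rfl]
    simp only [commutatorElement_def]
    group
  have vx := S.σ_phi hcd hw s
  have vf := S.σ_phi had hw (t * s)
  have p1 : Perp P a c (s • P.b d.swap) := perp_b (P := P) (a := a) (c := c) had'.symm hcd'.symm s
  have pf : Perp P a c (phiVec P d w (t * s)) := phiVec_perp had (hne hcd.symm) hw _
  have px : Perp P a c (phiVec P d w s) := phiVec_perp had (hne hcd.symm) hw _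
  have hk1 := S.bracket_mem hac p1 pf (S.σ_κ hcd' s) vf
  have hk2 := S.bracket_mem hac px pf vx vf
  have hxk : Commute x ⁅S.κ c d.swap s, f⁆ := by
    rw [S.congr (S.σ_κ hcd' s) vf, show ⁅S.ℓ (P.b c) (s • P.b d.swap), S.ℓ (P.b a) (phiVec P d w (t * s))⁆ =
      S.br a c (s • P.b d.swap) (phiVec P d w (t * s)) from rfl, S.br_eq hac p1 pf]
    have oc : bq (P.b c) (phiVec P d w s) = 0 := px.2
    exact S.commute_of_fix hac (g₀ := eM hQ S.dim (P.b c) (phiVec P d w s)) (vx.trans (S.σ_ℓ _ _))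
      (eM_fix (P.q_b c) oc (P.b_orth hac.symm) (by rw [b_symm hQ]; exact px.1))
      (eM_fix (P.q_b c) oc (P.b_self_b c) (by rw [b_symm hQ]; exact oc)) _
  have h1 : ⁅g, x⁆ = ⁅S.κ c d.swap s, f⁆ * (⁅x, f⁆ * f) := by
    rw [commutatorElement_def g x, ec]
    calc x * (S.κ c d.swap s * f * (S.κ c d.swap s)⁻¹) * x⁻¹
        = (x * ⁅S.κ c d.swap s, f⁆ * x⁻¹) * (⁅x, f⁆ * f) := by simp only [commutatorElement_def]; group
      _ = _ := by rw [hxk.eq, mul_inv_cancel_right]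
  -- the opposite commutator
  have ow := P.bform_b_W (P.W.neg_mem (P.W.smul_mem s hw)) c
  have od : bq (P.b c) ((-(s * Q w)) • P.b d) = 0 := by rw [map_smul, P.b_orth hcd, smul_zero]
  let g₂ := eM hQ S.dim (P.b c) ((-(s * Q w)) • P.b d)
  have ga2 : ((g₂ : GL ι F) : Matrix ι ι F) *ᵥ P.b a = P.b a :=
    eM_fix (P.q_b c) od (P.b_orth hac.symm) (by rw [map_smul, LinearMap.smul_apply, P.b_orth had.symm, smul_zero])
  have gc2 : ((g₂ : GL ι F) : Matrix ι ι F) *ᵥ P.b c.swap = P.b c.swap + (s * Q w) • P.b d := by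
    rw [eM_mulVec (P.q_b c) od, P.b_b_swap, map_smul, LinearMap.smul_apply,
      P.b_orth (by rw [idx_swap]; exact hcd.symm), q_smul hQ, P.q_b]
    simp
  have e2 := S.κ_shear hac' had (by rwa [idx_swap]) (g := S.lift g₂) (S.σ_lift g₂) ga2 gc2 t
  have hb2 : ⁅S.lift g₂, g⁆ = S.κ a d (s * Q w * t) := by
    rw [commutatorElement_def, hgdef, e2,
      (S.κ_commute hac' had (hne (by rwa [idx_swap])) t _).eq, mul_inv_cancel_right]
  have hfix : Commute (S.ℓ (P.b c) (-(s • w))) ⁅S.lift g₂, g⁆ := by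
    rw [hb2]
    exact S.commute_of_fix had (S.σ_lift _)
      (eM_fix (P.q_b c) ow (P.b_orth hac.symm) (P.bform_W_b (P.W.neg_mem (P.W.smul_mem s hw)) a))
      (eM_fix (P.q_b c) ow (P.b_orth hcd) (P.bform_W_b (P.W.neg_mem (P.W.smul_mem s hw)) d)) _
  have h2 : ⁅x, g⁆ = S.κ a d (s * Q w * t) * S.phi a c (-(s • w)) t := by
    have e : S.σ x = S.σ (S.ℓ (P.b c) (-(s • w)) * S.lift g₂) := by
      rw [vx, phiVec, S.σ_ℓ_add (P.q_b c) ow od]
      rfl
    rw [S.congr e rfl, Schur.commutator_mul_left' hfix.eq, hb2]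
    rfl
  have hfN : f ∈ S.nSub a := S.phi_mem_nSub had hw (t * s)
  have hgN := S.phi_mem_nSub hac (P.W.neg_mem (P.W.smul_mem s hw)) t
  have hk3 := S.κ_mem_kSub had (s * Q w * t)
  have hprod : S.κ a d (s * Q w * t) * S.phi a c (-(s • w)) t *
      (⁅S.κ c d.swap s, f⁆ * (⁅x, f⁆ * f)) = 1 := by
    rw [← h1, ← h2, ← commutatorElement_inv x g, mul_inv_cancel]
  set K3 := S.κ a d (s * Q w * t)
  set Φ := S.phi a c (-(s • w)) t
  set K1 := ⁅S.κ c d.swap s, f⁆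
  set K2 := ⁅x, f⁆
  have hK : K1 * K2 ∈ S.nSub a := S.kSub_le a (mul_mem hk1 hk2)
  have e : Φ * f = K3⁻¹ * (K1 * K2)⁻¹ := by
    rw [eq_inv_mul_iff_mul_eq, eq_inv_iff_mul_eq_one, ← hprod]
    have hc := (S.nSub_comm hfN hK).eq
    calc K3 * (Φ * f) * (K1 * K2) = K3 * Φ * (f * (K1 * K2)) := by group
      _ = K3 * Φ * (K1 * (K2 * f)) := by rw [hc]; group
  rw [e]
  exact mul_mem (inv_mem hk3) (inv_mem (mul_mem hk1 hk2))

theorem phi_add_t {a c : Fin m ⊕ Fin m} (hac : idx a ≠ idx c) {w : ι → F} (hw : w ∈ P.W) (t t' : F) :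
    S.phi a c w (t + t') = S.phi a c w t * S.phi a c w t' := by
  have hac' : idx a ≠ idx c.swap := by rwa [idx_swap]
  rw [phi, S.κ_add hac', Schur.commutator_mul_right'
    (S.nSub_comm (S.κ_mem_nSub hac' t) (S.phi_mem_nSub hac hw t')).eq]
  rfl

theorem phi_add_w {a c : Fin m ⊕ Fin m} (hac : idx a ≠ idx c) {w w' : ι → F} (hw : w ∈ P.W)
    (hw' : w' ∈ P.W) : ∃ k ∈ S.kSub a, S.phi a c (w + w') 1 = k * (S.phi a c w 1 * S.phi a c w' 1) := by
  have hac' : idx a ≠ idx c.swap := by rwa [idx_swap]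
  have hb := S.bracket_mem hac (perp_W (P := P) (a := a) (c := c) hw)
    (phiVec_perp (d := c) hac (Ne.symm (swap_ne c)) hw' 1) rfl (S.σ_phi hac hw' 1)
  refine ⟨_, hb, ?_⟩
  have e : S.phi a c (w + w') 1 = S.ℓ (P.b c) w * S.phi a c w' 1 * (S.ℓ (P.b c) w)⁻¹ * S.phi a c w 1 := by
    rw [phi, phi, phi, S.congr (S.σ_ℓ_add (P.q_b c) (P.bform_b_W hw c) (P.bform_b_W hw' c)) rfl]
    simp only [commutatorElement_def]
    group
  rw [e, commutatorElement_def, (S.nSub_comm (S.phi_mem_nSub hac hw 1) (S.phi_mem_nSub hac hw' 1)).eq]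
  group

/-- The normal form. -/
def NForm (a c : Fin m ⊕ Fin m) (x : Γ) : Prop :=
  ∃ k ∈ S.kSub a, ∃ w ∈ P.W, x = k * S.phi a c w 1

theorem phi_zero {a c : Fin m ⊕ Fin m} : S.phi a c 0 1 = 1 :=
  commutatorElement_eq_one_iff_commute.2 (S.commute_of_eq_one (S.σ_ℓ_zero (P.q_b c)) _)

theorem nForm_kSub {a c : Fin m ⊕ Fin m} {k : Γ} (hk : k ∈ S.kSub a) : S.NForm a c k :=
  ⟨k, hk, 0, P.W.zero_mem, by rw [S.phi_zero, mul_one]⟩

theorem nForm_mul {a c : Fin m ⊕ Fin m} (hac : idx a ≠ idx c) {x y : Γ} (hx : S.NForm a c x)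
    (hy : S.NForm a c y) : S.NForm a c (x * y) := by
  obtain ⟨k, hk, w, hw, rfl⟩ := hx
  obtain ⟨k', hk', w', hw', rfl⟩ := hy
  obtain ⟨l, hl, e⟩ := S.phi_add_w hac hw hw'
  refine ⟨k * k' * l⁻¹, mul_mem (mul_mem hk hk') (inv_mem hl), w + w', P.W.add_mem hw hw', ?_⟩
  have h := (S.nSub_comm (S.phi_mem_nSub hac hw 1) (S.kSub_le a hk')).eq
  rw [e]
  calc k * S.phi a c w 1 * (k' * S.phi a c w' 1)
      = k * (S.phi a c w 1 * k') * S.phi a c w' 1 := by group
    _ = _ := by rw [h]; group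

theorem nForm_phi_inv {a c : Fin m ⊕ Fin m} (hac : idx a ≠ idx c) {w : ι → F} (hw : w ∈ P.W) :
    S.NForm a c (S.phi a c w 1)⁻¹ := by
  obtain ⟨l, hl, e⟩ := S.phi_add_w hac (P.W.neg_mem hw) hw
  rw [neg_add_cancel, S.phi_zero, ← mul_assoc] at e
  exact ⟨l, hl, -w, P.W.neg_mem hw, (eq_inv_of_mul_eq_one_left e.symm).symm⟩

theorem nForm_inv {a c : Fin m ⊕ Fin m} (hac : idx a ≠ idx c) {x : Γ} (hx : S.NForm a c x) :
    S.NForm a c x⁻¹ := by
  obtain ⟨k, hk, w, hw, rfl⟩ := hx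
  rw [_root_.mul_inv_rev]
  exact S.nForm_mul hac (S.nForm_phi_inv hac hw) (S.nForm_kSub (inv_mem hk))

theorem nForm_phi_other {a c d : Fin m ⊕ Fin m} (hac : idx a ≠ idx c) (had : idx a ≠ idx d)
    (hcd : idx c ≠ idx d) {w : ι → F} (hw : w ∈ P.W) (t : F) : S.NForm a c (S.phi a d w t) := by
  have h := S.phi_indep hac had hcd hw t 1
  rw [one_mul] at h
  have e : S.phi a d w t = (S.phi a c (-(t • w)) 1)⁻¹ * (S.phi a c (-(t • w)) 1 * S.phi a d w t) := by group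
  rw [e]
  exact S.nForm_mul hac (S.nForm_phi_inv hac (P.W.neg_mem (P.W.smul_mem t hw))) (S.nForm_kSub h)

theorem nForm_of_mem {a c : Fin m ⊕ Fin m} (hac : idx a ≠ idx c) {x : Γ} (hx : x ∈ S.nSub a) :
    S.NForm a c x := by
  induction hx using Subgroup.closure_induction with
  | mem x hx =>
    obtain ⟨d, had, ⟨t, rfl⟩ | ⟨w, hw, t, rfl⟩⟩ := hx
    · exact S.nForm_kSub (S.κ_mem_kSub had t)
    · by_cases hcd : idx c = idx d
      · obtain ⟨e, hea, hec⟩ := exists_idx S.hm (idx a) (idx c)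
        obtain ⟨k, hk, u, hu, e'⟩ := S.nForm_phi_other hea.symm had (hcd ▸ hec) hw t
        rw [e']
        exact S.nForm_mul hac (S.nForm_kSub hk) (S.nForm_phi_other hac hea.symm hec.symm hu 1)
      · exact S.nForm_phi_other hac had hcd hw t
  | one => exact S.nForm_kSub (one_mem _)
  | mul x y _ _ hx hy => exact S.nForm_mul hac hx hy
  | inv x _ hx => exact S.nForm_inv hac hx

theorem kSub_vec {a : Fin m ⊕ Fin m} {x : Γ} (hx : x ∈ S.kSub a) :
    ∃ v, bq (P.b a) v = 0 ∧ P.projW v = 0 ∧ S.σ x = S.σ (S.ℓ (P.b a) v) ∧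
      ((∀ c, idx a ≠ idx c → P.coord c v = 0) → x = 1) := by
  classical
  letI : CommGroup ↥(S.nSub a) :=
    { (inferInstance : Group ↥(S.nSub a)) with
      mul_comm := fun x y => Subtype.ext (S.nSub_comm x.2 y.2).eq }
  let f : (ι → F) → ↥(S.nSub a) := fun v => ∏ c : Fin m ⊕ Fin m,
    if h : idx a ≠ idx c then ⟨S.κ a c (P.coord c v), S.κ_mem_nSub h _⟩ else 1
  suffices ∃ v, bq (P.b a) v = 0 ∧ P.projW v = 0 ∧ S.σ x = S.σ (S.ℓ (P.b a) v) ∧ x = f v by
    obtain ⟨v, h1, h2, h3, h4⟩ := this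
    refine ⟨v, h1, h2, h3, fun h0 => ?_⟩
    rw [h4, show f v = 1 from Finset.prod_eq_one fun c _ => ?_, OneMemClass.coe_one]
    split_ifs with hc
    · exact Subtype.ext ((congrArg (S.κ a c) (h0 c hc)).trans (S.κ_zero hc))
    · rfl
  have fadd : ∀ v v', f (v + v') = f v * f v' := fun v v' => by
    show ∏ c, _ = (∏ c, _) * ∏ c, _
    rw [← Finset.prod_mul_distrib]
    refine Finset.prod_congr rfl fun c _ => ?_
    split_ifs with hc
    · exact Subtype.ext ((congrArg (S.κ a c) (map_add _ v v')).trans (S.κ_add hc _ _))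
    · rw [one_mul]
  induction hx using Subgroup.closure_induction with
  | mem x hx =>
    obtain ⟨c, hac, t, rfl⟩ := hx
    refine ⟨t • P.b c, by rw [map_smul, P.b_orth hac, smul_zero], by rw [map_smul, P.projW_b, smul_zero],
      S.σ_κ hac t, ?_⟩
    show _ = ((∏ d, _ : ↥(S.nSub a)) : Γ)
    rw [Finset.prod_eq_single c]
    · rw [dif_pos hac, map_smul, P.coord_b, if_pos rfl, smul_eq_mul, mul_one]
    · intro d _ hd
      split_ifs with h
      · exact Subtype.ext ((congrArg (S.κ a d) (by rw [map_smul, P.coord_b, if_neg hd, smul_zero])).trans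
          (S.κ_zero h))
      · rfl
    · exact fun h => absurd (Finset.mem_univ c) h
  | one =>
    have h0 : f 0 = 1 := mul_eq_left.1 (show f 0 * f 0 = f 0 by rw [← fadd, add_zero])
    exact ⟨0, map_zero _, map_zero _, by rw [map_one, S.σ_ℓ_zero (P.q_b a)], by rw [h0]; rfl⟩
  | mul x y _ _ hx hy =>
    obtain ⟨v, h1, h2, h3, rfl⟩ := hx
    obtain ⟨v', k1, k2, k3, rfl⟩ := hy
    exact ⟨v + v', by rw [map_add, h1, k1, add_zero], by rw [map_add, h2, k2, add_zero],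
      by rw [map_mul, h3, k3, S.σ_ℓ_add (P.q_b a) h1 k1, map_mul], by rw [fadd]; rfl⟩
  | inv x _ hx =>
    obtain ⟨v, h1, h2, h3, rfl⟩ := hx
    refine ⟨-v, by rw [map_neg, h1, neg_zero], by rw [map_neg, h2, neg_zero],
      by rw [map_inv, h3, S.σ_ℓ, S.σ_ℓ, Lifting.img, Lifting.img, eM_neg (P.q_b a) h1, map_inv], ?_⟩
    have h0 : f 0 = 1 := mul_eq_left.1 (show f 0 * f 0 = f 0 by rw [← fadd, add_zero])
    rw [← Subgroup.coe_inv]
    exact congrArg Subtype.val (inv_eq_of_mul_eq_one_right (by rw [← fadd, add_neg_cancel, h0]))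

/-- The canonical lifts map injectively. -/
theorem nSub_eq_one {a : Fin m ⊕ Fin m} {x : Γ} (hx : x ∈ S.nSub a) (h : S.σ x = 1) : x = 1 := by
  obtain ⟨c, hca, -⟩ := exists_idx S.hm (idx a) (idx a)
  obtain ⟨k, hk, w, hw, rfl⟩ := S.nForm_of_mem hca.symm hx
  obtain ⟨v, hv, hvW, ek, hk1⟩ := S.kSub_vec hk
  have hΦ := phiVec_orth hca.symm hw (1 : F)
  rw [map_mul, ek, S.σ_phi hca.symm hw, ← map_mul, ← S.σ_ℓ_add (P.q_b a) hv hΦ] at h
  obtain ⟨r, hr⟩ := S.eq_self_smul_of_img_eq_one P (by rw [map_add, hv, hΦ, add_zero]) h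
  have h1 := congrArg P.projW hr
  simp only [phiVec, map_add, map_neg, map_smul, P.projW_b, P.projW_of_mem hw, hvW, smul_zero, one_smul,
    zero_add, add_zero, neg_eq_zero] at h1
  subst h1
  rw [S.phi_zero, mul_one]
  refine hk1 fun d hd => ?_
  have h2 := congrArg (P.coord d) hr
  simpa [phiVec, q_zero hQ, P.coord_b, show d ≠ a from fun e => hd (e ▸ rfl)] using h2

/-- Eichler transformations fixing the vector normalise the canonical lifts. -/
theorem conj_nSub {a k : Fin m ⊕ Fin m} (hak : idx a ≠ idx k) {v : ι → F} (hv : Perp P a k v)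
    {x : Γ} (hx : x ∈ S.nSub a) : S.ℓ (P.b k) v * x * (S.ℓ (P.b k) v)⁻¹ ∈ S.nSub a := by
  revert x
  have hzero : ∀ {z : Γ}, S.σ z = 1 → ∀ {x : Γ}, x ∈ S.nSub a → z * x * z⁻¹ ∈ S.nSub a := fun {z} hz {x} hx => by
    rw [(S.commute_of_eq_one hz x).eq, mul_inv_cancel_right]; exact hx
  -- reduce to the generators
  have red : ∀ {z : Γ} {u : ι → F}, Perp P a k u → S.σ z = S.σ (S.ℓ (P.b k) u) →
      (∀ c, idx a ≠ idx c → ∀ t, z * S.κ a c t * z⁻¹ ∈ S.nSub a) →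
      ∀ {x : Γ}, x ∈ S.nSub a → z * x * z⁻¹ ∈ S.nSub a := by
    intro z u hu hz hκ x hx
    obtain ⟨l, hl, w, hw, rfl⟩ := S.nForm_of_mem hak hx
    rw [show z * (l * S.phi a k w 1) * z⁻¹ = (z * l * z⁻¹) * (⁅z, S.phi a k w 1⁆ * S.phi a k w 1) by
      simp only [commutatorElement_def]; group]
    refine mul_mem ?_ (mul_mem (S.kSub_le a (S.bracket_mem hak hu
      (phiVec_perp hak (Ne.symm (swap_ne k)) hw 1) hz (S.σ_phi hak hw 1))) (S.phi_mem_nSub hak hw 1))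
    clear hx
    induction hl using Subgroup.closure_induction with
    | mem y hy => obtain ⟨c, hc, t, rfl⟩ := hy; exact hκ c hc t
    | one => simp
    | mul y y' _ _ i i' => rw [show z * (y * y') * z⁻¹ = (z * y * z⁻¹) * (z * y' * z⁻¹) by group]; exact mul_mem i i'
    | inv y _ i => rw [show z * y⁻¹ * z⁻¹ = (z * y * z⁻¹)⁻¹ by group]; exact inv_mem i
  suffices h : ∀ x ∈ S.nSub a, S.ℓ (P.b k) v * x * (S.ℓ (P.b k) v)⁻¹ ∈ S.nSub a from
    fun {x} hx => h x hx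
  refine P.perp_induction a k (motive := fun u => ∀ x ∈ S.nSub a,
      S.ℓ (P.b k) u * x * (S.ℓ (P.b k) u)⁻¹ ∈ S.nSub a)
    (fun x hx => hzero (S.σ_ℓ_zero (P.q_b k)) hx) ?_ ?_ ?_ v hv.1 hv.2
  · intro u u' _ h2 _ h4 i i' x hx
    have hz : (S.ℓ (P.b k) u * S.ℓ (P.b k) u')⁻¹ * S.ℓ (P.b k) (u + u') ∈ Subgroup.center Γ :=
      S.central (by rw [MonoidHom.mem_ker, map_mul, map_inv, S.σ_ℓ_add (P.q_b k) h2 h4, inv_mul_cancel])
    set z := (S.ℓ (P.b k) u * S.ℓ (P.b k) u')⁻¹ * S.ℓ (P.b k) (u + u')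
    have e : S.ℓ (P.b k) (u + u') = S.ℓ (P.b k) u * S.ℓ (P.b k) u' * z := (mul_inv_cancel_left _ _).symm
    rw [e, show S.ℓ (P.b k) u * S.ℓ (P.b k) u' * z * x * (S.ℓ (P.b k) u * S.ℓ (P.b k) u' * z)⁻¹ =
      S.ℓ (P.b k) u * (S.ℓ (P.b k) u' * (z * x * z⁻¹) * (S.ℓ (P.b k) u')⁻¹) * (S.ℓ (P.b k) u)⁻¹ by group,
      ← Subgroup.mem_center_iff.1 hz x, mul_inv_cancel_right]
    exact i _ (i' _ hx)
  · intro d r hda hdk x hx
    by_cases hd : d = k
    · subst hd; exact hzero (S.σ_ℓ_self (P.q_b _) r) hx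
    have hdk' : idx d ≠ idx k := fun e => (idx_eq.1 e).elim hd hdk
    by_cases hd' : d = a
    · subst hd'
      obtain ⟨v', hv', ex⟩ := S.exists_vec hx
      have hc : Commute (S.ℓ (P.b k) (r • P.b d)) x := S.commute_rad' d (v := -r • P.b k)
        (by rw [map_smul, P.b_orth hdk', smul_zero]) hv'
        (S.σ_ℓ_swap (P.q_b k) (P.q_b d) (P.b_orth hdk'.symm) r) ex
      rw [hc.eq, mul_inv_cancel_right]; exact hx
    have hia : idx d ≠ idx a := fun e => (idx_eq.1 e).elim hd' hda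
    have hu := perp_b (P := P) (a := a) (c := k) hia hdk' r
    refine red hu rfl (fun c hac t => ?_) hx
    have ok : bq (P.b k) (r • P.b d) = 0 := hu.2
    have ga := eM_fix (hn := S.dim) (P.q_b k) ok (P.b_orth hak.symm)
      (by rw [map_smul, LinearMap.smul_apply, P.b_orth hia, smul_zero])
    by_cases hck : c = k.swap
    · subst hck
      rw [S.κ_shear hac (fun e => hia e.symm) (by rw [idx_swap]; exact hdk'.symm)
        (g := S.ℓ (P.b k) (r • P.b d)) (g₀ := eM hQ S.dim (P.b k) (r • P.b d)) (k := -r) (S.σ_lift _) ga (by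
          rw [eM_mulVec (P.q_b k) ok, P.b_b_swap, map_smul, LinearMap.smul_apply,
            P.b_orth (by rwa [idx_swap]), q_smul hQ, P.q_b]
          simp [sub_eq_add_neg])]
      exact mul_mem (S.κ_mem_nSub hac t) (S.κ_mem_nSub (fun e => hia e.symm) _)
    by_cases hcd : c = d.swap
    · subst hcd
      rw [S.κ_shear hac hak (by rwa [idx_swap]) (g := S.ℓ (P.b k) (r • P.b d)) (g₀ := eM hQ S.dim (P.b k) (r • P.b d)) (k := r)
        (S.σ_lift _) ga (by
          rw [eM_mulVec (P.q_b k) ok, P.b_orth (by rw [idx_swap]; exact hdk'.symm), map_smul,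
            LinearMap.smul_apply, P.b_b_swap]
          simp)]
      exact mul_mem (S.κ_mem_nSub hac t) (S.κ_mem_nSub hak _)
    rw [(S.commute_of_fix hac (g := S.ℓ (P.b k) (r • P.b d)) (g₀ := eM hQ S.dim (P.b k) (r • P.b d)) (S.σ_lift _) ga
      (eM_fix (P.q_b k) ok (by rw [P.b_b, if_neg hck])
        (by rw [map_smul, LinearMap.smul_apply, P.b_b, if_neg hcd, smul_zero])) t).eq, mul_inv_cancel_right]
    exact S.κ_mem_nSub hac t
  · intro w hw x hx
    refine red (perp_W (P := P) (a := a) (c := k) hw) rfl (fun c hac t => ?_) hx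
    by_cases hck : c = k.swap
    · subst hck
      rw [show S.ℓ (P.b k) w * S.κ a k.swap t * (S.ℓ (P.b k) w)⁻¹ = S.phi a k w t * S.κ a k.swap t by
        simp only [phi, commutatorElement_def]; group]
      exact mul_mem (S.phi_mem_nSub hak hw t) (S.κ_mem_nSub hac t)
    rw [(S.commute_of_fix hac (g := S.ℓ (P.b k) w) (g₀ := eM hQ S.dim (P.b k) w) (S.σ_lift _)
      (eM_fix (P.q_b k) (P.bform_b_W hw k) (P.b_orth hak.symm) (P.bform_W_b hw a))
      (eM_fix (P.q_b k) (P.bform_b_W hw k) (by rw [P.b_b, if_neg hck]) (P.bform_W_b hw c)) t).eq,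
      mul_inv_cancel_right]
    exact S.κ_mem_nSub hac t

end Setting

end CfsgLib.SchurOrth
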