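import Mathlib
import Cfsg.Agent.SchurOrth.RadLift
import Cfsg.Agent.SchurOrth.TorusShort

/-!
The hypotheses on a central extension: disjoint long elements commute and the anisotropic part
has rotations.
-/

set_option autoImplicit false
set_option linter.unusedSectionVars false

namespace CfsgLib.SchurOrth

open Cfsg.Geo CfsgLib.OrthGeo Matrix
open scoped MatrixGroups commutatorElement

universe u

variable {ι : Type} [Fintype ι] [DecidableEq ι] {F : Type u} [Field F] [Finite F] {Q : (ι → F) → F}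
variable {hQ : IsNondegenerateQuadraticForm Q} {m : ℕ} {P : Polar hQ m} {Γ : Type u} [Group Γ]

local notation "bq" => bform hQ

/-- Disjoint long elements commute as soon as there is a pairing orthogonal to both. -/
theorem disj_of_pair (L : Lifting hQ Γ) {a c d e : Fin m ⊕ Fin m} (hac : idx a ≠ idx c)
    (hde : idx d ≠ idx e) (hda : idx d ≠ idx a) (hdc : idx d ≠ idx c) (hea : idx e ≠ idx a)
    (hec : idx e ≠ idx c) {v v' : ι → F} (hb : bq v v' = 1) (hva : bq (P.b a) v = 0)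
    (hvc : bq (P.b c) v = 0) (hvd : bq (P.b d) v = 0) (hve : bq (P.b e) v = 0)
    (hva' : bq (P.b a) v' = 0) (hvc' : bq (P.b c) v' = 0) (hvd' : bq (P.b d) v' = 0)
    (hve' : bq (P.b e) v' = 0) (t s : F) :
    Commute (L.ℓ (P.b a) (t • P.b c)) (L.ℓ (P.b d) (s • P.b e)) := by
  have oa : bq (P.b a) (t • P.b c) = 0 := by rw [map_smul, P.b_orth hac, smul_zero]
  refine L.commute_of_factors (u := P.b e) (u' := P.b d) (v := s • v) (v' := v') (P.q_b e) (P.q_b d)
    (by rw [map_smul, hve, smul_zero]) hvd' (P.b_orth hde.symm) hve' (by rw [map_smul, hvd, smul_zero])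
    (by rw [map_smul, LinearMap.smul_apply, hb, smul_eq_mul, mul_one]) ?_ ?_
  · exact L.img_commute (P.q_b a) (P.q_b e) oa (by rw [map_smul, hve, smul_zero]) (P.b_orth hea.symm)
      (by rw [map_smul, hva, smul_zero]) (by rw [map_smul, P.b_orth hec, smul_zero])
      (by simp [hvc])
  · exact L.img_commute (P.q_b a) (P.q_b d) oa hvd' (P.b_orth hda.symm) hva'
      (by rw [map_smul, P.b_orth hdc, smul_zero]) (by simp [hvc'])

/-- With at least five indices. -/
theorem disj_of_five (L : Lifting hQ Γ) (hm : 5 ≤ m) {a c d e : Fin m ⊕ Fin m} (hac : idx a ≠ idx c)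
    (hde : idx d ≠ idx e) (hda : idx d ≠ idx a) (hdc : idx d ≠ idx c) (hea : idx e ≠ idx a)
    (hec : idx e ≠ idx c) (t s : F) :
    Commute (L.ℓ (P.b a) (t • P.b c)) (L.ℓ (P.b d) (s • P.b e)) := by
  obtain ⟨k, -, hk⟩ := Finset.exists_mem_notMem_of_card_lt_card
    (s := ({idx a, idx c, idx d, idx e} : Finset (Fin m))) (t := Finset.univ)
    (Finset.card_le_four.trans_lt (by simp; omega))
  simp only [Finset.mem_insert, Finset.mem_singleton, not_or] at hk
  obtain ⟨k1, k2, k3, k4⟩ := hk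
  exact disj_of_pair L hac hde hda hdc hea hec (v := P.b (Sum.inl k)) (v' := P.b (Sum.inr k))
    (P.b_b_swap (Sum.inl k)) (P.b_orth (Ne.symm k1)) (P.b_orth (Ne.symm k2)) (P.b_orth (Ne.symm k3))
    (P.b_orth (Ne.symm k4)) (P.b_orth (Ne.symm k1)) (P.b_orth (Ne.symm k2)) (P.b_orth (Ne.symm k3))
    (P.b_orth (Ne.symm k4)) t s

/-- With a pairing in the anisotropic part. -/
theorem disj_of_W (L : Lifting hQ Γ) (hW : ∃ w₀ ∈ P.W, ∃ w₁ ∈ P.W, bq w₀ w₁ = 1)
    {a c d e : Fin m ⊕ Fin m} (hac : idx a ≠ idx c) (hde : idx d ≠ idx e) (hda : idx d ≠ idx a)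
    (hdc : idx d ≠ idx c) (hea : idx e ≠ idx a) (hec : idx e ≠ idx c) (t s : F) :
    Commute (L.ℓ (P.b a) (t • P.b c)) (L.ℓ (P.b d) (s • P.b e)) := by
  obtain ⟨w₀, h₀, w₁, h₁, hb⟩ := hW
  exact disj_of_pair L hac hde hda hdc hea hec hb (P.bform_b_W h₀ _) (P.bform_b_W h₀ _) (P.bform_b_W h₀ _)
    (P.bform_b_W h₀ _) (P.bform_b_W h₁ _) (P.bform_b_W h₁ _) (P.bform_b_W h₁ _) (P.bform_b_W h₁ _) t s

/-- With a scalar of square different from one. -/
theorem disj_of_sq (L : Lifting hQ Γ) {r : Fˣ} (hr : (r : F) * r ≠ 1) {a c d e : Fin m ⊕ Fin m}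
    (hac : idx a ≠ idx c) (hde : idx d ≠ idx e) (hda : idx d ≠ idx a) (hdc : idx d ≠ idx c)
    (hea : idx e ≠ idx a) (hec : idx e ≠ idx c) (t s : F) :
    Commute (L.ℓ (P.b a) (t • P.b c)) (L.ℓ (P.b d) (s • P.b e)) := by
  let d1 := pairWith d (idx a) hda.symm
  let d2 := pairWith' d (idx a) hda.symm
  let g : ↥(omegaGL Q) := ⟨d1.hom P (slD r) * d2.hom P (slD r),
    mul_mem (d1.hom_mem_omega P L.dim _) (d2.hom_mem_omega P L.dim _)⟩
  have hg : P.IsDiag (g : GL ι F) (Polar.dchi d1 r * Polar.dchi d2 r) :=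
    (P.isDiag_long d1 r).mul (P.isDiag_long d2 r)
  have hone : ∀ x : Fin m ⊕ Fin m, idx x ≠ idx d → (Polar.dchi d1 r * Polar.dchi d2 r) x = 1 := by
    intro x hx
    rw [ne_eq, idx_eq, not_or] at hx
    rw [Pi.mul_apply]
    rcases x with x | x <;> by_cases hxk : x = idx a <;>
      simp_all [Polar.dchi, d1, d2, pairWith, pairWith']
  have hd : (Polar.dchi d1 r * Polar.dchi d2 r) d = (r : F) * r := by
    rw [Pi.mul_apply, show Polar.dchi d1 r d = (r : F) from dchi_α d1 r,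
      show Polar.dchi d2 r d = (r : F) from dchi_α d2 r]
  have fix : ∀ x : Fin m ⊕ Fin m, idx x ≠ idx d → ((g : GL ι F) : Matrix ι ι F) *ᵥ P.b x = P.b x :=
    fun x hx => by rw [hg.2.1, hone x hx, one_smul]
  have oa : bq (P.b a) (t • P.b c) = 0 := by rw [map_smul, P.b_orth hac, smul_zero]
  have od : ∀ k : F, bq (P.b d) (k • P.b e) = 0 := fun k => by rw [map_smul, P.b_orth hde, smul_zero]
  have hr' : (r : F) * r - 1 ≠ 0 := sub_ne_zero.2 hr
  let k := s / ((r : F) * r - 1)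
  have hy : L.σ ⁅L.lift g, L.ℓ (P.b d) (k • P.b e)⁆ = L.σ (L.ℓ (P.b d) (s • P.b e)) := by
    rw [map_commutatorElement, L.σ_lift, L.σ_ℓ, L.σ_ℓ, Lifting.img, Lifting.img, ← map_commutatorElement]
    congr 1
    rw [commutatorElement_def, eM_conj g (P.q_b d) (od k), mulVec_smul, fix e hde.symm, hg.2.1, hd,
      eM_smul_left (P.q_b d) (od k), smul_smul,
      show ((r : F) * r * k) • P.b e = s • P.b e + k • P.b e by
        rw [← add_smul]; congr 1
        have : ((r : F) * r - 1) * k = s := mul_div_cancel₀ _ hr'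
        linear_combination this,
      eM_add (P.q_b d) (od s) (od k), mul_inv_cancel_right]
  refine L.commute_congr (L.commute_bracket ?_ ?_) rfl hy.symm
  · rw [L.σ_lift, L.σ_ℓ]
    refine Commute.map (Commute.symm ?_) (prΩ Q)
    show _ = _
    rw [← mul_inv_eq_iff_eq_mul, eM_conj g (P.q_b a) oa, mulVec_smul, fix a hda.symm, fix c hdc.symm]
  · exact L.img_commute (P.q_b a) (P.q_b d) oa (od k) (P.b_orth hda.symm)
      (by rw [map_smul, P.b_orth hea.symm, smul_zero]) (by rw [map_smul, P.b_orth hdc, smul_zero])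
      (by simp [P.b_orth hec.symm])

/-- The monomial element of a long root. -/
theorem exists_exchange (hn : 5 ≤ Fintype.card ι) {a d : Fin m ⊕ Fin m} (had : idx a ≠ idx d) :
    ∃ g : ↥(omegaGL Q), ((g : GL ι F) : Matrix ι ι F) *ᵥ P.b a = -P.b d ∧
      ((g : GL ι F) : Matrix ι ι F) *ᵥ P.b d = P.b a ∧
      ∀ x : Fin m ⊕ Fin m, idx x ≠ idx a → idx x ≠ idx d →
        ((g : GL ι F) : Matrix ι ι F) *ᵥ P.b x = P.b x := by
  have h0 : d.swap ≠ a := fun e => had (by rw [← e, idx_swap])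
  have h0' : d.swap ≠ a.swap := fun e => had (by rw [← idx_swap a, ← e, idx_swap])
  let r : LongPair m := ⟨a, d.swap, h0, h0'⟩
  refine ⟨⟨r.hom P (slW 1), r.hom_mem_omega P hn _⟩, ?_, ?_, fun x hxa hxd => ?_⟩ <;>
    show (r.hom P (slW 1) : Matrix ι ι F) *ᵥ _ = _ <;>
    rw [LongPair.hom_mulVec, LongPair.lin_apply, slW_coe one_ne_zero]
  · have h1 : d ≠ a := fun e => had (by rw [e])
    have h2 : d ≠ a.swap := fun e => had (by rw [e, idx_swap])
    simp [r, P.coord_b, h0, h1, h2, swap_ne, Ne.symm h0, Ne.symm h1, Ne.symm h0']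
  · have h1 : d ≠ a := fun e => had (by rw [e])
    have h2 : d ≠ a.swap := fun e => had (by rw [e, idx_swap])
    simp [r, P.coord_b, h0, h1, h2, swap_ne, Ne.symm h0, Ne.symm h1, Ne.symm h0', Ne.symm h2]
  · rw [ne_eq, idx_eq, not_or] at hxa hxd
    simp [r, P.coord_b, Ne.symm hxa.1, Ne.symm hxa.2, Ne.symm hxd.1, Ne.symm hxd.2]

/-- Over three elements. -/
theorem disj_of_three (L : Lifting hQ Γ) (h3 : Nat.card F = 3) {a c d e : Fin m ⊕ Fin m}
    (hac : idx a ≠ idx c) (hde : idx d ≠ idx e) (hda : idx d ≠ idx a) (hdc : idx d ≠ idx c)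
    (hea : idx e ≠ idx a) (hec : idx e ≠ idx c) (t s : F) :
    Commute (L.ℓ (P.b a) (t • P.b c)) (L.ℓ (P.b d) (s • P.b e)) := by
  haveI : Fintype F := Fintype.ofFinite F
  haveI : Fact (Nat.Prime 3) := ⟨Nat.prime_three⟩
  haveI : CharP F 3 := charP_of_card_eq_prime (Nat.card_eq_fintype_card.symm.trans h3)
  set X := L.ℓ (P.b a) ((1 : F) • P.b c) with hX
  set Y := L.ℓ (P.b d) ((1 : F) • P.b e) with hY
  have oa : ∀ k : F, bq (P.b a) (k • P.b c) = 0 := fun k => by rw [map_smul, P.b_orth hac, smul_zero]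
  have od : ∀ k : F, bq (P.b d) (k • P.b e) = 0 := fun k => by rw [map_smul, P.b_orth hde, smul_zero]
  have hpow : ∀ (n : ℕ) {z : Fin m ⊕ Fin m} {z' : Fin m ⊕ Fin m}, bq (P.b z) (P.b z') = 0 →
      L.σ (L.ℓ (P.b z) ((n : F) • P.b z')) = L.σ (L.ℓ (P.b z) ((1 : F) • P.b z') ^ n) := by
    intro n z z' hz
    induction n with
    | zero => rw [Nat.cast_zero, zero_smul, pow_zero, map_one, L.σ_ℓ_zero (P.q_b z)]
    | succ n ih =>
      rw [Nat.cast_succ, add_smul, L.σ_ℓ_add (P.q_b z) (by rw [map_smul, hz, smul_zero])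
        (by rw [map_smul, hz, smul_zero]), map_mul, ih, pow_succ, map_mul]
  have hXY : Commute (L.σ X) (L.σ Y) := L.img_commute (P.q_b a) (P.q_b d) (oa 1) (od 1) (P.b_orth hda.symm)
    (by rw [map_smul, P.b_orth hea.symm, smul_zero]) (by rw [map_smul, P.b_orth hdc, smul_zero])
    (by simp [P.b_orth hec.symm])
  have hz : ⁅X, Y⁆ ∈ Subgroup.center Γ := pair_pow L.central hXY
  obtain ⟨g₁, ga, gd, gx⟩ := exists_exchange (P := P) L.dim (Ne.symm hda)
  obtain ⟨g₂, gc, ge, gy⟩ := exists_exchange (P := P) L.dim (Ne.symm hec)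
  let g := g₁ * g₂
  have gA : ((g : GL ι F) : Matrix ι ι F) *ᵥ P.b a = -P.b d := by
    rw [Subgroup.coe_mul, Units.val_mul, ← mulVec_mulVec, gy a hac hea.symm, ga]
  have gC : ((g : GL ι F) : Matrix ι ι F) *ᵥ P.b c = -P.b e := by
    rw [Subgroup.coe_mul, Units.val_mul, ← mulVec_mulVec, gc, mulVec_neg, gx e hea hde.symm]
  have gD : ((g : GL ι F) : Matrix ι ι F) *ᵥ P.b d = P.b a := by
    rw [Subgroup.coe_mul, Units.val_mul, ← mulVec_mulVec, gy d hdc hde, gd]
  have gE : ((g : GL ι F) : Matrix ι ι F) *ᵥ P.b e = P.b c := by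
    rw [Subgroup.coe_mul, Units.val_mul, ← mulVec_mulVec, ge, gx c hac.symm hdc.symm]
  have eX : L.σ (L.lift g * X * (L.lift g)⁻¹) = L.σ Y := by
    rw [hX, L.σ_conj_ℓ _ (L.σ_lift g) (P.q_b a) (oa 1), mulVec_smul, gA, gC, one_smul]
    rw [L.σ_ℓ, hY, L.σ_ℓ, Lifting.img, Lifting.img, ← neg_one_smul F (P.b d), ← neg_one_smul F (P.b e),
      eM_smul_left (P.q_b d) (od (-1)), smul_smul, neg_one_mul, neg_neg]
  have eY : L.σ (L.lift g * Y * (L.lift g)⁻¹) = L.σ X := by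
    rw [hY, L.σ_conj_ℓ _ (L.σ_lift g) (P.q_b d) (od 1), mulVec_smul, gD, gE]
  have h2 : ⁅X, Y⁆ = ⁅Y, X⁆ := by
    rw [← L.congr eX eY, ← conjugate_commutatorElement, Subgroup.mem_center_iff.1 hz, mul_inv_cancel_right]
  have h3' : ⁅X, Y⁆ ^ 3 = 1 := by
    have hr : ∀ n : ℕ, ⁅X, Y ^ n⁆ = ⁅X, Y⁆ ^ n := by
      intro n
      induction n with
      | zero => simp
      | succ n ih => rw [pow_succ, Schur.commutator_mul_right' (Subgroup.mem_center_iff.1 hz _), ih, pow_succ]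
    rw [← hr, L.congr rfl (h' := 1) ?_, commutatorElement_one_right]
    rw [map_one, ← hpow 3 (P.b_orth hde), CharP.cast_eq_zero, zero_smul, L.σ_ℓ_zero (P.q_b d)]
  have hz1 : ⁅X, Y⁆ = 1 := by
    have h4 : ⁅X, Y⁆ * ⁅X, Y⁆ = 1 := by
      nth_rw 2 [h2]
      rw [← commutatorElement_inv X Y, mul_inv_cancel]
    calc ⁅X, Y⁆ = ⁅X, Y⁆ * (⁅X, Y⁆ * ⁅X, Y⁆) := by rw [h4, mul_one]
      _ = 1 := by rw [← pow_three, h3']
  have hmem : ∀ k : F, ∃ n : ℕ, (n : F) = k := fun k => by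
    have hbij := (ZMod.castHom (dvd_refl 3) F).injective.bijective_of_nat_card_le (by rw [Nat.card_zmod, h3])
    obtain ⟨z, rfl⟩ := hbij.surjective k
    exact ⟨z.val, by rw [← map_natCast (ZMod.castHom (dvd_refl 3) F), ZMod.natCast_zmod_val]⟩
  obtain ⟨n, rfl⟩ := hmem t
  obtain ⟨k, rfl⟩ := hmem s
  exact L.commute_congr ((commutatorElement_eq_one_iff_commute.1 hz1).pow_pow n k)
    (hpow n (P.b_orth hac)) (hpow k (P.b_orth hde))

namespace ShortData

variable (S : ShortData P)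

theorem exists_moved (hσ : ∃ x, S.σ x ≠ x) : ∃ u : S.Kˣ, (u : S.K) * S.σ (u : S.K) = 1 ∧ (u : S.K) * u ≠ 1 := by
  obtain ⟨z, hz⟩ := hσ
  have hne : ∀ c : F, z + algebraMap F S.K c ≠ 0 := fun c h => hz (by
    rw [eq_neg_of_add_eq_zero_left h, map_neg, S.σ_map])
  by_contra h
  push Not at h
  have key : ∀ c : F, z + algebraMap F S.K c = S.σ (z + algebraMap F S.K c) ∨
      z + algebraMap F S.K c = -S.σ (z + algebraMap F S.K c) := by
    intro c
    set y := z + algebraMap F S.K c with hy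
    have hy0 := hne c
    have hσy : S.σ y ≠ 0 := by simpa using hy0
    have hu := h (Units.mk0 (y / S.σ y) (div_ne_zero hy0 hσy)) (by
      rw [Units.val_mk0, map_div₀, S.σσ]; field_simp; exact div_self hy0)
    rw [Units.val_mk0] at hu
    have : y * y = S.σ y * S.σ y := by
      field_simp at hu
      linear_combination hu
    exact mul_self_eq_mul_self_iff.1 this
  have hA : ∀ c : F, z + algebraMap F S.K c ≠ S.σ (z + algebraMap F S.K c) := fun c e => hz (by
    rw [map_add, S.σ_map] at e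
    exact (add_right_cancel e).symm)
  have e0 := (key 0).resolve_left (hA 0)
  have e1 := (key 1).resolve_left (hA 1)
  simp only [map_add, S.σ_map, map_zero, map_one, add_zero] at e0 e1
  have h2 : (2 : S.K) = 0 := by linear_combination e1 - e0
  refine hA 0 ?_
  rw [map_zero, add_zero]
  linear_combination e0 - S.σ z * h2

/-- The rotations of the anisotropic part. -/
theorem exists_rot (hσ : ∃ x, S.σ x ≠ x) (hn : 5 ≤ Fintype.card ι) (hm : 1 ≤ m) :
    ∀ w ∈ P.W, ∃ g : ↥(omegaGL Q), (∀ a, ((g : GL ι F) : Matrix ι ι F) *ᵥ P.b a = P.b a) ∧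
      ∃ w' ∈ P.W, ((g : GL ι F) : Matrix ι ι F) *ᵥ w' = w' + w := by
  intro w hw
  obtain ⟨u, hu, hu2⟩ := S.exists_moved hσ
  let α : Fin m ⊕ Fin m := Sum.inl ⟨0, hm⟩
  have hσu : S.σ (u : S.K) ≠ 0 := by simp
  have hinv : (S.σ (u : S.K))⁻¹ = (u : S.K) := inv_eq_of_mul_eq_one_left hu
  have hui : ((u : S.K))⁻¹ * (S.σ (u : S.K))⁻¹ = 1 := by rw [← mul_inv, hu, inv_one]
  refine ⟨⟨S.hom α (slD u), S.hom_mem_omega α hn _⟩, fun a => ?_,
    (S.ψ.symm (((u : S.K) * u - 1)⁻¹ * S.ψ ⟨w, hw⟩) : ι → F), Submodule.coe_mem _, ?_⟩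
  · show (S.hom α (slD u) : Matrix ι ι F) *ᵥ _ = _
    rw [ShortData.hom_mulVec, S.lin_apply, slD_coe]
    simp [n00_apply, n01_apply, n11_apply, m00_apply, m11_apply, S.kW_b, hu, hui, S.ret_map]
  · show (S.hom α (slD u) : Matrix ι ι F) *ᵥ _ = _
    set w' := S.ψ.symm (((u : S.K) * u - 1)⁻¹ * S.ψ ⟨w, hw⟩) with hw'
    have hk := S.lin_slD_W α u w'.2
    rw [hinv, S.kW_of_mem] at hk
    have hmem := (S.isMono_D α u).2.2 (w' : ι → F) w'.2
    have : ((⟨_, hmem⟩ : P.W) : ι → F) = ((w' + ⟨w, hw⟩ : P.W) : ι → F) := by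
      congr 1
      apply S.ψ.injective
      rw [← S.kW_of_mem ⟨_, hmem⟩, hk, map_add, hw', LinearEquiv.apply_symm_apply]
      have hd : (u : S.K) * u - 1 ≠ 0 := sub_ne_zero.2 hu2
      have h1 := mul_inv_cancel₀ hd
      linear_combination S.ψ ⟨w, hw⟩ * h1
    exact this

/-- A pairing in the anisotropic part. -/
theorem exists_pairing (hσ : ∃ x, S.σ x ≠ x) : ∃ w₀ ∈ P.W, ∃ w₁ ∈ P.W, bq w₀ w₁ = 1 := by
  suffices ∃ w w' : P.W, bq (w : ι → F) w' ≠ 0 by
    obtain ⟨w, w', h⟩ := this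
    refine ⟨w, w.2, (bq (w : ι → F) w')⁻¹ • (w' : ι → F), P.W.smul_mem _ w'.2, ?_⟩
    rw [map_smul, smul_eq_mul, inv_mul_cancel₀ h]
  by_contra h
  push Not at h
  obtain ⟨z, hz⟩ := hσ
  have key : ∀ x y : S.K, x * S.σ y + y * S.σ x = 0 := fun x y => by
    have := S.bform_W (S.ψ.symm x) (S.ψ.symm y)
    rw [h, map_zero, LinearEquiv.apply_symm_apply, LinearEquiv.apply_symm_apply] at this
    exact this.symm
  have h1 := key z 1
  have h2 := key 1 1
  simp only [map_one, mul_one, one_mul] at h1 h2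
  exact hz (by linear_combination h1 - z * h2)

end ShortData

end CfsgLib.SchurOrth
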