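import Mathlib
import Cfsg.Agent.SchurOrth.RadLift

/-!
The canonical lift of the unipotent radical of a Borel subgroup, and the absence of a multiplier
at the characteristic.
-/

set_option autoImplicit false
set_option linter.unusedSectionVars false

namespace CfsgLib.SchurOrth

open Cfsg.Geo CfsgLib.OrthGeo Matrix
open scoped MatrixGroups commutatorElement

universe u

variable {ι : Type} [Fintype ι] [DecidableEq ι] {F : Type u} [Field F] [Finite F] {Q : (ι → F) → F}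
variable {hQ : IsNondegenerateQuadraticForm Q} {m : ℕ} {P : Polar hQ m} {Γ : Type u} [Group Γ]

namespace Polar

/-- The parameters above an index. -/
noncomputable def res (P : Polar hQ m) (j : ℕ) : Submodule F (ι → F) :=
  ⨅ (z : Fin m ⊕ Fin m) (_ : (idx z : ℕ) ≤ j), LinearMap.ker (bform hQ (P.b z))

theorem mem_res {j : ℕ} {v : ι → F} :
    v ∈ P.res j ↔ ∀ z : Fin m ⊕ Fin m, (idx z : ℕ) ≤ j → bform hQ (P.b z) v = 0 := by
  simp [res]

theorem res_orth (j : Fin m) {v : ι → F} (h : v ∈ P.res j) :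
    bform hQ (P.b (Sum.inl j)) v = 0 ∧ bform hQ (P.b (Sum.inr j)) v = 0 :=
  ⟨mem_res.1 h _ (by simp [idx_inl]), mem_res.1 h _ (by simp [idx_inr])⟩

theorem b_mem_res {j : ℕ} {c : Fin m ⊕ Fin m} (h : j < (idx c : ℕ)) (t : F) : t • P.b c ∈ P.res j :=
  mem_res.2 fun z hz => by
    rw [map_smul, P.b_orth (fun e => by rw [e] at hz; omega), smul_zero]

theorem W_mem_res {j : ℕ} {w : ι → F} (h : w ∈ P.W) : w ∈ P.res j :=
  mem_res.2 fun z _ => P.bform_b_W h z

theorem coord_res {j : ℕ} {v : ι → F} (h : v ∈ P.res j) {d : Fin m ⊕ Fin m} (hd : (idx d : ℕ) ≤ j) :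
    P.coord d v = 0 := by
  rw [coord_apply]
  exact mem_res.1 h _ (by rwa [idx_swap])

theorem lt_deg_of_lt_idx {j : ℕ} {d : Fin m ⊕ Fin m} (h : j < (idx d : ℕ)) :
    j < deg d ∧ deg d < 2 * m - j := by
  rcases d with d | d <;> simp [idx, deg] at * <;> omega

theorem res_mem_lev {j : Fin m} {v : ι → F} (h : v ∈ P.res j) : v ∈ P.lev (2 * m - j) := by
  refine ⟨fun a ha => P.coord_res h ?_, fun hk => absurd hk (by omega)⟩
  by_contra hc
  push Not at hc
  have := (lt_deg_of_lt_idx hc).2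
  omega

theorem eM_mem_up (hn : 5 ≤ Fintype.card ι) {j : Fin m} {v : ι → F} (h : v ∈ P.res j) :
    (eM hQ hn (P.b (Sum.inl j)) v : GL ι F) ∈ P.up := by
  have h0 := (P.res_orth j h).1
  refine P.mem_up_of (omegaGL_le (eM hQ hn _ v).2) (fun x => ?_) fun w hw => ?_
  · rw [eM_mulVec (P.q_b _) h0, P.b_b]
    have e : P.b x + bform hQ v (P.b x) • P.b (Sum.inl j) -
        (if x = (Sum.inl j : Fin m ⊕ Fin m).swap then (1 : F) else 0) • v -
        (Q v * if x = (Sum.inl j : Fin m ⊕ Fin m).swap then (1 : F) else 0) • P.b (Sum.inl j) - P.b x =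
        bform hQ v (P.b x) • P.b (Sum.inl j) -
        (if x = (Sum.inl j : Fin m ⊕ Fin m).swap then (1 : F) else 0) • v -
        (Q v * if x = (Sum.inl j : Fin m ⊕ Fin m).swap then (1 : F) else 0) • P.b (Sum.inl j) := by module
    rw [e]
    by_cases hx : x = (Sum.inl j : Fin m ⊕ Fin m).swap
    · subst hx
      simp only [Sum.swap_inl, if_true, one_smul, mul_one]
      have hdeg : deg (Sum.inr j : Fin m ⊕ Fin m) = 2 * m - j := rfl
      have hj := j.isLt
      have hb := P.b_mem_lev (a := (Sum.inl j : Fin m ⊕ Fin m)) (k := 2 * m - j) (by simp [deg]; omega)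
      rw [hdeg]
      exact Submodule.sub_mem _ (Submodule.sub_mem _ (Submodule.smul_mem _ _ hb) (P.res_mem_lev h))
        (Submodule.smul_mem _ _ hb)
    · rw [if_neg hx, zero_smul, sub_zero, mul_zero, zero_smul, sub_zero]
      by_cases hk : (idx x : ℕ) ≤ j
      · rw [b_symm hQ, mem_res.1 h _ hk, zero_smul]
        exact Submodule.zero_mem _
      · exact Submodule.smul_mem _ _ (P.b_mem_lev (lt_deg_of_lt_idx (not_le.1 hk)).1)
  · rw [eM_mulVec (P.q_b _) h0, P.bform_b_W hw, mul_zero, zero_smul, sub_zero, zero_smul, sub_zero,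
      add_sub_cancel_left]
    exact Submodule.smul_mem _ _ (P.b_mem_lev (by simp [deg]))

end Polar

namespace Setting

variable (S : Setting P Γ)

local notation "bq" => bform hQ

theorem exists_mem_nSub {a : Fin m ⊕ Fin m} {v : ι → F} (hv : bq (P.b a) v = 0) :
    ∃ x ∈ S.nSub a, S.σ x = S.σ (S.ℓ (P.b a) v) := by
  refine P.perp_induction a a (motive := fun u => ∃ x ∈ S.nSub a, S.σ x = S.σ (S.ℓ (P.b a) u))
    ⟨1, one_mem _, by rw [map_one, S.σ_ℓ_zero (P.q_b a)]⟩ ?_ ?_ ?_ v hv hv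
  · rintro u u' h1 - h3 - ⟨x, hx, ex⟩ ⟨y, hy, ey⟩
    exact ⟨x * y, mul_mem hx hy, by rw [map_mul, ex, ey, S.σ_ℓ_add (P.q_b a) h1 h3, map_mul]⟩
  · intro d t hd _
    by_cases hda : d = a
    · subst hda; exact ⟨1, one_mem _, by rw [map_one, S.σ_ℓ_self (P.q_b _)]⟩
    · have h : idx a ≠ idx d := fun e => (idx_eq.1 e.symm).elim hda hd
      exact ⟨_, S.κ_mem_nSub h t, S.σ_κ h t⟩
  · intro w hw
    obtain ⟨c, hca, -⟩ := exists_idx S.hm (idx a) (idx a)
    refine ⟨S.phi a c w (-1) * S.κ a c (-(Q w)),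
      mul_mem (S.phi_mem_nSub hca.symm hw _) (S.κ_mem_nSub hca.symm _), ?_⟩
    rw [map_mul, S.σ_phi hca.symm hw, S.σ_κ hca.symm, ← map_mul,
      ← S.σ_ℓ_add (P.q_b a) (phiVec_orth hca.symm hw _) (by rw [map_smul, P.b_orth hca.symm, smul_zero])]
    congr 2
    simp only [phiVec]
    module

/-- The canonical lifts above an index. -/
def lvl (j : Fin m) : Subgroup Γ where
  carrier := {x | x ∈ S.nSub (Sum.inl j) ∧ ∃ v ∈ P.res j, S.σ x = S.σ (S.ℓ (P.b (Sum.inl j)) v)}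
  one_mem' := ⟨one_mem _, 0, Submodule.zero_mem _, by rw [map_one, S.σ_ℓ_zero (P.q_b _)]⟩
  mul_mem' := by
    rintro x y ⟨hx, v, hv, ex⟩ ⟨hy, w, hw, ey⟩
    exact ⟨mul_mem hx hy, v + w, Submodule.add_mem _ hv hw, by
      rw [map_mul, ex, ey, S.σ_ℓ_add (P.q_b _) (P.res_orth j hv).1 (P.res_orth j hw).1, map_mul]⟩
  inv_mem' := by
    rintro x ⟨hx, v, hv, ex⟩
    exact ⟨inv_mem hx, -v, Submodule.neg_mem _ hv, by
      rw [map_inv, ex, S.σ_ℓ, S.σ_ℓ, Lifting.img, Lifting.img, eM_neg (P.q_b _) (P.res_orth j hv).1, map_inv]⟩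

theorem conj_lvl {j k : Fin m} (hjk : j < k) {x y : Γ} (hy : y ∈ S.lvl k) (hx : x ∈ S.lvl j) :
    y * x * y⁻¹ ∈ S.lvl j := by
  obtain ⟨-, v', hv', ey⟩ := hy
  obtain ⟨hx, v, hv, ex⟩ := hx
  have hne : idx (Sum.inl j : Fin m ⊕ Fin m) ≠ idx (Sum.inl k : Fin m ⊕ Fin m) := by
    simpa [idx_inl] using hjk.ne
  have hle : ∀ z : Fin m ⊕ Fin m, (idx z : ℕ) ≤ j → (idx z : ℕ) ≤ k := fun z hz => by
    have : (j : ℕ) < k := hjk
    omega
  have o := (P.res_orth k hv').1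
  have hp : Perp P (Sum.inl j) (Sum.inl k) v' := ⟨Polar.mem_res.1 hv' _ (hle _ le_rfl), o⟩
  obtain ⟨z, hz, rfl⟩ : ∃ z ∈ Subgroup.center Γ, y = S.ℓ (P.b (Sum.inl k)) v' * z :=
    ⟨(S.ℓ (P.b (Sum.inl k)) v')⁻¹ * y, S.central (by rw [MonoidHom.mem_ker, map_mul, map_inv, ey, inv_mul_cancel]),
      (mul_inv_cancel_left _ _).symm⟩
  rw [show S.ℓ (P.b (Sum.inl k)) v' * z * x * (S.ℓ (P.b (Sum.inl k)) v' * z)⁻¹ =
      S.ℓ (P.b (Sum.inl k)) v' * (z * x * z⁻¹) * (S.ℓ (P.b (Sum.inl k)) v')⁻¹ by group,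
    ← Subgroup.mem_center_iff.1 hz x, mul_inv_cancel_right]
  let g := eM hQ S.dim (P.b (Sum.inl k)) v'
  have fix : ∀ z : Fin m ⊕ Fin m, (idx z : ℕ) ≤ j → ((g : GL ι F) : Matrix ι ι F) *ᵥ P.b z = P.b z :=
    fun z hz => eM_fix (P.q_b _) o (P.b_orth (fun e => by
      rw [← e, idx_inl] at hz
      have : (j : ℕ) < k := hjk
      omega)) (by rw [b_symm hQ]; exact Polar.mem_res.1 hv' _ (hle z hz))
  refine ⟨S.conj_nSub hne hp hx, ((g : GL ι F) : Matrix ι ι F) *ᵥ v, Polar.mem_res.2 fun z hz => ?_, ?_⟩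
  · rw [← fix z hz, isometry_b hQ (omegaGL_le g.2), Polar.mem_res.1 hv z hz]
  · have e := S.σ_conj_ℓ (S.ℓ (P.b (Sum.inl k)) v') (g₀ := g) (S.σ_lift _) (P.q_b (Sum.inl j))
      (P.res_orth j hv).1
    rw [fix (Sum.inl j) le_rfl] at e
    rw [← e, map_mul, map_mul, map_mul, map_mul, ex]

/-- The lift of the unipotent group from an index on. -/
def above (j : ℕ) : Subgroup Γ := ⨆ (i : Fin m) (_ : j ≤ i), S.lvl i

theorem lvl_le_above {i : Fin m} {j : ℕ} (h : j ≤ i) : S.lvl i ≤ S.above j :=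
  le_iSup₂_of_le (f := fun (i : Fin m) (_ : j ≤ i) => S.lvl i) i h le_rfl

theorem above_form {j : ℕ} {x : Γ} (hx : x ∈ S.above (j + 1)) : ∃ g : ↥(omegaGL Q),
    S.σ x = prΩ Q g ∧ (g : GL ι F) ∈ P.up ∧
      ∀ z : Fin m ⊕ Fin m, (idx z : ℕ) ≤ j → ((g : GL ι F) : Matrix ι ι F) *ᵥ P.b z = P.b z := by
  let H : Subgroup ↥(omegaGL Q) :=
    { carrier := {g | (g : GL ι F) ∈ P.up ∧
        ∀ z : Fin m ⊕ Fin m, (idx z : ℕ) ≤ j → ((g : GL ι F) : Matrix ι ι F) *ᵥ P.b z = P.b z}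
      one_mem' := ⟨one_mem _, fun z _ => by simp⟩
      mul_mem' := by
        rintro g h ⟨hg, hg'⟩ ⟨hh, hh'⟩
        exact ⟨mul_mem hg hh, fun z hz => by
          rw [Subgroup.coe_mul, Units.val_mul, ← mulVec_mulVec, hh' z hz, hg' z hz]⟩
      inv_mem' := by
        rintro g ⟨hg, hg'⟩
        exact ⟨inv_mem hg, fun z hz => by
          conv_lhs => rw [← hg' z hz]
          rw [Subgroup.coe_inv, OrthGeo.inv_mulVec_cancel]⟩ }
  have hle : S.above (j + 1) ≤ (H.map (prΩ Q)).comap S.σ := by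
    refine iSup₂_le fun i hi => ?_
    rintro y ⟨-, v, hv, e⟩
    refine ⟨eM hQ S.dim (P.b (Sum.inl i)) v, ⟨P.eM_mem_up S.dim hv, fun z hz => ?_⟩,
      (S.σ_ℓ _ _).symm.trans e.symm⟩
    exact eM_fix (P.q_b _) (P.res_orth i hv).1 (P.b_orth (fun e => by rw [← e, idx_inl] at hz; omega))
      (by rw [b_symm hQ]; exact Polar.mem_res.1 hv _ (by omega))
  obtain ⟨g, hg, e⟩ := hle hx
  exact ⟨g, e.symm, hg⟩

theorem above_split {j : Fin m} {x : Γ} (hx : x ∈ S.above j) :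
    ∃ s ∈ S.lvl j, ∃ y ∈ S.above (j + 1), x = s * y := by
  have hconj : ∀ y ∈ S.above (j + 1), ∀ s ∈ S.lvl j, y * s * y⁻¹ ∈ S.lvl j := by
    intro y hy
    have h2 : S.above (j + 1) ≤ Subgroup.normalizer (S.lvl j : Subgroup Γ) := by
      refine iSup₂_le fun i hi => ?_
      intro z hz
      have hji : j < i := Fin.lt_def.2 (by omega)
      rw [Subgroup.mem_normalizer_iff]
      refine fun s => ⟨S.conj_lvl hji hz, fun h => ?_⟩
      have := S.conj_lvl hji (inv_mem hz) h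
      simpa [mul_assoc] using this
    exact fun s hs => (Subgroup.mem_normalizer_iff.1 (h2 hy) s).1 hs
  let T : Subgroup Γ :=
    { carrier := {x | ∃ s ∈ S.lvl j, ∃ y ∈ S.above (j + 1), x = s * y}
      one_mem' := ⟨1, one_mem _, 1, one_mem _, (mul_one 1).symm⟩
      mul_mem' := by
        rintro _ _ ⟨s, hs, y, hy, rfl⟩ ⟨s', hs', y', hy', rfl⟩
        exact ⟨s * (y * s' * y⁻¹), mul_mem hs (hconj y hy s' hs'), y * y', mul_mem hy hy', by group⟩
      inv_mem' := by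
        rintro _ ⟨s, hs, y, hy, rfl⟩
        exact ⟨y⁻¹ * s⁻¹ * y⁻¹⁻¹, hconj _ (inv_mem hy) _ (inv_mem hs), y⁻¹, inv_mem hy, by group⟩ }
  have hle : S.above j ≤ T := by
    refine iSup₂_le fun i hi => ?_
    intro z hz
    rcases eq_or_lt_of_le hi with e | h
    · obtain rfl : i = j := Fin.ext e.symm
      exact ⟨z, hz, 1, one_mem _, (mul_one z).symm⟩
    · exact ⟨1, one_mem _, z, S.lvl_le_above h hz, (one_mul z).symm⟩
  exact hle hx

/-- The lift of the unipotent group maps injectively. -/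
theorem above_eq_one {p : ℕ} [CharP F p] [Fact p.Prime] :
    ∀ (j : ℕ), j ≤ m → ∀ x ∈ S.above j, S.σ x = 1 → x = 1 := by
  intro j hj
  induction hk : m - j generalizing j with
  | zero =>
    intro x hx _
    have : S.above j ≤ ⊥ := iSup₂_le fun i hi => absurd i.isLt (by omega)
    exact Subgroup.mem_bot.1 (this hx)
  | succ k ih =>
    intro x hx h
    have hjm : j < m := by omega
    obtain ⟨s, hs, y, hy, rfl⟩ := S.above_split (j := ⟨j, hjm⟩) hx
    obtain ⟨g, eg, hgup, hgfix⟩ := S.above_form hy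
    obtain ⟨hsN, v, hv, es⟩ := hs
    obtain ⟨o, o'⟩ := P.res_orth ⟨j, hjm⟩ hv
    let e := eM hQ S.dim (P.b (Sum.inl ⟨j, hjm⟩)) v
    have h' : prΩ Q (e * g) = prΩ Q 1 := by
      rw [map_mul, map_one, show prΩ Q e = S.σ s from (S.σ_ℓ _ _).symm.trans es.symm, ← eg, ← map_mul, h]
    have h1 : e * g = 1 :=
      prΩ_injOn hQ S.dim (P.up_isPGroup (p := p)) (mul_mem (P.eM_mem_up S.dim hv) hgup) (one_mem _) h'
    have h2 : ((e : GL ι F) : Matrix ι ι F) *ᵥ P.b (Sum.inr ⟨j, hjm⟩) = P.b (Sum.inr ⟨j, hjm⟩) := by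
      have := congrArg (fun g : ↥(omegaGL Q) => ((g : GL ι F) : Matrix ι ι F) *ᵥ P.b (Sum.inr ⟨j, hjm⟩)) h1
      simp only [Subgroup.coe_mul, Units.val_mul, ← mulVec_mulVec, OneMemClass.coe_one, Units.val_one,
        one_mulVec] at this
      rwa [hgfix _ (by simp [idx_inr])] at this
    rw [eM_mulVec (P.q_b _) o, b_symm hQ v, o', P.b_b, if_pos (show (Sum.inr ⟨j, hjm⟩ : Fin m ⊕ Fin m) = (Sum.inl ⟨j, hjm⟩ : Fin m ⊕ Fin m).swap from rfl)] at h2
    have hv0 : v = (-Q v) • P.b (Sum.inl ⟨j, hjm⟩) := by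
      linear_combination (norm := module) -h2
    have hQv : Q v = 0 := by
      rw [hv0, q_smul hQ, P.q_b, mul_zero]
    have hs1 : s = 1 := S.nSub_eq_one hsN (by rw [es, hv0, hQv, neg_zero, zero_smul, S.σ_ℓ_zero (P.q_b _)])
    subst hs1
    rw [one_mul] at h ⊢
    exact ih (j + 1) hjm (by omega) y hy h

theorem rootGroup_le_image {sh : Prop} {s : Root m sh} (hs : s.IsPos) :
    Nodes.X P s ≤ (S.above 0).map S.σ := by
  intro x hx
  obtain ⟨g, hg, rfl⟩ := hx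
  suffices h : P.rootGroup s.1 ≤ (((S.above 0).map S.σ).comap (prΩ Q)).map (omegaGL Q).subtype by
    obtain ⟨g', hg', e⟩ := h hg
    obtain rfl : g' = g := Subtype.ext e
    exact hg'
  refine P.rootGroup_le_of fun a v hgen => ?_
  have hkey : ∀ (i : Fin m) (u : ι → F), u ∈ P.res i →
      prΩ Q (eM hQ S.dim (P.b (Sum.inl i)) u) ∈ (S.above 0).map S.σ := fun i u hu => by
    obtain ⟨x, hx, ex⟩ := S.exists_mem_nSub (P.res_orth i hu).1
    exact ⟨x, S.lvl_le_above (Nat.zero_le _) ⟨hx, u, hu, ex⟩, ex.trans (S.σ_ℓ _ _)⟩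
  suffices h : prΩ Q (eM hQ S.dim (P.b a) v) ∈ (S.above 0).map S.σ from
    ⟨_, h, Units.ext (eM_val (P.q_b a) hgen.bform_eq_zero)⟩
  rw [Root.IsPos] at hs
  rcases hgen with ⟨e, hv⟩ | ⟨c, t, h1, h2, e, rfl⟩
  · rw [e, Finset.sum_singleton, Finset.card_singleton] at hs
    rcases a with i | i
    · exact hkey i v (Polar.W_mem_res hv)
    · simp [deg] at hs; omega
  · rw [e, Finset.sum_pair (Ne.symm h1), Finset.card_pair (Ne.symm h1)] at hs
    have hne : idx a ≠ idx c := fun h => (idx_eq.1 h.symm).elim h1 h2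
    rcases Nat.lt_or_gt_of_ne (fun h => hne (Fin.ext h)) with h | h
    · rcases a with i | i
      · exact hkey i _ (Polar.b_mem_res h t)
      · exfalso
        have := (Polar.lt_deg_of_lt_idx h).1
        simp [deg, idx] at hs this
        omega
    · rw [eM_swap (P.q_b a) (P.q_b c) (P.b_orth hne)]
      rcases c with i | i
      · exact hkey i _ (Polar.b_mem_res h _)
      · exfalso
        have := (Polar.lt_deg_of_lt_idx h).1
        simp [deg, idx] at hs this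
        omega

/-- No multiplier at the characteristic. -/
theorem ker_inf_commutator [Finite Γ] {sh : Prop} {p : ℕ} [CharP F p] [Fact p.Prime] (N : Nodes P p sh)
    (hperf : _root_.commutator (Cfsg.POmega F Q) = ⊤) (hA : IsPGroup p S.σ.ker) :
    S.σ.ker ⊓ _root_.commutator Γ = ⊥ := by
  haveI : Finite (Cfsg.POmega F Q) := Finite.of_surjective S.σ S.surj
  refine SchurClassical.ker_inf_commutator_of_index (Fact.out) S.surj S.central hA _
    (SchurOrth.not_dvd_index_posSub N.frame hperf) ?_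
  have hU : N.frame.posSub ≤ (S.above 0).map S.σ := iSup₂_le fun r hr => S.rootGroup_le_image (s := r) hr
  have hsplit : ∀ x ∈ (N.frame.posSub).comap S.σ, ∃ y ∈ S.above 0, S.σ x = S.σ y := fun x hx => by
    obtain ⟨y, hy, e⟩ := hU hx
    exact ⟨y, hy, e.symm⟩
  have hcomm : ⁅(N.frame.posSub).comap S.σ, (N.frame.posSub).comap S.σ⁆ ≤ S.above 0 := by
    refine Subgroup.commutator_le.2 fun x hx y hy => ?_
    obtain ⟨x', hx', ex⟩ := hsplit x hx
    obtain ⟨y', hy', ey⟩ := hsplit y hy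
    rw [S.congr ex ey, commutatorElement_def]
    exact mul_mem (mul_mem (mul_mem hx' hy') (inv_mem hx')) (inv_mem hy')
  rw [eq_bot_iff]
  rintro z ⟨hz, hd⟩
  exact Subgroup.mem_bot.2 (S.above_eq_one (p := p) 0 (Nat.zero_le _) z (hcomm hd) hz)

end Setting

end CfsgLib.SchurOrth
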