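import Mathlib
import Cfsg.Agent.SchurOrth.Unip
import Cfsg.Agent.SchurOrth.Providers
import Cfsg.Agent.SchurOrth.OddBound

/-!
No multiplier at the characteristic for the orthogonal groups in even dimension.
-/

set_option autoImplicit false
set_option linter.unusedSectionVars false

namespace CfsgLib.SchurOrth

open Cfsg.Geo CfsgLib.OrthGeo Matrix
open scoped MatrixGroups commutatorElement

universe u

variable {ι : Type} [Fintype ι] [DecidableEq ι] {F : Type u} [Field F] [Finite F] {Q : (ι → F) → F}
variable {hQ : IsNondegenerateQuadraticForm Q} {p : ℕ} [CharP F p] [Fact p.Prime] {n : ℕ}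

/-- Type `D`. -/
theorem noMult_long (P : Polar hQ (n + 2)) (hW : ∀ w ∈ P.W, w = 0) (hn : 5 ≤ Fintype.card ι)
    (hl : 4 ≤ n + 2) (hexc : ¬ (n + 2 = 4 ∧ Nat.card F = 2)) :
    SchurClassical.NoMult p (Cfsg.POmega F Q) := by
  intro Γ _ _ σ hs hc hA
  let L : Lifting hQ Γ := { dim := hn, σ := σ, surj := hs, central := hc }
  let S : Setting P Γ :=
    { L with
      hm := by omega
      aux := Or.inl hl
      rot := fun w hw => ⟨1, fun a => by simp, 0, Submodule.zero_mem _, by simp [hW w hw]⟩
      disj := fun {a c d e} h1 h2 h3 h4 h5 h6 t s => by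
        by_cases h5' : 5 ≤ n + 2
        · exact disj_of_five L h5' h1 h2 h3 h4 h5 h6 t s
        by_cases hq : Nat.card F = 3
        · exact disj_of_three L hq h1 h2 h3 h4 h5 h6 t s
        · have h1' : 1 < Nat.card F := Finite.one_lt_card
          have h2' : Nat.card F ≠ 2 := fun h => hexc ⟨by omega, h⟩
          obtain ⟨r, hr⟩ := exists_sq_ne_one (F := F) (by omega)
          exact disj_of_sq L hr h1 h2 h3 h4 h5 h6 t s }
  exact S.ker_inf_commutator (longNodes P hW p hn) (pomega_perfect hQ hn) hA

/-- Type twisted `D`. -/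
theorem noMult_short {P : Polar hQ (n + 1)} (T : ShortData P) (hσ : ∃ x, T.σ x ≠ x)
    (hn : 5 ≤ Fintype.card ι) (hm : 3 ≤ n + 1) : SchurClassical.NoMult p (Cfsg.POmega F Q) := by
  intro Γ _ _ σ hs hc hA
  let L : Lifting hQ Γ := { dim := hn, σ := σ, surj := hs, central := hc }
  let S : Setting P Γ :=
    { L with
      hm := hm
      aux := Or.inr (T.exists_pairing hσ)
      rot := T.exists_rot hσ hn (by omega)
      disj := fun {a c d e} h1 h2 h3 h4 h5 h6 t s =>
        disj_of_W L (T.exists_pairing hσ) h1 h2 h3 h4 h5 h6 t s }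
  exact S.ker_inf_commutator (shortNodes (by omega : 1 ≤ n) T p hn) (pomega_perfect hQ hn) hA

end CfsgLib.SchurOrth
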