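import Mathlib
import Cfsg.Agent.SchurOrth.TorusShort

/-!
The torus of type `D` and its elements over the centre.
-/

set_option autoImplicit false
set_option linter.unusedSectionVars false
set_option maxHeartbeats 400000

namespace CfsgLib.SchurOrth

open Cfsg.Geo CfsgLib.OrthGeo Matrix
open scoped MatrixGroups

universe u

variable {ι : Type} [Fintype ι] [DecidableEq ι] {F : Type u} [Field F] [Finite F] {Q : (ι → F) → F}
variable {hQ : IsNondegenerateQuadraticForm Q} {p : ℕ} [CharP F p] [Fact p.Prime] {n : ℕ}
  (P : Polar hQ (n + 2)) (hW : ∀ w ∈ P.W, w = 0) (hn : 5 ≤ Fintype.card ι)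

/-- The abstract torus of the nodes. -/
abbrev DTor (p : ℕ) [CharP F p] [Fact p.Prime] : Type u :=
  (i : (longNodes P hW p hn).κ) → ↥((longNodes P hW p hn).node i).R.D

/-- The parameter of a node joining consecutive indices. -/
noncomputable def tA (t : DTor P hW hn p) (i : Fin (n + 1)) : F := dent (K := F) (t (some i))

/-- The parameter of the last node. -/
noncomputable def tN (t : DTor P hW hn p) : F := dent (K := F) (t none)

/-- The eigenvalue at a frame vector. -/
noncomputable def deig (t : DTor P hW hn p) (j : Fin (n + 2)) : F :=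
  (if h : (j : ℕ) < n + 1 then tA P hW hn t ⟨j, h⟩ else 1) *
    (if h : 0 < (j : ℕ) then (tA P hW hn t ⟨(j : ℕ) - 1, by omega⟩)⁻¹ else 1) *
      (if n ≤ (j : ℕ) then tN P hW hn t else 1)

theorem tA_mul (t t' : DTor P hW hn p) (i : Fin (n + 1)) :
    tA P hW hn (t * t') i = tA P hW hn t i * tA P hW hn t' i :=
  dent_mul (K := F) _ _

theorem tN_mul (t t' : DTor P hW hn p) : tN P hW hn (t * t') = tN P hW hn t * tN P hW hn t' :=
  dent_mul (K := F) _ _

theorem deig_mul (t t' : DTor P hW hn p) (j : Fin (n + 2)) :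
    deig P hW hn (t * t') j = deig P hW hn t j * deig P hW hn t' j := by
  unfold deig
  split_ifs <;> simp only [tA_mul, tN_mul, mul_inv, one_mul, mul_one] <;> ring

/-- The action of the torus. -/
def DTorusOK (t : DTor P hW hn p) : Prop :=
  ∀ j : Fin (n + 2), (((longNodes P hW p hn).torΩ t : GL ι F) : Matrix ι ι F) *ᵥ P.b (Sum.inl j) =
    deig P hW hn t j • P.b (Sum.inl j)

theorem dTorusOK_mul {t t' : DTor P hW hn p} (h : DTorusOK P hW hn t) (h' : DTorusOK P hW hn t') :
    DTorusOK P hW hn (t * t') := fun j => by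
  rw [map_mul, Subgroup.coe_mul, Units.val_mul, ← mulVec_mulVec, h', mulVec_smul, h, smul_smul, deig_mul,
    mul_comm]

theorem dTorusOK_one : DTorusOK P hW hn (1 : DTor P hW hn p) := by
  have h1 : ∀ i, tA P hW hn (1 : DTor P hW hn p) i = 1 := fun i => dent_one (K := F)
  have h2 : tN P hW hn (1 : DTor P hW hn p) = 1 := dent_one (K := F)
  intro j
  have e : deig P hW hn (1 : DTor P hW hn p) j = 1 := by
    unfold deig
    split_ifs <;> simp [h1, h2]
  simp [map_one, e]

theorem dTorusOK_single [DecidableEq (longNodes P hW p hn).κ] (i : (longNodes P hW p hn).κ)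
    (d : ↥((longNodes P hW p hn).node i).R.D) :
    DTorusOK P hW hn (Pi.mulSingle (M := fun i => ↥((longNodes P hW p hn).node i).R.D) i d) := by
  set t : DTor P hW hn p := Pi.mulSingle (M := fun i => ↥((longNodes P hW p hn).node i).R.D) i d with ht
  have htor : ((longNodes P hW p hn).torΩ t : GL ι F) = ((longNodes P hW p hn).node i).R.φ d := by
    rw [ht, Nodes.torΩ_single]
  intro j
  have hj := j.isLt
  rcases i with - | i
  · obtain ⟨_, s, rfl⟩ := d
    have hN : tN P hW hn t = s := by
      unfold tN; rw [ht]; erw [Pi.mulSingle_eq_same]; exact dent_slD (K := F) rfl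
    have hA : ∀ k, tA P hW hn t k = 1 := fun k => by
      unfold tA
      rw [ht]; erw [Pi.mulSingle_eq_of_ne (by exact Option.some_ne_none k)]
      exact dent_one (K := F)
    have htor' : ((longNodes P hW p hn).torΩ t : GL ι F) = (lastPair n).hom P (slD s) := htor
    rw [htor', LongPair.hom_mulVec, LongPair.lin_apply, slD_coe]
    unfold deig
    simp only [lastPair, Sum.swap_inl, P.coord_b, Sum.inl.injEq, reduceCtorEq, if_false,
      Fin.ext_iff, Fin.val_castSucc, Fin.val_last, hN, hA, inv_one, dite_eq_ite, ite_self, one_mul,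
      of_apply, cons_val', cons_val_zero, cons_val_one, cons_val_fin_one, empty_val']
    rcases lt_trichotomy (j : ℕ) n with e | e | e
    · rw [if_neg e.ne', if_neg (by omega), if_neg (not_le.2 e)]
      simp
    · have a1 : (Fin.last n).castSucc = j := Fin.ext e.symm
      rw [if_pos e.symm, if_neg (by omega), if_pos (by omega), a1]
      simp
      module
    · have a1 : Fin.last (n + 1) = j := Fin.ext (by simp; omega)
      rw [if_neg e.ne, if_pos (by omega), if_pos (by omega), a1]
      simp
      module
  · obtain ⟨_, s, rfl⟩ := d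
    have hN : tN P hW hn t = 1 := by
      unfold tN
      rw [ht]; erw [Pi.mulSingle_eq_of_ne (by exact (Option.some_ne_none i).symm)]
      exact dent_one (K := F)
    have hA : ∀ k, tA P hW hn t k = if k = i then (s : F) else 1 := fun k => by
      unfold tA
      split_ifs with h
      · subst h; rw [ht]; erw [Pi.mulSingle_eq_same]; exact dent_slD (K := F) rfl
      · rw [ht]; erw [Pi.mulSingle_eq_of_ne (by exact fun h' => h (Option.some_injective _ h'))]
        exact dent_one (K := F)
    have htor' : ((longNodes P hW p hn).torΩ t : GL ι F) = (adjPair i).hom P (slD s) := htor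
    rw [htor', LongPair.hom_mulVec, LongPair.lin_apply, slD_coe]
    unfold deig
    have hi := i.isLt
    simp only [adjPair, Sum.swap_inl, Sum.swap_inr, P.coord_b, Sum.inl.injEq, reduceCtorEq, if_false,
      Fin.ext_iff, Fin.val_castSucc, Fin.val_succ, hN, ite_self, mul_one, hA, of_apply, cons_val',
      cons_val_zero, cons_val_one, cons_val_fin_one, empty_val']
    by_cases e1 : (i : ℕ) = j <;> by_cases e2 : (i : ℕ) + 1 = j
    · omega
    · have a1 : (j : ℕ) < n + 1 := by omega
      have a2 : i.castSucc = j := Fin.ext e1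
      rw [dif_pos a1, if_pos e1, if_neg e2, if_pos e1.symm, a2]
      split_ifs
      · omega
      · simp; module
      · simp; module
    · have a2 : i.succ = j := Fin.ext e2
      rw [if_neg e1, if_pos e2, a2]
      split_ifs <;> first | omega | (simp; module)
    · rw [if_neg e1, if_neg e2]
      split_ifs <;> first | omega | simp

theorem dTorusOK (t : DTor P hW hn p) : DTorusOK P hW hn t := by
  classical
  letI : ∀ i, CommMonoid ↥((longNodes P hW p hn).node i).R.D := fun i =>
    { (inferInstance : Monoid ↥((longNodes P hW p hn).node i).R.D) with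
      mul_comm := fun a b => Subtype.ext (((longNodes P hW p hn).node i).R.D_comm _ a.2 _ b.2) }
  exact Pi.mulSingle_induction (DTorusOK P hW hn) t (dTorusOK_one P hW hn)
    (fun a b ha hb => dTorusOK_mul P hW hn ha hb) (fun i d => dTorusOK_single P hW hn i d)

/-- The conditions on a torus element over the centre. -/
theorem central_cases_long (hn1 : 1 ≤ n) {t : DTor P hW hn p}
    (ht : (longNodes P hW p hn).torΩ t ∈ Subgroup.center ↥(omegaGL Q)) :
    ∃ c : F, c * c = 1 ∧ (∀ i : Fin (n + 1), (i : ℕ) < n → tA P hW hn t i = c ^ ((i : ℕ) + 1)) ∧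
      tA P hW hn t (Fin.last n) * tA P hW hn t (Fin.last n) = c ^ n ∧
      tN P hW hn t = c * tA P hW hn t (Fin.last n) := by
  obtain ⟨c, hc⟩ := exists_scalar hQ hn ht
  have h1 := dTorusOK P hW hn t
  have he : ∀ j, deig P hW hn t j = c := fun j => by
    have h := h1 j
    rw [hc] at h
    have h' := congrArg (P.coord (Sum.inl j)) h
    simpa [P.coord_b] using h'.symm
  let v : ι → F := P.b (Sum.inl 0) + P.b (Sum.inr 0)
  have hv : Q v = 1 := by simp only [v, q_add hQ, P.q_b, P.b_b, Sum.swap_inl, zero_add, if_true]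
  have hcc : c * c = 1 := by
    have hcQ : Q (c • v) = Q v := by
      rw [← hc v]
      exact mem_isometryGroup.1 (omegaGL_le ((longNodes P hW p hn).torΩ t).2) v
    rw [q_smul hQ, hv] at hcQ
    linear_combination hcQ
  have hc0 : c ≠ 0 := left_ne_zero_of_mul_eq_one hcc
  have key : ∀ k (hk : k < n), tA P hW hn t ⟨k, by omega⟩ = c ^ (k + 1) := by
    intro k
    induction k with
    | zero =>
      intro hk
      have := he ⟨0, by omega⟩
      rw [deig, dif_pos (by simp), dif_neg (by simp), if_neg (by simp; omega), mul_one, mul_one] at this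
      simpa using this
    | succ k ih =>
      intro hk
      have := he ⟨k + 1, by omega⟩
      rw [deig, dif_pos (by simp; omega), dif_pos (by simp), if_neg (by simp; omega), mul_one] at this
      simp only [Nat.add_sub_cancel] at this
      rw [ih (by omega), ← div_eq_mul_inv, div_eq_iff (pow_ne_zero _ hc0)] at this
      rw [this]; ring
  set a := tA P hW hn t (Fin.last n) with ha
  set N := tN P hW hn t with hN
  have hprev : tA P hW hn t ⟨n - 1, by omega⟩ = c ^ n := by
    rw [key (n - 1) (by omega), Nat.sub_add_cancel hn1]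
  have e1 := he ⟨n, by omega⟩
  rw [deig, dif_pos (by simp), dif_pos (by simp; omega), if_pos (by simp), hprev] at e1
  replace e1 : a * (c ^ n)⁻¹ * N = c := e1
  have e2 := he (Fin.last (n + 1))
  rw [deig, dif_neg (by simp), dif_pos (by simp), if_pos (by simp), one_mul] at e2
  replace e2 : a⁻¹ * N = c := e2
  have ha0 : a ≠ 0 := dent_ne_zero (K := F) _
  have hNa : N = c * a := by
    rw [← e2, mul_comm a⁻¹ N, mul_assoc, inv_mul_cancel₀ ha0, mul_one]
  refine ⟨c, hcc, fun i hi => key i hi, ?_, hNa⟩
  have h := pow_ne_zero n hc0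
  rw [hNa] at e1
  field_simp at e1
  linear_combination e1

/-- The parameters of the nodes as homomorphisms on the torus elements over the centre. -/
noncomputable def tAHom (i : Fin (n + 1)) :
    ((Subgroup.center ↥(omegaGL Q)).comap (longNodes P hW p hn).torΩ) →* Fˣ :=
  MonoidHom.mk' (fun t => Units.mk0 (tA P hW hn t.1 i) (dent_ne_zero (K := F) _))
    fun a b => Units.ext (tA_mul P hW hn a.1 b.1 i)

theorem tA_pair_injective (hn1 : 1 ≤ n) :
    Function.Injective ((tAHom (p := p) P hW hn (Fin.last n)).prod (tAHom P hW hn 0)) := by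
  refine (injective_iff_map_eq_one _).2 fun ⟨t, ht⟩ h => Subtype.ext ?_
  have ha : tA P hW hn t (Fin.last n) = 1 := congrArg (fun x : Fˣ × Fˣ => (x.1 : F)) h
  have h0 : tA P hW hn t 0 = 1 := congrArg (fun x : Fˣ × Fˣ => (x.2 : F)) h
  obtain ⟨c, -, hA, -, hN⟩ := central_cases_long P hW hn hn1 ht
  have hc : c = 1 := by
    have := hA 0 (by simp; omega)
    rw [h0] at this
    simpa using this.symm
  refine funext fun i => ?_
  rcases i with - | i
  · exact dent_eq_one (K := F) (show tN P hW hn t = 1 by rw [hN, hc, ha, one_mul])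
  · refine dent_eq_one (K := F) (show tA P hW hn t i = 1 from ?_)
    by_cases hi : (i : ℕ) < n
    · rw [hA i hi, hc, one_pow]
    · rw [show i = Fin.last n from Fin.ext (by simp; omega), ha]

/-- In odd rank one parameter determines the element. -/
theorem tA_last_injective (hn1 : 1 ≤ n) (hodd : Odd n) :
    Function.Injective (tAHom (p := p) P hW hn (Fin.last n)) := by
  refine (injective_iff_map_eq_one _).2 fun ⟨t, ht⟩ h => ?_
  have ha : tA P hW hn t (Fin.last n) = 1 := congrArg (fun x : Fˣ => (x : F)) h
  obtain ⟨c, hcc, hA, haa, -⟩ := central_cases_long P hW hn hn1 ht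
  refine (injective_iff_map_eq_one _).1 (tA_pair_injective (p := p) P hW hn hn1) _
    (Prod.ext h (Units.ext ?_))
  show tA P hW hn t 0 = 1
  obtain ⟨k, rfl⟩ := hodd
  rw [hA 0 (by simp)]
  rw [ha, pow_succ, pow_mul, pow_two, hcc, one_pow] at haa
  simpa using haa.symm

theorem tA_last_pow_four (hn1 : 1 ≤ n)
    (t : ((Subgroup.center ↥(omegaGL Q)).comap (longNodes P hW p hn).torΩ)) :
    tAHom (p := p) P hW hn (Fin.last n) t ^ 4 = 1 := by
  obtain ⟨c, hcc, -, haa, -⟩ := central_cases_long P hW hn hn1 t.2
  refine Units.ext ?_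
  show tA P hW hn t.1 (Fin.last n) ^ 4 = 1
  calc tA P hW hn t.1 (Fin.last n) ^ 4 =
      (tA P hW hn t.1 (Fin.last n) * tA P hW hn t.1 (Fin.last n)) *
        (tA P hW hn t.1 (Fin.last n) * tA P hW hn t.1 (Fin.last n)) := by ring
    _ = 1 := by rw [haa, ← mul_pow, hcc, one_pow]

/-- In even rank the parameters square to one. -/
theorem tA_pair_sq (hn1 : 1 ≤ n) (heven : Even n)
    (t : ((Subgroup.center ↥(omegaGL Q)).comap (longNodes P hW p hn).torΩ)) :
    (tAHom (p := p) P hW hn (Fin.last n)).prod (tAHom P hW hn 0) t ^ 2 = 1 := by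
  obtain ⟨c, hcc, hA, haa, -⟩ := central_cases_long P hW hn hn1 t.2
  refine Prod.ext (Units.ext ?_) (Units.ext ?_)
  · show tA P hW hn t.1 (Fin.last n) ^ 2 = 1
    obtain ⟨k, rfl⟩ := heven
    rw [pow_two, haa, ← two_mul, pow_mul, pow_two, hcc, one_pow]
  · show tA P hW hn t.1 0 ^ 2 = 1
    rw [hA 0 (by simp; omega)]
    simpa [pow_two] using hcc

end CfsgLib.SchurOrth
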