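import Mathlib
import Cfsg.Agent.SchurOrth.EvenNoMult
import Cfsg.Agent.SchurOrth.TorusLong

/-!
The kernels of stem extensions of the orthogonal groups in even dimension.
-/

set_option autoImplicit false
set_option linter.unusedSectionVars false

namespace CfsgLib.SchurOrth

open Cfsg.Geo CfsgLib.OrthGeo Matrix
open scoped MatrixGroups commutatorElement

universe u

section Abstract

variable {A B : Type*} [Group A] [Group B] [Finite A] {π₀ : A →* B}

/-- A group of units of bounded exponent makes the image cyclic. -/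
theorem exists_surj_zmod {K : Type*} [Field K] [Finite K] (hπ : Function.Surjective π₀) (j : A →* Kˣ)
    (hj : Function.Injective j) (g : ℕ) (hexp : ∀ a, j a ^ g = 1) :
    ∃ π : Multiplicative (ZMod g) →* B, Function.Surjective π := by
  haveI : IsCyclic A := isCyclic_of_injective j hj
  obtain ⟨z, hz⟩ := IsCyclic.exists_generator (α := A)
  have hz1 : π₀ z ^ g = 1 := by
    rw [← map_pow, show z ^ g = 1 from hj (by rw [map_pow, hexp, map_one]), map_one]
  refine ⟨AddMonoidHom.toMultiplicativeLeft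
    (ZMod.lift g ⟨zmultiplesHom (Additive B) (Additive.ofMul (π₀ z)), ?_⟩), fun x => ?_⟩
  · show ((g : ℤ) • Additive.ofMul (π₀ z)) = 0
    rw [← ofMul_zpow, zpow_natCast, hz1, ofMul_one]
  · obtain ⟨a, rfl⟩ := hπ x
    obtain ⟨k, rfl⟩ := Subgroup.mem_zpowers_iff.1 (hz a)
    refine ⟨Multiplicative.ofAdd (k : ZMod g), ?_⟩
    show Additive.toMul (ZMod.lift g _ ((k : ℤ) : ZMod g)) = π₀ (z ^ k)
    rw [ZMod.lift_coe]
    simp

/-- Two signs make the image a quotient of the four-group. -/
theorem exists_surj_klein {K : Type*} [Field K] (hπ : Function.Surjective π₀) (j : A →* Kˣ × Kˣ)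
    (hj : Function.Injective j) (hsq : ∀ a, j a ^ 2 = 1) :
    ∃ π : Multiplicative (ZMod 2 × ZMod 2) →* B, Function.Surjective π := by
  classical
  haveI := Fintype.ofFinite A
  letI : CommGroup A :=
    { (inferInstance : Group A) with mul_comm := fun a b => hj (by rw [map_mul, map_mul, mul_comm]) }
  have ha2 : ∀ a : A, a ^ 2 = 1 := fun a => hj (by rw [map_pow, hsq, map_one])
  have hsign : ∀ x : Kˣ, x ^ 2 = 1 → x = 1 ∨ x = -1 := fun x hx =>
    (mul_self_eq_one_iff.1 (show (x : K) * x = 1 by rw [← Units.val_mul, ← pow_two, hx, Units.val_one])).imp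
      (fun h => Units.ext h) (fun h => Units.ext (by rw [h, Units.val_neg, Units.val_one]))
  have hcard : Fintype.card A ≤ 4 := by
    refine (Fintype.card_le_of_injective (fun a : A => (decide ((j a).1 = 1), decide ((j a).2 = 1)))
      fun a b h => hj ?_).trans (by simp)
    obtain ⟨h1, h2⟩ := Prod.mk.inj h
    rw [decide_eq_decide] at h1 h2
    have sa := hsq a
    have sb := hsq b
    refine Prod.ext ?_ ?_
    · rcases hsign _ (congrArg Prod.fst sa) with e | e <;>
        rcases hsign _ (congrArg Prod.fst sb) with e' | e' <;> simp_all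
    · rcases hsign _ (congrArg Prod.snd sa) with e | e <;>
        rcases hsign _ (congrArg Prod.snd sb) with e' | e' <;> simp_all
  -- two generators
  obtain ⟨u, v, huv⟩ : ∃ u v : A, ∀ a, a = 1 ∨ a = u ∨ a = v ∨ a = u * v := by
    by_cases h1 : ∀ a : A, a = 1
    · exact ⟨1, 1, fun a => Or.inl (h1 a)⟩
    push Not at h1
    obtain ⟨u, hu⟩ := h1
    by_cases h2 : ∀ a : A, a = 1 ∨ a = u
    · exact ⟨u, 1, fun a => (h2 a).imp id Or.inl⟩
    push Not at h2
    obtain ⟨v, hv, hvu⟩ := h2
    refine ⟨u, v, fun a => ?_⟩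
    have h4 : ({1, u, v, u * v} : Finset A) = Finset.univ := by
      refine Finset.eq_univ_of_card _ (le_antisymm (Finset.card_le_univ _) (hcard.trans (le_of_eq ?_)))
      have h5 : u * v ≠ 1 := fun h => hvu (by
        have := ha2 u
        rw [pow_two] at this
        exact mul_left_cancel (h.trans this.symm))
      have h6 : u * v ≠ u := fun h => hv (mul_eq_left.1 h)
      have h7 : u * v ≠ v := fun h => hu (mul_eq_right.1 h)
      rw [Finset.card_insert_of_notMem (by simp [Ne.symm hu, Ne.symm hv, Ne.symm h5]),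
        Finset.card_insert_of_notMem (by simp [Ne.symm hvu, Ne.symm h6]),
        Finset.card_pair (Ne.symm h7)]
    have := Finset.mem_univ a
    rw [← h4] at this
    simpa using this
  let f : A → ZMod 2 →+ Additive A := fun w => ZMod.lift 2 ⟨zmultiplesHom (Additive A) (Additive.ofMul w), by
    show ((2 : ℤ) • Additive.ofMul w) = 0
    rw [← ofMul_zpow, zpow_ofNat, ha2, ofMul_one]⟩
  have f1 : ∀ w, f w 1 = Additive.ofMul w := fun w => by
    show ZMod.lift 2 _ ((1 : ℤ) : ZMod 2) = _
    rw [ZMod.lift_coe]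
    simp
  let F : ZMod 2 × ZMod 2 →+ Additive A := (f u).coprod (f v)
  refine ⟨π₀.comp (AddMonoidHom.toMultiplicativeLeft F), hπ.comp fun a => ?_⟩
  rcases huv a with rfl | rfl | rfl | rfl
  · exact ⟨1, map_one _⟩
  · exact ⟨Multiplicative.ofAdd (1, 0), by show Additive.toMul (F (1, 0)) = _; simp [F, f1]⟩
  · exact ⟨Multiplicative.ofAdd (0, 1), by show Additive.toMul (F (0, 1)) = _; simp [F, f1]⟩
  · exact ⟨Multiplicative.ofAdd (1, 1), by show Additive.toMul (F (1, 1)) = _; simp [F, f1]⟩

end Abstract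

theorem pow_odd_mod_four {q l : ℕ} (hq : q % 4 = 3) (hl : Odd l) : q ^ l % 4 = 3 := by
  obtain ⟨k, rfl⟩ := hl
  rw [pow_succ, pow_mul, Nat.mul_mod, Nat.pow_mod, Nat.pow_mod q 2, hq]
  norm_num

variable {ι : Type} [Fintype ι] [DecidableEq ι] {F : Type u} [Field F] [Finite F] {Q : (ι → F) → F}
variable {hQ : IsNondegenerateQuadraticForm Q} {n : ℕ}

theorem exists_prime_char (F : Type u) [Field F] [Finite F] : ∃ p, CharP F p ∧ p.Prime := by
  obtain ⟨p, hcp⟩ := CharP.exists F
  exact ⟨p, hcp, (CharP.char_is_prime_or_zero F p).resolve_right fun h => by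
    subst h
    haveI := CharP.charP_to_charZero F
    exact not_finite F⟩

variable {Γ : Type u} [Group Γ] [Finite Γ] (τ : Γ →* Cfsg.POmega F Q) (hτ : Cfsg.IsStemExtension τ)
include hτ

/-- Twisted type `D_{n+2}`. -/
theorem exists_surj_short {P : Polar hQ (n + 1)} (T : ShortData P) (hσ : ∃ x, T.σ x ≠ x)
    (hn : 5 ≤ Fintype.card ι) (hm : 3 ≤ n + 1) :
    ∃ π : Multiplicative (ZMod (Nat.gcd 4 (Nat.card F ^ (n + 2) + 1))) →* τ.ker, Function.Surjective π := by
  obtain ⟨p, _, hp⟩ := exists_prime_char F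
  haveI : Fact p.Prime := ⟨hp⟩
  have hn1 : 1 ≤ n := by omega
  obtain ⟨π₀, hπ₀⟩ := (shortNodes hn1 T p hn).exists_ker_surj
    ⟨hτ.1, hτ.2.1, prime_to_of_noMult (noMult_short T hσ hn hm) hτ⟩
    (perfect_of_stem hτ (pomega_perfect hQ hn))
  refine exists_surj_zmod hπ₀ (tSHom (p := p) hn1 T hn) (tSHom_injective hn1 T hn) _ fun t => ?_
  obtain ⟨c, hc1, -, hN, hs⟩ := central_cases hn1 T hn t.2
  refine pow_gcd_eq_one.2 ⟨?_, ?_⟩ <;> refine Units.ext ?_ <;>
    rw [Units.val_pow_eq_pow_val, Units.val_one] <;> show tS hn1 T hn t.1 ^ _ = 1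
  all_goals
    set x := tS hn1 T hn t.1
    set k := algebraMap F T.K c with hk
    have hx2 : x ^ 2 = k ^ (n + 2) := by
      rw [pow_succ' k, ← hN, pow_two]
      calc x * x = x * (k * T.σ x) := by rw [← hs]
        _ = _ := by ring
    have hkk : k * k = 1 := by rcases hc1 with h | h <;> simp [hk, h]
  · calc x ^ 4 = (x ^ 2) * (x ^ 2) := by ring
      _ = 1 := by rw [hx2, ← mul_pow, hkk, one_pow]
  · by_cases h2 : (2 : F) = 0
    · have h2' : (2 : T.K) = 0 := by simpa [map_ofNat] using congrArg (algebraMap F T.K) h2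
      have hc : k = 1 := by
        rcases hc1 with h | h
        · rw [hk, h, map_one]
        · rw [hk, h, map_neg, map_one]
          linear_combination -h2'
      have hx : (x - 1) ^ 2 = 0 := by
        rw [hc, one_pow] at hx2
        linear_combination hx2 + (1 - x) * h2'
      rw [sub_eq_zero.1 (pow_eq_zero_iff two_ne_zero |>.1 hx), one_pow]
    · haveI := Fintype.ofFinite F
      have hodd : Odd (Nat.card F) := by
        rw [Nat.card_eq_fintype_card, Nat.odd_iff]
        exact FiniteField.odd_card_of_char_ne_two fun h => h2 (by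
          haveI : CharP F 2 := ringChar.of_eq h
          exact_mod_cast CharP.cast_eq_zero F 2)
      have hev : 2 ∣ Nat.card F ^ (n + 2) + 1 :=
        even_iff_two_dvd.1 (hodd.pow.add_one)
      rcases hc1 with h | h
      · obtain ⟨e, he⟩ := hev
        rw [he, pow_mul, hx2, hk, h, map_one, one_pow, one_pow]
      by_cases hl : Even (n + 2)
      · obtain ⟨e, he⟩ := hev
        rw [he, pow_mul, hx2, hk, h, map_neg, map_one, hl.neg_one_pow, one_pow]
      · rw [Nat.not_even_iff_odd] at hl
        have hk1 : k = -1 := by rw [hk, h, map_neg, map_one]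
        rw [hk1, hl.neg_one_pow] at hx2
        rw [hk1] at hs
        have hmod : Nat.card F % 4 = 3 := by
          by_contra hne
          rw [Nat.card_eq_fintype_card] at hne
          obtain ⟨r, hr⟩ := FiniteField.isSquare_neg_one_iff.2 hne
          have hr' : x * x = algebraMap F T.K r * algebraMap F T.K r := by
            rw [← pow_two, hx2, ← map_mul, ← hr, map_neg, map_one]
          have hfix : T.σ x = x := by
            rcases mul_self_eq_mul_self_iff.1 hr' with e | e <;> rw [e] <;> simp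
          rw [hfix] at hs
          have h2' : (2 : T.K) ≠ 0 := by
            rw [← map_ofNat (algebraMap F T.K) 2]
            exact fun h => h2 ((algebraMap F T.K).injective (h.trans (map_zero _).symm))
          exact dent_ne_zero (K := T.K) (t.1 none)
            ((mul_eq_zero.1 (show (2 : T.K) * x = 0 by linear_combination hs)).resolve_left h2')
        have h4 : 4 ∣ Nat.card F ^ (n + 2) + 1 := by
          have := pow_odd_mod_four hmod hl
          omega
        obtain ⟨e, he⟩ := h4
        rw [he, pow_mul, show x ^ 4 = (x ^ 2) * (x ^ 2) by ring, hx2, neg_mul_neg, one_mul, one_pow]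

/-- Type `D_{n+2}`, odd rank. -/
theorem exists_surj_long_odd (P : Polar hQ (n + 2)) (hW : ∀ w ∈ P.W, w = 0) (hn : 5 ≤ Fintype.card ι)
    (hl : 4 ≤ n + 2) (hodd : Odd (n + 2)) :
    ∃ π : Multiplicative (ZMod (Nat.gcd 4 (Nat.card F ^ (n + 2) - 1))) →* τ.ker, Function.Surjective π := by
  obtain ⟨p, _, hp⟩ := exists_prime_char F
  haveI : Fact p.Prime := ⟨hp⟩
  have hexc : ¬ (n + 2 = 4 ∧ Nat.card F = 2) := fun h => by
    rw [h.1] at hodd
    exact absurd hodd (by decide)
  have hn' : Odd n := by rwa [Nat.odd_add, iff_true_right (by decide)] at hodd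
  obtain ⟨π₀, hπ₀⟩ := (longNodes P hW p hn).exists_ker_surj
    ⟨hτ.1, hτ.2.1, prime_to_of_noMult (noMult_long P hW hn hl hexc) hτ⟩
    (perfect_of_stem hτ (pomega_perfect hQ hn))
  refine exists_surj_zmod hπ₀ (tAHom (p := p) P hW hn (Fin.last n))
    (tA_last_injective P hW hn (by omega) hn') _ fun t => pow_gcd_eq_one.2 ⟨?_, ?_⟩
  · exact tA_last_pow_four P hW hn (by omega) t
  · haveI := Fintype.ofFinite F
    set x := tAHom (p := p) P hW hn (Fin.last n) t with hx
    refine Units.ext ?_
    have h1 : (x : F) ^ (Nat.card F ^ (n + 2)) = x := by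
      rw [Nat.card_eq_fintype_card]
      exact FiniteField.pow_card_pow _ _
    rw [Units.val_pow_eq_pow_val, Units.val_one]
    refine mul_right_cancel₀ x.ne_zero ?_
    rw [one_mul, ← pow_succ, Nat.sub_add_cancel (Nat.one_le_pow _ _ Nat.card_pos), h1]

/-- Type `D_{n+2}`, even rank. -/
theorem exists_surj_long_even (P : Polar hQ (n + 2)) (hW : ∀ w ∈ P.W, w = 0) (hn : 5 ≤ Fintype.card ι)
    (hl : 4 ≤ n + 2) (hexc : ¬ (n + 2 = 4 ∧ Nat.card F = 2)) (heven : Even (n + 2)) :
    ∃ π : Multiplicative (ZMod (Nat.gcd 2 (Nat.card F ^ (n + 2) - 1)) ×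
      ZMod (Nat.gcd 2 (Nat.card F ^ (n + 2) - 1))) →* τ.ker, Function.Surjective π := by
  obtain ⟨p, _, hp⟩ := exists_prime_char F
  haveI : Fact p.Prime := ⟨hp⟩
  have hn' : Even n := by rwa [Nat.even_add, iff_true_right (by decide)] at heven
  obtain ⟨π₀, hπ₀⟩ := (longNodes P hW p hn).exists_ker_surj
    ⟨hτ.1, hτ.2.1, prime_to_of_noMult (noMult_long P hW hn hl hexc) hτ⟩
    (perfect_of_stem hτ (pomega_perfect hQ hn))
  let j := (tAHom (p := p) P hW hn (Fin.last n)).prod (tAHom P hW hn 0)
  have hj : Function.Injective j := tA_pair_injective P hW hn (by omega)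
  have hsq : ∀ a, j a ^ 2 = 1 := tA_pair_sq P hW hn (by omega) hn'
  haveI := Fintype.ofFinite F
  by_cases h2 : (2 : F) = 0
  · refine ⟨1, fun x => ⟨1, ?_⟩⟩
    obtain ⟨a, rfl⟩ := hπ₀ x
    have h1 : ∀ y : Fˣ, y ^ 2 = 1 → y = 1 := fun y hy => Units.ext (by
      have hy' : (y : F) ^ 2 = 1 := by rw [← Units.val_pow_eq_pow_val, hy, Units.val_one]
      have : ((y : F) - 1) ^ 2 = 0 := by
        linear_combination hy' + (1 - (y : F)) * h2
      exact sub_eq_zero.1 (pow_eq_zero_iff two_ne_zero |>.1 this))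
    have : a = 1 := hj (by
      rw [map_one]
      exact Prod.ext (h1 _ (congrArg Prod.fst (hsq a))) (h1 _ (congrArg Prod.snd (hsq a))))
    rw [this, map_one, map_one]
  · have hodd : Odd (Nat.card F) := by
      rw [Nat.card_eq_fintype_card, Nat.odd_iff]
      exact FiniteField.odd_card_of_char_ne_two fun h => h2 (by
        haveI : CharP F 2 := ringChar.of_eq h
        exact_mod_cast CharP.cast_eq_zero F 2)
    have hg : Nat.gcd 2 (Nat.card F ^ (n + 2) - 1) = 2 :=
      Nat.gcd_eq_left (by have := Nat.odd_iff.1 (hodd.pow (n := n + 2)); omega)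
    rw [hg]
    exact exists_surj_klein hπ₀ j hj hsq

end CfsgLib.SchurOrth
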