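import Mathlib
import Cfsg.Agent.SchurOrth.SpinCover
import Cfsg.Agent.SchurOrth.Existence
import Cfsg.Agent.Classical.Orth.CentreOmega

/-!
Stem extensions of the orthogonal groups in even dimension of the largest possible order.
-/

set_option autoImplicit false
set_option linter.unusedSectionVars false

namespace CfsgLib.SchurOrth

open Cfsg.Geo CfsgLib.OrthGeo Matrix
open scoped MatrixGroups

universe u

variable {ι : Type} [Fintype ι] [DecidableEq ι] {F : Type u} [Field F] [Finite F] {Q : (ι → F) → F}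
variable {hQ : IsNondegenerateQuadraticForm Q} {m : ℕ}

/-- A stem extension with a kernel of a given order. -/
theorem exists_cover_ge (P : Polar hQ m) (hm : 3 ≤ m) (hn : 5 ≤ Fintype.card ι) (g : ℕ)
    (h1 : (2 : F) = 0 → g ≤ 1) (hg : g ≤ 4)
    (h4 : (2 : F) ≠ 0 → 2 < g →
      ∃ e : Cfsg.isometryGroup F Q, e ∈ Cfsg.Omega F Q ∧ ((e : GL ι F) : Matrix ι ι F) = -1) :
    ∃ (Γ : Type u) (_ : Group Γ) (_ : Finite Γ) (σ : Γ →* Cfsg.POmega F Q),
      Cfsg.IsStemExtension σ ∧ g ≤ Nat.card σ.ker := by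
  by_cases h2 : (2 : F) = 0
  · have hperf : _root_.commutator ↥(omegaGL Q) = ⊤ := by
      apply Subgroup.map_injective (omegaGL Q).subtype_injective
      rw [Subgroup.map_subtype_commutator, ← MonoidHom.range_eq_map, Subgroup.range_subtype,
        omegaGL_perfect hQ hn]
    exact ⟨↥(omegaGL Q), inferInstance, inferInstance, (prΩ Q).comp (MonoidHom.id _),
      isStem_prΩ Function.surjective_id (by simp) hperf, (h1 h2).trans Nat.card_pos⟩
  obtain ⟨a, b, c, ha, hb, hc, hab, hac, hbc⟩ := P.exists_orth_triple hm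
  obtain ⟨Γ, i1, i2, θ, hs, hθc, hperf, hne⟩ := exists_spinCover hQ h2 hn
    (ha ▸ one_ne_zero) (hb.trans ha.symm) (hc.trans ha.symm) hab hac hbc
  refine ⟨Γ, i1, i2, (prΩ Q).comp θ, isStem_prΩ hs hθc hperf, ?_⟩
  rw [card_ker_prΩ_comp hs]
  have hk : 2 ≤ Nat.card θ.ker := (Subgroup.one_lt_card_iff_ne_bot _).2 hne
  by_cases hg2 : g ≤ 2
  · exact hg2.trans (hk.trans (Nat.le_mul_of_pos_right _ Nat.card_pos))
  · rw [← Nat.card_congr (Subgroup.centerCongr (omegaEquiv Q)).toEquiv,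
      (CfsgLib.Classical.Orth.card_center_omega hQ hn).2 (h4 h2 (by omega)) h2]
    omega

/-- The multiplier from the bound and a large cover. -/
theorem hasSchurMultiplier_of_cover (P : Polar hQ m) (hm : 3 ≤ m) (hn : 5 ≤ Fintype.card ι)
    (A : Type) [CommGroup A] [Finite A] (h1 : (2 : F) = 0 → Nat.card A ≤ 1) (hg : Nat.card A ≤ 4)
    (h4 : (2 : F) ≠ 0 → 2 < Nat.card A →
      ∃ e : Cfsg.isometryGroup F Q, e ∈ Cfsg.Omega F Q ∧ ((e : GL ι F) : Matrix ι ι F) = -1)
    (hbound : ∀ (Γ : Type u) [Group Γ] [Finite Γ] (σ : Γ →* Cfsg.POmega F Q), Cfsg.IsStemExtension σ →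
      ∃ π : A →* σ.ker, Function.Surjective π) : Cfsg.HasSchurMultiplier (Cfsg.POmega F Q) A := by
  obtain ⟨Γ, i1, i2, σ, hσ, hc⟩ := exists_cover_ge P hm hn (Nat.card A) h1 hg h4
  exact hasSchurMultiplier_of_bound A hbound hσ hc

theorem even_card_of_two_eq_zero {F : Type u} [Field F] [Fintype F] (h2 : (2 : F) = 0) :
    Fintype.card F % 2 = 0 :=
  FiniteField.even_card_of_char_two (CharP.ringChar_of_prime_eq_zero Nat.prime_two (by simpa using h2))

theorem odd_card_of_two_ne_zero {F : Type u} [Field F] [Fintype F] (h2 : (2 : F) ≠ 0) :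
    Odd (Fintype.card F) := by
  rw [Nat.odd_iff]
  exact FiniteField.odd_card_of_char_ne_two fun h => h2 (by
    haveI : CharP F 2 := ringChar.of_eq h
    exact_mod_cast CharP.cast_eq_zero F 2)

end CfsgLib.SchurOrth
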