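import Mathlib
import Cfsg.Agent.SchurOrth.StdNodes
import Cfsg.Agent.Classical.Orth.Forms

/-!
The standard frames of the even-dimensional forms and the quadratic extension carrying the binary
part of the form of minus type.
-/

set_option autoImplicit false
set_option linter.unusedSectionVars false

namespace CfsgLib.SchurOrth

open Cfsg.Geo CfsgLib.OrthGeo CfsgLib.Classical.Orth Matrix

universe u

variable (F : Type u) [Field F] (m : ℕ)

/-- The standard frame of the form of plus type. -/
def plusPolar : Polar (isNondegQF_quadFormPlus (F := F) m) m where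
  b a := Pi.single a 1
  q_b a := by rcases a with a | a <;> simp [Cfsg.quadFormPlus, Pi.single_apply]
  b_b a c := by
    rw [bform_apply]
    rcases a with a | a <;> rcases c with c | c <;>
      simp [QuadraticMap.polar, Cfsg.quadFormPlus, Pi.single_apply, add_mul, mul_add,
        Finset.sum_add_distrib, eq_comm]
  aniso w hw _ := by
    funext c
    have h := hw c.swap
    rw [bform_apply] at h
    rcases c with c | c <;>
      simpa [QuadraticMap.polar, Cfsg.quadFormPlus, Pi.single_apply, add_mul, mul_add,
        Finset.sum_add_distrib] using h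

theorem plusPolar_W : ∀ w ∈ (plusPolar F m).W, w = 0 := by
  intro w hw
  funext c
  have h := (plusPolar F m).bform_b_W hw c.swap
  rw [bform_apply] at h
  rcases c with c | c <;>
    simpa [plusPolar, QuadraticMap.polar, Cfsg.quadFormPlus, Pi.single_apply, add_mul, mul_add,
      Finset.sum_add_distrib] using h

variable {F} [Finite F] {a b : F}
  (hab : ∀ z₁ z₂ : F, z₁ ^ 2 + a * z₁ * z₂ + b * z₂ ^ 2 = 0 → z₁ = 0 ∧ z₂ = 0)

/-- A frame vector of the form of minus type. -/
def minusVec (x : Fin m ⊕ Fin m) : (Fin m ⊕ Fin m) ⊕ Fin 2 → F := Pi.single (Sum.inl x) 1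

theorem bform_minusVec (x : Fin m ⊕ Fin m) (v : (Fin m ⊕ Fin m) ⊕ Fin 2 → F) :
    bform (isNondegQF_quadFormMinus m a b hab) (minusVec m x) v = v (Sum.inl x.swap) := by
  rw [bform_apply]
  rcases x with x | x <;>
    simp [minusVec, QuadraticMap.polar, Cfsg.quadFormMinus, Pi.single_apply, add_mul, mul_add,
      Finset.sum_add_distrib]

/-- The standard frame of the form of minus type. -/
def minusPolar : Polar (isNondegQF_quadFormMinus m a b hab) m where
  b := minusVec m
  q_b x := by rcases x with x | x <;> simp [minusVec, Cfsg.quadFormMinus, Pi.single_apply]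
  b_b x c := by
    rw [bform_minusVec m hab, minusVec, Pi.single_apply]
    exact if_congr ⟨fun h => (Sum.inl_injective h).symm, fun h => by rw [h]⟩ rfl rfl
  aniso w hw h0 := by
    have hz : ∀ x, w (Sum.inl x) = 0 := fun x => by
      have := hw x.swap
      rwa [bform_minusVec m hab, Sum.swap_swap] at this
    have h := hab (w (Sum.inr 0)) (w (Sum.inr 1)) (by simpa [Cfsg.quadFormMinus, hz] using h0)
    funext j
    rcases j with x | j
    · exact hz x
    · fin_cases j
      · exact h.1
      · exact h.2

theorem mem_minusW {w : (Fin m ⊕ Fin m) ⊕ Fin 2 → F} :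
    w ∈ (minusPolar m hab).W ↔ ∀ x, w (Sum.inl x) = 0 := by
  rw [Polar.mem_W]
  refine ⟨fun h x => ?_, fun h x => ?_⟩
  · have := h x
    rwa [Polar.coord_apply, show (minusPolar m hab).b = minusVec m from rfl, bform_minusVec m hab,
      Sum.swap_swap] at this
  · rw [Polar.coord_apply, show (minusPolar m hab).b = minusVec m from rfl, bform_minusVec m hab, h]

include hab in
theorem no_root (r : F) : r ^ 2 ≠ -b + a * r := fun h =>
  one_ne_zero (hab (-r) 1 (by linear_combination h)).2

/-- The quadratic extension splitting the binary part. -/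
noncomputable def minusShort : ShortData (minusPolar m hab) :=
  haveI : Fact (∀ r : F, r ^ 2 ≠ -b + a * r) := ⟨no_root hab⟩
  haveI : Finite (QuadraticAlgebra F (-b) a) := Finite.of_equiv _ (QuadraticAlgebra.equivProd (-b) a).symm
  { K := QuadraticAlgebra F (-b) a
    σ := AlgEquiv.ofRingEquiv (f := starRingAut) fun r => by ext <;> simp
    σσ := star_star
    fix := fun x hx => by
      have h1 : -x.im = x.im := congrArg QuadraticAlgebra.im hx
      have h2 : x.re + a * x.im = x.re := congrArg QuadraticAlgebra.re hx
      have h3 : x.im * (4 * b - a ^ 2) = 0 := by linear_combination (-(2 * b)) * h1 - a * h2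
      refine ⟨x.re, QuadraticAlgebra.ext (by simp) ?_⟩
      simpa using ((mul_eq_zero.1 h3).resolve_right (four_mul_sub_sq_ne_zero hab)).symm
    ψ :=
      { toFun := fun w => ⟨(w : (Fin m ⊕ Fin m) ⊕ Fin 2 → F) (Sum.inr 0), (w : (Fin m ⊕ Fin m) ⊕ Fin 2 → F) (Sum.inr 1)⟩
        map_add' := fun _ _ => rfl
        map_smul' := fun _ _ => rfl
        invFun := fun c => ⟨Sum.elim (fun _ => 0) ![c.re, c.im], (mem_minusW m hab).2 fun x => by simp⟩
        left_inv := fun w => Subtype.ext (funext fun j => by
          rcases j with x | j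
          · simp [(mem_minusW m hab).1 w.2 x]
          · fin_cases j <;> simp)
        right_inv := fun c => by ext <;> simp }
    norm := fun w => by
      show algebraMap F _ _ = _
      have hz := (mem_minusW m hab).1 w.2
      refine (congrArg (algebraMap F _) ?_).trans (QuadraticAlgebra.algebraMap_norm_eq_mul_star _)
      simp [Cfsg.quadFormMinus, hz, QuadraticAlgebra.norm_def]
      ring }

theorem minusShort_moved : ∃ x, (minusShort m hab).σ x ≠ x := by
  refine ⟨(⟨0, 1⟩ : QuadraticAlgebra F (-b) a), fun h => ?_⟩
  have h1 : -(1 : F) = 1 := congrArg QuadraticAlgebra.im h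
  have h2 : 0 + a * 1 = (0 : F) := congrArg QuadraticAlgebra.re h
  exact four_mul_sub_sq_ne_zero hab (by linear_combination (-(2 * b)) * h1 - a * h2)

end CfsgLib.SchurOrth
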